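import Mathlib
import Cfsg.Prelude.Def_Characters
import Cfsg.Prelude.Def_Blocks
import Cfsg.Prelude.Def_Perm

/-!
# S4504 (Brauer: faithful character of degree `(p-1)/2`, `p ∥ |G|`) — definitions and the
exact statements of the team-project pieces (helper79)

Notation of the paper proof: `f = charDegree χ = (p-1)/2`, `η = χ x₁`, `η' = χ x₂`
(`η + η' = -1`, `|η|² + |η'|² = f + 1`), `Z = Z(G)`.
-/

set_option autoImplicit false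

namespace Cfsg.Agent.H79.Br

open Cfsg
open scoped ComplexConjugate

universe u

/-- The irreducible characters with the same central character as `χ₀`
(`χ₀ = 1` : those trivial on the centre). -/
def Ov {G : Type u} [Group G] (χ₀ : G → ℂ) : Set (IrrCharacter G) :=
  {ψ | ∀ z ∈ Subgroup.center G, ψ.1 z * χ₀ 1 = χ₀ z * ψ.1 1}

/-- Non-principal characters over `χ₀` with value `1` on `x₁`, `x₂`. -/
def Tp {G : Type u} [Group G] (x₁ x₂ : G) (χ₀ : G → ℂ) : Set (IrrCharacter G) :=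
  {ψ | ψ ∈ Ov χ₀ ∧ ψ.1 x₁ = 1 ∧ ψ.1 x₂ = 1 ∧ ψ.1 ≠ 1}

/-- Characters over `χ₀` with value `-1` on `x₁`, `x₂`. -/
def Tm {G : Type u} [Group G] (x₁ x₂ : G) (χ₀ : G → ℂ) : Set (IrrCharacter G) :=
  {ψ | ψ ∈ Ov χ₀ ∧ ψ.1 x₁ = -1 ∧ ψ.1 x₂ = -1}

/-- Group-theoretic local data: `x₁, x₂` represent the two classes of elements of order `p`,
`C_G(x_i) = P × Z(G)`, `|N_G(P)| = p f |Z(G)|`. -/
structure GrpLoc {G : Type u} [Group G] (p : ℕ) (P : Subgroup G) (f : ℕ) (x₁ x₂ : G) : Prop where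
  mem₁ : x₁ ∈ P
  mem₂ : x₂ ∈ P
  ne₁ : x₁ ≠ 1
  ne₂ : x₂ ≠ 1
  nconj : ¬ IsConj x₁ x₂
  zreg : ∀ z ∈ Subgroup.center G, ¬ p ∣ orderOf z
  cent₁ : Nat.card (Subgroup.centralizer ({x₁} : Set G)) = p * Nat.card (Subgroup.center G)
  cent₂ : Nat.card (Subgroup.centralizer ({x₂} : Set G)) = p * Nat.card (Subgroup.center G)
  sing : ∀ g : G, p ∣ orderOf g →
    ∃ z ∈ Subgroup.center G, IsConj g (x₁ * z) ∨ IsConj g (x₂ * z)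
  orb : ∀ F : G → ℂ, IsClassFunction G F →
    ∑ᶠ x : P, F x = F 1 + (f : ℂ) * F x₁ + (f : ℂ) * F x₂
  par3 : p % 4 = 3 → IsConj x₁⁻¹ x₂
  par1 : p % 4 = 1 → IsConj x₁⁻¹ x₁ ∧ IsConj x₂⁻¹ x₂
  norm : Nat.card (Subgroup.normalizer (P : Set G)) = p * f * Nat.card (Subgroup.center G)

/-- The full local data used by the character-theoretic core. -/
structure Loc {G : Type u} [Group G] (p : ℕ) (P : Subgroup G) (χ : G → ℂ) (x₁ x₂ : G) : Prop where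
  grp : GrpLoc p P (charDegree χ) x₁ x₂
  cardP : Nat.card P = p
  nn : ¬ P.Normal
  irr : IsIrrCharacter G χ
  deg : 2 * charDegree χ + 1 = p
  five : 5 ≤ p
  faith : ∀ g : G, χ g = χ 1 → g = 1
  sum : χ x₁ + χ x₂ = -1
  sq : χ x₁ * conj (χ x₁) + χ x₂ * conj (χ x₂) = (charDegree χ : ℂ) + 1
  type : ∀ ψ : IrrCharacter G,
    (ψ.1 x₁ = 0 ∧ ψ.1 x₂ = 0) ∨ (ψ.1 x₁ = 1 ∧ ψ.1 x₂ = 1) ∨ (ψ.1 x₁ = -1 ∧ ψ.1 x₂ = -1) ∨
    (ψ.1 x₁ = χ x₁ ∧ ψ.1 x₂ = χ x₂) ∨ (ψ.1 x₁ = χ x₂ ∧ ψ.1 x₂ = χ x₁) ∨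
    (ψ.1 x₁ = -χ x₁ ∧ ψ.1 x₂ = -χ x₂) ∨ (ψ.1 x₁ = -χ x₂ ∧ ψ.1 x₂ = -χ x₁)
  nolin : ∀ ψ : IrrCharacter G, charDegree ψ.1 = 1 → ψ.1 = 1

/-! ## Part 1: the local analysis -/

/-- **S4504-LIB** (on helper82's library `Cfsg.Agent.H82.P1A … P3H`). -/
def StLib : Prop :=
  ∀ {G : Type u} [Group G] [Finite G] (p : ℕ) [Fact p.Prime] (P : Sylow p G),
    Nat.card (P : Subgroup G) = p →
    (∀ K : Subgroup G, K.Normal → (P : Subgroup G) ≤ K → K = ⊤) →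
    ¬ (P : Subgroup G).Normal →
    ∀ χ : G → ℂ, IsCharacter G χ → (∀ g : G, χ g = χ 1 → g = 1) →
      2 * charDegree χ + 1 = p →
      IsIrrCharacter G χ ∧
      (∀ c ∈ Subgroup.centralizer ((P : Subgroup G) : Set G), ¬ p ∣ orderOf c →
        c ∈ Subgroup.center G) ∧
      Nat.card (Subgroup.normalizer ((P : Subgroup G) : Set G)) =
        charDegree χ * Nat.card (Subgroup.centralizer ((P : Subgroup G) : Set G)) ∧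
      (∑ᶠ x : (P : Subgroup G), χ x = 0) ∧
      (∑ᶠ x : (P : Subgroup G), χ x * conj (χ x) = (p : ℂ) * (charDegree χ : ℂ)) ∧
      ∀ ψ : IrrCharacter G,
        (∀ x ∈ (P : Subgroup G), x ≠ 1 → ψ.1 x = 0) ∨
        (∀ x ∈ (P : Subgroup G), x ≠ 1 → ψ.1 x = 1) ∨
        (∀ x ∈ (P : Subgroup G), x ≠ 1 → ψ.1 x = -1) ∨
        (∀ x ∈ (P : Subgroup G), x ≠ 1 → ψ.1 x = χ x) ∨
        (∀ x ∈ (P : Subgroup G), x ≠ 1 → ψ.1 x = -1 - χ x) ∨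
        (∀ x ∈ (P : Subgroup G), x ≠ 1 → ψ.1 x = -χ x) ∨
        (∀ x ∈ (P : Subgroup G), x ≠ 1 → ψ.1 x = 1 + χ x)

/-- **S4504-LIB2** (library; the `≤` version of `H82.P1.comm_of_ind_one` applied to `M ⊔ P`):
a normal `p'`-subgroup centralizes `P`. -/
def StCentP : Prop :=
  ∀ {G : Type u} [Group G] [Finite G] (p : ℕ) [Fact p.Prime] (P : Sylow p G),
    Nat.card (P : Subgroup G) = p →
    ∀ χ : G → ℂ, IsCharacter G χ → (∀ g : G, χ g = χ 1 → g = 1) →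
      2 * charDegree χ + 1 ≤ p →
      ∀ M : Subgroup G, M.Normal → ¬ p ∣ Nat.card M →
        ∀ m ∈ M, ∀ x ∈ (P : Subgroup G), m * x = x * m

/-- **S4504-GLCENT**: `C_G(P) = P × Z(G)`. -/
def StGLCent : Prop :=
  ∀ {G : Type u} [Group G] [Finite G] (p : ℕ) [Fact p.Prime] (P : Sylow p G),
    Nat.card (P : Subgroup G) = p → ¬ (P : Subgroup G).Normal →
    (∀ c ∈ Subgroup.centralizer ((P : Subgroup G) : Set G), ¬ p ∣ orderOf c →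
      c ∈ Subgroup.center G) →
    Nat.card (Subgroup.centralizer ((P : Subgroup G) : Set G)) =
        p * Nat.card (Subgroup.center G) ∧
      (∀ z ∈ Subgroup.center G, ¬ p ∣ orderOf z) ∧
      ∀ x ∈ (P : Subgroup G), x ≠ 1 →
        Subgroup.centralizer ({x} : Set G) = Subgroup.centralizer ((P : Subgroup G) : Set G)

/-- **S4504-GLREPS**: two non-conjugate elements of `P ∖ 1`. -/
def StGLReps : Prop :=
  ∀ {G : Type u} [Group G] [Finite G] (p : ℕ) [Fact p.Prime] (P : Sylow p G),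
    Nat.card (P : Subgroup G) = p → ∀ f : ℕ, 2 * f + 1 = p → 5 ≤ p →
    Nat.card (Subgroup.normalizer ((P : Subgroup G) : Set G)) =
      f * Nat.card (Subgroup.centralizer ((P : Subgroup G) : Set G)) →
    ∃ x₁ x₂ : G, x₁ ∈ (P : Subgroup G) ∧ x₂ ∈ (P : Subgroup G) ∧ x₁ ≠ 1 ∧ x₂ ≠ 1 ∧
      ¬ IsConj x₁ x₂

/-- **S4504-GLORB**: `P ∖ 1` is the union of the two classes, each meeting `P` in `f` points. -/
def StGLOrb : Prop :=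
  ∀ {G : Type u} [Group G] [Finite G] (p : ℕ) [Fact p.Prime] (P : Sylow p G),
    Nat.card (P : Subgroup G) = p → ∀ f : ℕ, 2 * f + 1 = p →
    Nat.card (Subgroup.normalizer ((P : Subgroup G) : Set G)) =
      f * Nat.card (Subgroup.centralizer ((P : Subgroup G) : Set G)) →
    ∀ x₁ x₂ : G, x₁ ∈ (P : Subgroup G) → x₂ ∈ (P : Subgroup G) → x₁ ≠ 1 → x₂ ≠ 1 →
      ¬ IsConj x₁ x₂ →
      (∀ x ∈ (P : Subgroup G), x ≠ 1 → IsConj x x₁ ∨ IsConj x x₂) ∧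
      ∀ F : G → ℂ, IsClassFunction G F →
        ∑ᶠ x : (P : Subgroup G), F x = F 1 + (f : ℂ) * F x₁ + (f : ℂ) * F x₂

/-- **S4504-GLSING**: the `p`-singular elements. -/
def StGLSing : Prop :=
  ∀ {G : Type u} [Group G] [Finite G] (p : ℕ) [Fact p.Prime] (P : Sylow p G),
    Nat.card (P : Subgroup G) = p →
    (∀ c ∈ Subgroup.centralizer ((P : Subgroup G) : Set G), ¬ p ∣ orderOf c →
      c ∈ Subgroup.center G) →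
    ∀ x₁ x₂ : G, (∀ x ∈ (P : Subgroup G), x ≠ 1 → IsConj x x₁ ∨ IsConj x x₂) →
      ∀ g : G, p ∣ orderOf g →
        ∃ z ∈ Subgroup.center G, IsConj g (x₁ * z) ∨ IsConj g (x₂ * z)

/-- **S4504-GLPAR**: inverses. -/
def StGLPar : Prop :=
  ∀ {G : Type u} [Group G] [Finite G] (p : ℕ) [Fact p.Prime] (P : Sylow p G),
    Nat.card (P : Subgroup G) = p → ∀ f : ℕ, 2 * f + 1 = p →
    Nat.card (Subgroup.normalizer ((P : Subgroup G) : Set G)) =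
      f * Nat.card (Subgroup.centralizer ((P : Subgroup G) : Set G)) →
    ∀ x₁ x₂ : G, x₁ ∈ (P : Subgroup G) → x₂ ∈ (P : Subgroup G) → x₁ ≠ 1 → x₂ ≠ 1 →
      ¬ IsConj x₁ x₂ →
      (∀ x ∈ (P : Subgroup G), x ≠ 1 → IsConj x x₁ ∨ IsConj x x₂) →
      (p % 4 = 3 → IsConj x₁⁻¹ x₂) ∧ (p % 4 = 1 → IsConj x₁⁻¹ x₁ ∧ IsConj x₂⁻¹ x₂)

/-- **S4504-NOLIN**: `G` is perfect and has no non-principal linear character. -/
def StNoLin : Prop :=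
  ∀ {G : Type u} [Group G] [Finite G] (p : ℕ) [Fact p.Prime] (P : Sylow p G),
    Nat.card (P : Subgroup G) = p →
    (∀ K : Subgroup G, K.Normal → (P : Subgroup G) ≤ K → K = ⊤) →
    (∃ n ∈ Subgroup.normalizer ((P : Subgroup G) : Set G), ∃ x ∈ (P : Subgroup G),
      n * x ≠ x * n) →
    commutator G = ⊤ ∧ ∀ ψ : IrrCharacter G, charDegree ψ.1 = 1 → ψ.1 = 1

/-- **S4504-FIVE**: `p ≥ 5`. -/
def StFive : Prop :=
  ∀ {G : Type u} [Group G] [Finite G] (p : ℕ) [Fact p.Prime] (P : Sylow p G),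
    Nat.card (P : Subgroup G) = p → ¬ (P : Subgroup G).Normal →
    ∀ χ : G → ℂ, IsCharacter G χ → (∀ g : G, χ g = χ 1 → g = 1) →
      2 * charDegree χ + 1 = p → 5 ≤ p

/-- **S4504-LOC** (assembly of Part 1). -/
def StLoc : Prop :=
  ∀ {G : Type u} [Group G] [Finite G] (p : ℕ) [Fact p.Prime] (P : Sylow p G),
    Nat.card (P : Subgroup G) = p →
    (∀ K : Subgroup G, K.Normal → (P : Subgroup G) ≤ K → K = ⊤) →
    ¬ (P : Subgroup G).Normal →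
    ∀ χ : G → ℂ, IsCharacter G χ → (∀ g : G, χ g = χ 1 → g = 1) →
      2 * charDegree χ + 1 = p →
      ∃ x₁ x₂ : G, Loc p (P : Subgroup G) χ x₁ x₂

/-! ## Part 2: generic tools -/

/-- **S4504-CCP**: class multiplication constants (general version of `H81.card_conj_pairs`). -/
def StCCP : Prop :=
  ∀ {G : Type u} [Group G] [Finite G] (z w y : G),
    (Nat.card {ab : G × G // ab.1 * z * ab.1⁻¹ * (ab.2 * w * ab.2⁻¹) = y} : ℂ) =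
      (Nat.card G : ℂ) *
        ∑ᶠ ψ : IrrCharacter G, ψ.1 z * ψ.1 w * conj (ψ.1 y) / ψ.1 1

/-- **S4504-TWORTH**: column orthogonality for the characters over a central character. -/
def StTwOrth : Prop :=
  ∀ {G : Type u} [Group G] [Finite G] (χ₀ : IrrCharacter G) (g h : G),
    (Nat.card (Subgroup.center G) : ℂ) * ∑ᶠ ψ ∈ Ov χ₀.1, ψ.1 g * conj (ψ.1 h) =
      ∑ᶠ z : Subgroup.center G, conj (χ₀.1 z / χ₀.1 1) *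
        (Nat.card {c : G // c * ((z : G) * g) * c⁻¹ = h} : ℂ)

/-- **S4504-TWCCP**: the class constants over the trivial central character dominate those over
any central character. -/
def StTwCCP : Prop :=
  ∀ {G : Type u} [Group G] [Finite G] (χ₀ : IrrCharacter G) (x x' y : G),
    (∑ᶠ ψ ∈ Ov (1 : G → ℂ), ψ.1 x * ψ.1 x' * conj (ψ.1 y) / ψ.1 1).im = 0 ∧
    ‖∑ᶠ ψ ∈ Ov χ₀.1, ψ.1 x * ψ.1 x' * conj (ψ.1 y) / ψ.1 1‖ ≤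
      (∑ᶠ ψ ∈ Ov (1 : G → ℂ), ψ.1 x * ψ.1 x' * conj (ψ.1 y) / ψ.1 1).re

/-- **S4504-ABS**: `|ψ(g)| ≤ ψ(1)`, and equality for a faithful irreducible character forces
`g` central. -/
def StAbs : Prop :=
  ∀ {G : Type u} [Group G] [Finite G] (ψ : IrrCharacter G),
    (∀ g : G, ‖ψ.1 g‖ ≤ (charDegree ψ.1 : ℝ)) ∧
    ((∀ g : G, ψ.1 g = ψ.1 1 → g = 1) →
      ∀ g : G, ‖ψ.1 g‖ = (charDegree ψ.1 : ℝ) → g ∈ Subgroup.center G)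

/-- **S4504-MSPLIT**: splitting a sum over `G` into `p`-regular and `p`-singular elements. -/
def StMSplit : Prop :=
  ∀ {G : Type u} [Group G] [Finite G] (p : ℕ) [Fact p.Prime] (P : Subgroup G) (f : ℕ)
    (x₁ x₂ : G), GrpLoc p P f x₁ x₂ →
    ∀ F : G → ℂ, IsClassFunction G F →
      (∀ g : G, ∀ z ∈ Subgroup.center G, F (g * z) = F g) →
      (p : ℂ) * ∑ᶠ g : G, F g =
        (p : ℂ) * ∑ᶠ g ∈ {g : G | ¬ p ∣ orderOf g}, F g + (Nat.card G : ℂ) * (F x₁ + F x₂)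

/-- **S4504-SYLLB**: Sylow counting. -/
def StSylLB : Prop :=
  ∀ {G : Type u} [Group G] [Finite G] (p : ℕ) [Fact p.Prime] (P : Sylow p G),
    ¬ (P : Subgroup G).Normal →
    (p + 1) * Nat.card (Subgroup.normalizer ((P : Subgroup G) : Set G)) ≤ Nat.card G ∧
    Nat.card G =
      Nat.card (Sylow p G) * Nat.card (Subgroup.normalizer ((P : Subgroup G) : Set G))

/-- **S4504-CENTCONST**: the constituents of a function with central character that of `χ₀`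
lie over `χ₀`. -/
def StCentConst : Prop :=
  ∀ {G : Type u} [Group G] [Finite G] (χ₀ : IrrCharacter G) (m : IrrCharacter G → ℕ)
    (Ξ : G → ℂ), Ξ = ∑ᶠ ψ : IrrCharacter G, (m ψ : ℂ) • ψ.1 →
    (∀ z ∈ Subgroup.center G, ∀ g : G, Ξ (z * g) * χ₀.1 1 = χ₀.1 z * Ξ g) →
    ∀ ψ : IrrCharacter G, m ψ ≠ 0 → ψ ∈ Ov χ₀.1

/-! ## Part 3: consequences of the local data -/

/-- **S4504-ORTH**. -/
def StOrth : Prop :=
  ∀ {G : Type u} [Group G] [Finite G] (p : ℕ) [Fact p.Prime] (P : Subgroup G) (f : ℕ)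
    (x₁ x₂ : G), GrpLoc p P f x₁ x₂ → ∀ χ₀ : IrrCharacter G,
    (∑ᶠ ψ ∈ Ov χ₀.1, ψ.1 x₁ * conj (ψ.1 x₁) = (p : ℂ)) ∧
    (∑ᶠ ψ ∈ Ov χ₀.1, ψ.1 x₂ * conj (ψ.1 x₂) = (p : ℂ)) ∧
    (∑ᶠ ψ ∈ Ov χ₀.1, ψ.1 x₁ * conj (ψ.1 x₂) = 0) ∧
    ∀ y : G, ¬ p ∣ orderOf y →
      (∑ᶠ ψ ∈ Ov χ₀.1, ψ.1 x₁ * conj (ψ.1 y) = 0) ∧
      (∑ᶠ ψ ∈ Ov χ₀.1, ψ.1 x₂ * conj (ψ.1 y) = 0)

/-- **S4504-PAIRARITH** (pure finite-sum arithmetic). -/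
def StPairArith : Prop :=
  ∀ {ι : Type u} [Fintype ι] (f p : ℕ) (η η' : ℂ) (u v : ι → ℂ),
    p.Prime → 2 * f + 1 = p → 2 ≤ f → η + η' = -1 →
    η * conj η + η' * conj η' = (f : ℂ) + 1 →
    (η' = conj η ∨ (conj η = η ∧ conj η' = η')) →
    (∀ i, (u i = 0 ∧ v i = 0) ∨ (u i = 1 ∧ v i = 1) ∨ (u i = -1 ∧ v i = -1) ∨
      (u i = η ∧ v i = η') ∨ (u i = η' ∧ v i = η) ∨
      (u i = -η ∧ v i = -η') ∨ (u i = -η' ∧ v i = -η)) →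
    ∑ i, u i * conj (u i) = (p : ℂ) → ∑ i, v i * conj (v i) = (p : ℂ) →
    ∑ i, u i * conj (v i) = 0 →
    (∃ i, (u i = η ∧ v i = η') ∨ (u i = -η ∧ v i = -η')) ∧
    (∀ i j, ((u i = η ∧ v i = η') ∨ (u i = -η ∧ v i = -η')) →
      ((u j = η ∧ v j = η') ∨ (u j = -η ∧ v j = -η')) → i = j) ∧
    (∃ i, (u i = η' ∧ v i = η) ∨ (u i = -η' ∧ v i = -η)) ∧
    (∀ i j, ((u i = η' ∧ v i = η) ∨ (u i = -η' ∧ v i = -η)) →
      ((u j = η' ∧ v j = η) ∨ (u j = -η' ∧ v j = -η)) → i = j) ∧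
    Nat.card {i : ι // u i = 1 ∨ u i = -1} = f

/-- **S4504-PAIR**: the two exceptional characters over a central character. -/
def StPair : Prop :=
  ∀ {G : Type u} [Group G] [Finite G] (p : ℕ) [Fact p.Prime] (P : Subgroup G) (χ : G → ℂ)
    (x₁ x₂ : G), Loc p P χ x₁ x₂ → ∀ χ₀ : IrrCharacter G,
    ∃ (ε : ℂ) (θ θ' : IrrCharacter G), (ε = 1 ∨ ε = -1) ∧ θ ∈ Ov χ₀.1 ∧ θ' ∈ Ov χ₀.1 ∧
      θ.1 x₁ = ε * χ x₁ ∧ θ.1 x₂ = ε * χ x₂ ∧ θ'.1 x₁ = ε * χ x₂ ∧ θ'.1 x₂ = ε * χ x₁ ∧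
      charDegree θ.1 = charDegree θ'.1 ∧
      (∀ y : G, ¬ p ∣ orderOf y → θ.1 y = θ'.1 y) ∧
      (∀ ψ ∈ Ov χ₀.1, ψ ≠ θ → ψ ≠ θ' →
        (ψ.1 x₁ = 0 ∧ ψ.1 x₂ = 0) ∨ (ψ.1 x₁ = 1 ∧ ψ.1 x₂ = 1) ∨
          (ψ.1 x₁ = -1 ∧ ψ.1 x₂ = -1)) ∧
      Nat.card {ψ : IrrCharacter G // ψ ∈ Ov χ₀.1 ∧ (ψ.1 x₁ = 1 ∨ ψ.1 x₁ = -1)} =
        charDegree χ

/-- **S4504-CFUN**: the multiplicity of the trivial character of `P`. -/
def StCFun : Prop :=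
  ∀ {G : Type u} [Group G] [Finite G] (p : ℕ) [Fact p.Prime] (P : Subgroup G) (f : ℕ)
    (x₁ x₂ : G), GrpLoc p P f x₁ x₂ → Nat.card P = p →
    ∀ Ξ : G → ℂ, IsCharacter G Ξ →
      ∃ c : ℕ, Ξ 1 + (f : ℂ) * Ξ x₁ + (f : ℂ) * Ξ x₂ = (p : ℂ) * (c : ℂ)

/-- **S4504-DEG**: the degrees by type. -/
def StDeg : Prop :=
  ∀ {G : Type u} [Group G] [Finite G] (p : ℕ) [Fact p.Prime] (P : Subgroup G) (χ : G → ℂ)
    (x₁ x₂ : G), Loc p P χ x₁ x₂ → ∀ ψ : IrrCharacter G,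
    (ψ.1 x₁ = 0 ∧ ψ.1 x₂ = 0 → p ∣ charDegree ψ.1) ∧
    (ψ.1 x₁ = 1 ∧ ψ.1 x₂ = 1 → ∃ d : ℕ, charDegree ψ.1 = p * d + 1) ∧
    (ψ.1 x₁ = -1 ∧ ψ.1 x₂ = -1 → ∃ d : ℕ, charDegree ψ.1 + 1 = p * (d + 1)) ∧
    (ψ.1 x₁ + ψ.1 x₂ = -1 → ∃ d : ℕ, charDegree ψ.1 = p * d + charDegree χ) ∧
    (ψ.1 x₁ + ψ.1 x₂ = 1 → ∃ d : ℕ, charDegree ψ.1 + charDegree χ = p * (d + 1))

/-- **S4504-DECC**: constituents of a character without trivial constituent on `P`. -/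
def StDecC : Prop :=
  ∀ {G : Type u} [Group G] [Finite G] (p : ℕ) [Fact p.Prime] (P : Subgroup G) (χ : G → ℂ)
    (x₁ x₂ : G), Loc p P χ x₁ x₂ →
    ∀ (m : IrrCharacter G → ℕ) (Ξ : G → ℂ), Ξ = ∑ᶠ ψ : IrrCharacter G, (m ψ : ℂ) • ψ.1 →
      Ξ 1 + (charDegree χ : ℂ) * Ξ x₁ + (charDegree χ : ℂ) * Ξ x₂ = 0 →
      ∀ ψ : IrrCharacter G, m ψ ≠ 0 →
        (ψ.1 x₁ = -1 ∧ ψ.1 x₂ = -1 ∧ charDegree ψ.1 + 1 = p) ∨
        (((ψ.1 x₁ = χ x₁ ∧ ψ.1 x₂ = χ x₂) ∨ (ψ.1 x₁ = χ x₂ ∧ ψ.1 x₂ = χ x₁)) ∧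
          charDegree ψ.1 = charDegree χ)

/-- **S4504-DECL**: the equality case of the `L`-functional
`L(Ξ) = (f+1)(Ξ x₁ + Ξ x₂) - Ξ 1`. -/
def StDecL : Prop :=
  ∀ {G : Type u} [Group G] [Finite G] (p : ℕ) [Fact p.Prime] (P : Subgroup G) (χ : G → ℂ)
    (x₁ x₂ : G), Loc p P χ x₁ x₂ →
    ∀ (m : IrrCharacter G → ℕ) (Ξ : G → ℂ), Ξ = ∑ᶠ ψ : IrrCharacter G, (m ψ : ℂ) • ψ.1 →
      ∀ triv : IrrCharacter G, triv.1 = 1 →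
      ((charDegree χ : ℂ) + 1) * (Ξ x₁ + Ξ x₂) - Ξ 1 = (p : ℂ) * (m triv : ℂ) →
      ∀ ψ : IrrCharacter G, m ψ ≠ 0 → ψ ≠ triv →
        (ψ.1 x₁ = 1 ∧ ψ.1 x₂ = 1 ∧ charDegree ψ.1 = p + 1) ∨
        (((ψ.1 x₁ = -χ x₁ ∧ ψ.1 x₂ = -χ x₂) ∨ (ψ.1 x₁ = -χ x₂ ∧ ψ.1 x₂ = -χ x₁)) ∧
          charDegree ψ.1 = charDegree χ + 1)

/-- **S4504-DECL0**: positivity of the `L`-functional forces the principal character. -/
def StDecL0 : Prop :=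
  ∀ {G : Type u} [Group G] [Finite G] (p : ℕ) [Fact p.Prime] (P : Subgroup G) (χ : G → ℂ)
    (x₁ x₂ : G), Loc p P χ x₁ x₂ →
    ∀ (m : IrrCharacter G → ℕ) (Ξ : G → ℂ), Ξ = ∑ᶠ ψ : IrrCharacter G, (m ψ : ℂ) • ψ.1 →
      ∀ triv : IrrCharacter G, triv.1 = 1 →
      0 < (((charDegree χ : ℂ) + 1) * (Ξ x₁ + Ξ x₂) - Ξ 1).re → m triv ≠ 0

/-! ## Part 4: the case `p ≡ 3 (mod 4)` -/

/-- **S4504-EXC3**. -/
def StExc3 : Prop :=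
  ∀ {G : Type u} [Group G] [Finite G] (p : ℕ) [Fact p.Prime] (P : Subgroup G) (χ : G → ℂ)
    (x₁ x₂ : G), Loc p P χ x₁ x₂ → p % 4 = 3 →
    ∃ θ₂ : IrrCharacter G, θ₂ ∈ Ov (1 : G → ℂ) ∧ θ₂.1 x₁ = χ x₂ ∧ θ₂.1 x₂ = χ x₁ ∧
      charDegree θ₂.1 = charDegree χ

/-- **S4504-TRIV3**: `χ` is trivial on the centre. -/
def StTriv3 : Prop :=
  ∀ {G : Type u} [Group G] [Finite G] (p : ℕ) [Fact p.Prime] (P : Subgroup G) (χ : G → ℂ)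
    (x₁ x₂ : G), Loc p P χ x₁ x₂ → p % 4 = 3 →
    ∀ z ∈ Subgroup.center G, χ z = χ 1

/-- **S4504-PROD3A**: `χ·conj χ`. -/
def StProd3a : Prop :=
  ∀ {G : Type u} [Group G] [Finite G] (p : ℕ) [Fact p.Prime] (P : Subgroup G) (χ : G → ℂ)
    (x₁ x₂ : G), Loc p P χ x₁ x₂ → p % 4 = 3 → (∀ z ∈ Subgroup.center G, χ z = χ 1) →
    ∃ m : IrrCharacter G → ℕ,
      (fun g => χ g * conj (χ g)) = ∑ᶠ ψ : IrrCharacter G, (m ψ : ℂ) • ψ.1 ∧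
      (∀ ψ : IrrCharacter G, ψ.1 = 1 → m ψ = 1) ∧
      ∀ ψ : IrrCharacter G, m ψ ≠ 0 → ψ.1 ≠ 1 →
        ψ ∈ Tp x₁ x₂ (1 : G → ℂ) ∧ charDegree ψ.1 = p + 1

/-- **S4504-PROD3B**: `χ²`. -/
def StProd3b : Prop :=
  ∀ {G : Type u} [Group G] [Finite G] (p : ℕ) [Fact p.Prime] (P : Subgroup G) (χ : G → ℂ)
    (x₁ x₂ : G), Loc p P χ x₁ x₂ → p % 4 = 3 → (∀ z ∈ Subgroup.center G, χ z = χ 1) →
    ∃ m : IrrCharacter G → ℕ,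
      (fun g => χ g * χ g) = ∑ᶠ ψ : IrrCharacter G, (m ψ : ℂ) • ψ.1 ∧
      (∀ ψ : IrrCharacter G, ψ.1 = (fun g => conj (χ g)) → m ψ = 1) ∧
      ∀ ψ : IrrCharacter G, m ψ ≠ 0 → ψ.1 ≠ (fun g => conj (χ g)) →
        ψ ∈ Tm x₁ x₂ (1 : G → ℂ) ∧ charDegree ψ.1 + 1 = p

/-- **S4504-EXH3**: the principal block is exhausted by the two products. -/
def StProd3 : Prop :=
  ∀ {G : Type u} [Group G] [Finite G] (p : ℕ) [Fact p.Prime] (P : Subgroup G) (χ : G → ℂ)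
    (x₁ x₂ : G), Loc p P χ x₁ x₂ → p % 4 = 3 → (∀ z ∈ Subgroup.center G, χ z = χ 1) →
    (∀ g : G, χ g * conj (χ g) = 1 + ∑ᶠ ψ ∈ Tp x₁ x₂ (1 : G → ℂ), ψ.1 g) ∧
    (∀ g : G, χ g * χ g = conj (χ g) + ∑ᶠ ψ ∈ Tm x₁ x₂ (1 : G → ℂ), ψ.1 g) ∧
    (∀ ψ ∈ Tp x₁ x₂ (1 : G → ℂ), charDegree ψ.1 = p + 1) ∧
    (∀ ψ ∈ Tm x₁ x₂ (1 : G → ℂ), charDegree ψ.1 + 1 = p) ∧
    (∀ y : G, ¬ p ∣ orderOf y → conj (χ y) = χ y) ∧
    2 * Nat.card (Tm x₁ x₂ (1 : G → ℂ)) + 1 = charDegree χ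

/-- **S4504-CC3**: class multiplication constants. -/
def StCC3 : Prop :=
  ∀ {G : Type u} [Group G] [Finite G] (p : ℕ) [Fact p.Prime] (P : Subgroup G) (χ : G → ℂ)
    (x₁ x₂ : G), Loc p P χ x₁ x₂ → p % 4 = 3 → (∀ z ∈ Subgroup.center G, χ z = χ 1) →
    ∀ y : G, ¬ p ∣ orderOf y → y ≠ 1 → (χ y).re ≤ 1 ∧ -1 ≤ (χ y).re

/-- **S4504-MOM3**: the fourth moment. -/
def StMom3 : Prop :=
  ∀ {G : Type u} [Group G] [Finite G] (p : ℕ) [Fact p.Prime] (P : Subgroup G) (χ : G → ℂ)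
    (x₁ x₂ : G), Loc p P χ x₁ x₂ → p % 4 = 3 → (∀ z ∈ Subgroup.center G, χ z = χ 1) →
    Nat.card G ≤ (p + 1) * p * charDegree χ

/-- **S4504-CORE3**. -/
def StCore3 : Prop :=
  ∀ {G : Type u} [Group G] [Finite G] (p : ℕ) [Fact p.Prime] (P : Sylow p G) (χ : G → ℂ)
    (x₁ x₂ : G), Loc p (P : Subgroup G) χ x₁ x₂ → p % 4 = 3 →
    Nat.card G = (p + 1) * p * charDegree χ * Nat.card (Subgroup.center G)

/-! ## Part 5: the case `p ≡ 1 (mod 4)` -/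

/-- The exceptional characters `θ₃, θ₄` of the principal block (degree `f + 1`) and the partner
`χ'` of `χ`. -/
structure Exc1 {G : Type u} [Group G] (p : ℕ) (χ : G → ℂ) (x₁ x₂ : G)
    (θ₃ θ₄ χ' : IrrCharacter G) : Prop where
  ov₃ : θ₃ ∈ Ov (1 : G → ℂ)
  ov₄ : θ₄ ∈ Ov (1 : G → ℂ)
  v₃₁ : θ₃.1 x₁ = -χ x₁
  v₃₂ : θ₃.1 x₂ = -χ x₂
  v₄₁ : θ₄.1 x₁ = -χ x₂
  v₄₂ : θ₄.1 x₂ = -χ x₁
  deg₃ : charDegree θ₃.1 = charDegree χ + 1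
  deg₄ : charDegree θ₄.1 = charDegree χ + 1
  agree : ∀ y : G, ¬ p ∣ orderOf y → θ₃.1 y = θ₄.1 y
  real : ∀ g : G, conj (θ₃.1 g) = θ₃.1 g
  ov' : χ' ∈ Ov χ
  v'₁ : χ'.1 x₁ = χ x₂
  v'₂ : χ'.1 x₂ = χ x₁
  deg' : charDegree χ'.1 = charDegree χ
  agree' : ∀ y : G, ¬ p ∣ orderOf y → χ'.1 y = χ y

/-- **S4504-EXC1**. -/
def StExc1 : Prop :=
  ∀ {G : Type u} [Group G] [Finite G] (p : ℕ) [Fact p.Prime] (P : Subgroup G) (χ : G → ℂ)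
    (x₁ x₂ : G), Loc p P χ x₁ x₂ → p % 4 = 1 →
    ∃ θ₃ θ₄ χ' : IrrCharacter G, Exc1 p χ x₁ x₂ θ₃ θ₄ χ'

/-- **S4504-PROD1A**: `χ·conj χ`. -/
def StProd1a : Prop :=
  ∀ {G : Type u} [Group G] [Finite G] (p : ℕ) [Fact p.Prime] (P : Subgroup G) (χ : G → ℂ)
    (x₁ x₂ : G), Loc p P χ x₁ x₂ → p % 4 = 1 →
    ∀ θ₃ θ₄ χ' : IrrCharacter G, Exc1 p χ x₁ x₂ θ₃ θ₄ χ' →
    ∃ m : IrrCharacter G → ℕ,
      (fun g => χ g * conj (χ g)) = ∑ᶠ ψ : IrrCharacter G, (m ψ : ℂ) • ψ.1 ∧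
      (∀ ψ : IrrCharacter G, ψ.1 = 1 → m ψ = 1) ∧ m θ₃ = m θ₄ + 1 ∧
      ∀ ψ : IrrCharacter G, m ψ ≠ 0 → ψ.1 ≠ 1 → ψ ≠ θ₃ → ψ ≠ θ₄ →
        ψ ∈ Tp x₁ x₂ (1 : G → ℂ) ∧ charDegree ψ.1 = p + 1

/-- **S4504-PROD1B**: `χ·conj χ'`. -/
def StProd1b : Prop :=
  ∀ {G : Type u} [Group G] [Finite G] (p : ℕ) [Fact p.Prime] (P : Subgroup G) (χ : G → ℂ)
    (x₁ x₂ : G), Loc p P χ x₁ x₂ → p % 4 = 1 →
    ∀ θ₃ θ₄ χ' : IrrCharacter G, Exc1 p χ x₁ x₂ θ₃ θ₄ χ' →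
    ∃ m : IrrCharacter G → ℕ,
      (fun g => χ g * conj (χ'.1 g)) = ∑ᶠ ψ : IrrCharacter G, (m ψ : ℂ) • ψ.1 ∧
      ∀ ψ : IrrCharacter G, m ψ ≠ 0 →
        ψ ∈ Tm x₁ x₂ (1 : G → ℂ) ∧ charDegree ψ.1 + 1 = p

/-- **S4504-EXH1**: the principal block. -/
def StProd1 : Prop :=
  ∀ {G : Type u} [Group G] [Finite G] (p : ℕ) [Fact p.Prime] (P : Subgroup G) (χ : G → ℂ)
    (x₁ x₂ : G), Loc p P χ x₁ x₂ → p % 4 = 1 →
    ∀ θ₃ θ₄ χ' : IrrCharacter G, Exc1 p χ x₁ x₂ θ₃ θ₄ χ' →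
    (∀ g : G, χ g * conj (χ g) = 1 + θ₃.1 g + ∑ᶠ ψ ∈ Tp x₁ x₂ (1 : G → ℂ), ψ.1 g) ∧
    (∀ g : G, χ g * conj (χ'.1 g) = ∑ᶠ ψ ∈ Tm x₁ x₂ (1 : G → ℂ), ψ.1 g) ∧
    (∀ ψ ∈ Tp x₁ x₂ (1 : G → ℂ), charDegree ψ.1 = p + 1) ∧
    (∀ ψ ∈ Tm x₁ x₂ (1 : G → ℂ), charDegree ψ.1 + 1 = p)

/-- **S4504-PRODWA**: `χ·θ₃`. -/
def StProdWa : Prop :=
  ∀ {G : Type u} [Group G] [Finite G] (p : ℕ) [Fact p.Prime] (P : Subgroup G) (χ : G → ℂ)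
    (x₁ x₂ : G), Loc p P χ x₁ x₂ → p % 4 = 1 →
    ∀ θ₃ θ₄ χ' : IrrCharacter G, Exc1 p χ x₁ x₂ θ₃ θ₄ χ' →
    ∃ m : IrrCharacter G → ℕ,
      (fun g => χ g * θ₃.1 g) = ∑ᶠ ψ : IrrCharacter G, (m ψ : ℂ) • ψ.1 ∧
      (∀ χI : IrrCharacter G, χI.1 = χ → m χI = m χ' + 1) ∧
      ∀ ψ : IrrCharacter G, m ψ ≠ 0 → ψ.1 ≠ χ → ψ ≠ χ' →
        ψ ∈ Tm x₁ x₂ χ ∧ charDegree ψ.1 + 1 = p

/-- **S4504-PRODWB**: `χ·θ₄`. -/
def StProdWb : Prop :=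
  ∀ {G : Type u} [Group G] [Finite G] (p : ℕ) [Fact p.Prime] (P : Subgroup G) (χ : G → ℂ)
    (x₁ x₂ : G), Loc p P χ x₁ x₂ → p % 4 = 1 →
    ∀ θ₃ θ₄ χ' : IrrCharacter G, Exc1 p χ x₁ x₂ θ₃ θ₄ χ' →
    ∃ m : IrrCharacter G → ℕ,
      (fun g => χ g * θ₄.1 g) = ∑ᶠ ψ : IrrCharacter G, (m ψ : ℂ) • ψ.1 ∧
      ∀ ψ : IrrCharacter G, m ψ ≠ 0 → ψ ∈ Tp x₁ x₂ χ ∧ charDegree ψ.1 = p + 1

/-- **S4504-EXHW**: the block of `χ`. -/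
def StProdW : Prop :=
  ∀ {G : Type u} [Group G] [Finite G] (p : ℕ) [Fact p.Prime] (P : Subgroup G) (χ : G → ℂ)
    (x₁ x₂ : G), Loc p P χ x₁ x₂ → p % 4 = 1 →
    ∀ θ₃ θ₄ χ' : IrrCharacter G, Exc1 p χ x₁ x₂ θ₃ θ₄ χ' →
    (∀ g : G, χ g * θ₃.1 g = χ g + ∑ᶠ ψ ∈ Tm x₁ x₂ χ, ψ.1 g) ∧
    (∀ g : G, χ g * θ₄.1 g = ∑ᶠ ψ ∈ Tp x₁ x₂ χ, ψ.1 g) ∧
    (∀ ψ ∈ Tp x₁ x₂ χ, charDegree ψ.1 = p + 1) ∧
    (∀ ψ ∈ Tm x₁ x₂ χ, charDegree ψ.1 + 1 = p)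

/-- **S4504-CC1**: twisted class multiplication constants. -/
def StCC1 : Prop :=
  ∀ {G : Type u} [Group G] [Finite G] (p : ℕ) [Fact p.Prime] (P : Subgroup G) (χ : G → ℂ)
    (x₁ x₂ : G), Loc p P χ x₁ x₂ → p % 4 = 1 →
    ∀ θ₃ θ₄ χ' : IrrCharacter G, Exc1 p χ x₁ x₂ θ₃ θ₄ χ' →
    ∀ y : G, ¬ p ∣ orderOf y → y ∉ Subgroup.center G → ‖χ y‖ + |(θ₃.1 y).re| ≤ 1

/-- **S4504-MOM1**: the second moment. -/
def StMom1 : Prop :=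
  ∀ {G : Type u} [Group G] [Finite G] (p : ℕ) [Fact p.Prime] (P : Subgroup G) (χ : G → ℂ)
    (x₁ x₂ : G), Loc p P χ x₁ x₂ → p % 4 = 1 →
    Nat.card G ≤ (p + 1) * p * charDegree χ * Nat.card (Subgroup.center G)

/-- **S4504-CORE1**. -/
def StCore1 : Prop :=
  ∀ {G : Type u} [Group G] [Finite G] (p : ℕ) [Fact p.Prime] (P : Sylow p G) (χ : G → ℂ)
    (x₁ x₂ : G), Loc p (P : Subgroup G) χ x₁ x₂ → p % 4 = 1 →
    Nat.card G = (p + 1) * p * charDegree χ * Nat.card (Subgroup.center G)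

/-! ## Part 6: the general group -/

/-- **S4504-RED**: the normal closure of `P`. -/
def StRed : Prop :=
  ∀ {G : Type u} [Group G] [Finite G] (p : ℕ) [Fact p.Prime] (P : Sylow p G),
    Nat.card (P : Subgroup G) = p → ¬ (P : Subgroup G).Normal →
    ∃ P₁ : Sylow p (Subgroup.normalClosure ((P : Subgroup G) : Set G)),
      Nat.card (P₁ : Subgroup (Subgroup.normalClosure ((P : Subgroup G) : Set G))) = p ∧
      ¬ (P₁ : Subgroup (Subgroup.normalClosure ((P : Subgroup G) : Set G))).Normal ∧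
      (∀ K : Subgroup (Subgroup.normalClosure ((P : Subgroup G) : Set G)), K.Normal →
        (P₁ : Subgroup (Subgroup.normalClosure ((P : Subgroup G) : Set G))) ≤ K → K = ⊤) ∧
      Nat.card (Sylow p (Subgroup.normalClosure ((P : Subgroup G) : Set G))) =
        Nat.card (Sylow p G)

/-- **S4504-COREALL**: the result for `G = ` normal closure of `P`. -/
def StCoreAll : Prop :=
  ∀ {G : Type u} [Group G] [Finite G] (p : ℕ) [Fact p.Prime] (P : Sylow p G),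
    Nat.card (P : Subgroup G) = p →
    (∀ K : Subgroup G, K.Normal → (P : Subgroup G) ≤ K → K = ⊤) →
    ¬ (P : Subgroup G).Normal →
    ∀ χ : G → ℂ, IsCharacter G χ → (∀ g : G, χ g = χ 1 → g = 1) →
      2 * charDegree χ + 1 = p →
      Nat.card (Sylow p G) = p + 1 ∧ IsIrrCharacter G χ ∧ commutator G = ⊤

/-- **S4504-NP**: the number of Sylow subgroups; the normal closure of `P` is perfect and `χ`
restricts irreducibly to it. -/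
def StNP : Prop :=
  ∀ {G : Type u} [Group G] [Finite G] (p : ℕ) [Fact p.Prime] (P : Sylow p G),
    Nat.card (P : Subgroup G) = p → ¬ (P : Subgroup G).Normal →
    ∀ χ : G → ℂ, IsCharacter G χ → (∀ g : G, χ g = χ 1 → g = 1) →
      2 * charDegree χ + 1 = p →
      Nat.card (Sylow p G) = p + 1 ∧
      commutator (Subgroup.normalClosure ((P : Subgroup G) : Set G)) = ⊤ ∧
      IsIrrCharacter (Subgroup.normalClosure ((P : Subgroup G) : Set G))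
        (fun g : Subgroup.normalClosure ((P : Subgroup G) : Set G) => χ g)

/-- **S4504-SCHUR**. -/
def StSchur : Prop :=
  ∀ {G : Type u} [Group G] [Finite G] (G₁ : Subgroup G) (χ : G → ℂ),
    IsCharacter G χ → (∀ g : G, χ g = χ 1 → g = 1) →
    IsIrrCharacter G₁ (fun g : G₁ => χ g) →
    ∀ c : G, (∀ g ∈ G₁, c * g = g * c) → c ∈ Subgroup.center G

/-- **S4504-CENTALL**: normal `p'`-subgroups are central. -/
def StCentAll : Prop :=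
  ∀ {G : Type u} [Group G] [Finite G] (p : ℕ) [Fact p.Prime] (P : Sylow p G),
    Nat.card (P : Subgroup G) = p → ¬ (P : Subgroup G).Normal →
    ∀ χ : G → ℂ, IsCharacter G χ → (∀ g : G, χ g = χ 1 → g = 1) →
      2 * charDegree χ + 1 = p →
      ∀ M : Subgroup G, M.Normal → ¬ p ∣ Nat.card M → M ≤ Subgroup.center G

/-- **S4504-KER**: the kernel of the action on the Sylow `p`-subgroups. -/
def StKer : Prop :=
  ∀ {G : Type u} [Group G] [Finite G] (p : ℕ) [Fact p.Prime] (P : Sylow p G),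
    Nat.card (P : Subgroup G) = p → ¬ (P : Subgroup G).Normal →
    (∀ M : Subgroup G, M.Normal → ¬ p ∣ Nat.card M → M ≤ Subgroup.center G) →
    ∀ g : G, (∀ Q : Sylow p G, g • Q = Q) ↔ g ∈ Subgroup.center G

/-- **S4504-PERMBOUND**: the order of `G / Z(G)`. -/
def StPermBound : Prop :=
  ∀ {G : Type u} [Group G] [Finite G] (p : ℕ) [Fact p.Prime] (P : Sylow p G),
    Nat.card (P : Subgroup G) = p → Nat.card (Sylow p G) = p + 1 →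
    (∀ g : G, (∀ Q : Sylow p G, g • Q = Q) → g ∈ Subgroup.center G) →
    ∃ d : ℕ, Nat.card G = (p + 1) * p * d * Nat.card (Subgroup.center G) ∧ d < p ∧
      (d = p - 1 → ∀ x ∈ (P : Subgroup G), ∀ x' ∈ (P : Subgroup G), x ≠ 1 → x' ≠ 1 →
        IsConj x x')

/-- **S4504-NOPGL**: not all elements of `P ∖ 1` are conjugate. -/
def StNoPGL : Prop :=
  ∀ {G : Type u} [Group G] [Finite G] (p : ℕ) [Fact p.Prime] (P : Sylow p G),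
    Nat.card (P : Subgroup G) = p →
    ∀ χ : G → ℂ, IsCharacter G χ → (∀ g : G, χ g = χ 1 → g = 1) →
      charDegree χ + 1 < p →
      ¬ (∀ x ∈ (P : Subgroup G), ∀ x' ∈ (P : Subgroup G), x ≠ 1 → x' ≠ 1 → IsConj x x')

/-- **S4504-SEMI**: a perfect group has no non-trivial action by semi-affine maps. -/
def StSemi : Prop :=
  ∀ {F : Type} [Field F] [Finite F] {K : Type u} [Group K], commutator K = ⊤ →
    ∀ φ : K →* Equiv.Perm F, (∀ k : K, φ k ∈ Cfsg.semiaffineGroup F) → ∀ k : K, φ k = 1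

end Cfsg.Agent.H79.Br
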