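import Mathlib
import Cfsg.Prelude.Def_Blocks
import Cfsg.Agent.H20.BrauerMap
import Cfsg.Agent.H84.BlockDom
import Cfsg.Agent.H80.Block
import Cfsg.Agent.S0963

/-!
# Blocks of `Q C_G(Q)` for a normal `p`-subgroup `Q` (helper79)

* `inducedCentralChar_eq_zero_of_not_mem`: the induced central character from a normal subgroup
  vanishes outside the subgroup.
* `inducedCentralChar_sub_mem_of_sameBlock`: characters of `N ⊇ Q C_G(Q)` in the same block have
  congruent induced central characters.
* `isInducedBlock_of_covers`: if `Q` is a normal `p`-subgroup, `N ⊇ Q C_G(Q)` is normal and the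
  irreducible character `χ` of `G` lies over a member `θ` of the block `b` of `N`, then `b`
  induces the block of `χ`.
-/

set_option autoImplicit false
set_option linter.unusedSectionVars false
set_option linter.style.haveILetI false

namespace Cfsg.Agent.H79

open Cfsg Cfsg.Agent.H20 Cfsg.Agent.H4

universe u

section

variable {G : Type u} [Group G] [Fintype G] {M : Ideal AlgInt} {p : ℕ} [Fact p.Prime]

/-- The induced central character from a normal subgroup vanishes outside the subgroup. -/
theorem inducedCentralChar_eq_zero_of_not_mem (N : Subgroup G) [hN : N.Normal] (ξ : N → ℂ)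
    (g : G) (hg : g ∉ N) : inducedCentralChar N ξ g = 0 := by
  have hempty : {h : N | IsConj g (h : G)} = ∅ := by
    apply Set.eq_empty_iff_forall_notMem.mpr
    intro h hh
    obtain ⟨c, hc⟩ := isConj_iff.mp hh
    apply hg
    have h1 : g = c⁻¹ * (h : G) * c⁻¹⁻¹ := by
      rw [← hc]
      group
    rw [h1]
    exact hN.conj_mem (h : G) h.2 c⁻¹
  unfold inducedCentralChar
  rw [hempty, finsum_mem_empty]

/-- For a `p`-subgroup `Q ≤ N ≤ N_G(Q)` with `C_G(Q) ≤ N`, irreducible characters of `N` in the
same block have congruent induced central characters. -/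
theorem inducedCentralChar_sub_mem_of_sameBlock (hM : IsPModular p M) (Q N : Subgroup G)
    [Fintype N] (hQ : IsPGroup p Q) (hQN : Q ≤ N)
    (hNN : N ≤ Subgroup.normalizer (Q : Set G)) (ξ θ : IrrCharacter N)
    (hsame : SameBlock M (ξ : N → ℂ) (θ : N → ℂ)) (g : G) :
    MemLocalIdeal M (inducedCentralChar N (ξ : N → ℂ) g - inducedCentralChar N (θ : N → ℂ) g) := by
  have hMp := isPrime_of_isPModular hM
  have t1 := inducedCentralChar_sub_brauerCentralChar_mem hM Q N hQ hQN hNN ξ g
  have t2 := inducedCentralChar_sub_brauerCentralChar_mem hM Q N hQ hQN hNN θ g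
  have t3 := omega_sub_omega_memLocalIdeal hMp (ξ : N → ℂ) (θ : N → ℂ)
    (irr_isClassFunction ξ) (irr_isClassFunction θ) hsame
    (brMap_mem (P := Q) (H := N) hNN (classSum_mem (localRing M hMp) g))
  rw [omega_brMap_classSum, omega_brMap_classSum] at t3
  have t4 := memLocalIdeal_sub hMp (memLocalIdeal_add hMp t1 t3) t2
  convert t4 using 1
  ring

/-- If `Q` is a normal `p`-subgroup of `G`, `N` a normal subgroup containing `Q C_G(Q)` and the
irreducible character `χ` of `G` lies over a member `θ` of the block of `ξ₀ ∈ Irr(N)`, then that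
block induces the block of `χ`. -/
theorem isInducedBlock_of_covers (hM : IsPModular p M) (Q : Subgroup G) [Q.Normal]
    (hQ : IsPGroup p Q) (N : Subgroup G) [N.Normal] [Fintype N] (hQN : Q ≤ N)
    (hCN : Subgroup.centralizer (Q : Set G) ≤ N) (ξ₀ : IrrCharacter N) (χ : IrrCharacter G)
    (θ : IrrCharacter N) (hθ : θ ∈ blockOf M (ξ₀ : N → ℂ))
    (hcov : classInner (fun n : N => (χ : G → ℂ) n) (θ : N → ℂ) ≠ 0) :
    IsInducedBlock M N (blockOf M (ξ₀ : N → ℂ)) (blockOf M (χ : G → ℂ)) := by
  classical
  have hMp := isPrime_of_isPModular hM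
  have hNN : N ≤ Subgroup.normalizer (Q : Set G) := by
    rw [Subgroup.normalizer_eq_top]
    exact le_top
  refine ⟨⟨ξ₀, rfl⟩, ⟨χ, rfl⟩, fun ξ hξ χ' hχ' g => ?_⟩
  by_cases hg : g ∈ N
  · have h1 := (Cfsg.Agent.S0963.result N χ θ).mp hcov ⟨g, hg⟩
    have h2 := inducedCentralChar_sub_mem_of_sameBlock hM Q N hQ hQN hNN ξ θ
      (Cfsg.Agent.H80.sameBlock_trans hMp (Cfsg.Agent.H80.sameBlock_symm hξ) hθ) g
    have h3 : MemLocalIdeal M (centralChar (χ : G → ℂ) g - centralChar (χ' : G → ℂ) g) := hχ' g
    have h1' : inducedCentralChar N (θ : N → ℂ) g = centralChar (χ : G → ℂ) g := h1.symm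
    rw [h1'] at h2
    have h4 := memLocalIdeal_add hMp h2 h3
    convert h4 using 1
    ring
  · rw [inducedCentralChar_eq_zero_of_not_mem N _ g hg, zero_sub]
    apply memLocalIdeal_neg
    exact Cfsg.Agent.H84.centralChar_memLocalIdeal_of_not_mem_centralizer hM Q hQ g
      (fun h => hg (hCN h)) χ'

end

end Cfsg.Agent.H79
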