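import Mathlib
import Cfsg.Prelude.Def_Characters
import Cfsg.Prelude.Def_Blocks
import Cfsg.Prelude.Def_Solvable
import Cfsg.Prelude.Def_Local

/-!
# S4440 team project: definitions and the exact statements of the pieces (helper79)

`wsum U x = Σ_{χ ∈ U} χ(1) χ(x)`; `VanishSing p U` says it vanishes at the `p`-singular elements.
Each `Stmt…` below is the exact statement of one piece of the project, as a `Prop`
(quantified over all groups of a fixed universe `u`).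
-/

set_option autoImplicit false

namespace Cfsg.Agent.H79.Hc

open Cfsg
open scoped ComplexConjugate

universe u

/-- The weighted sum `Σ_{χ ∈ U} χ(1) χ(x)`. -/
noncomputable def wsum {G : Type u} [Group G] (U : Set (IrrCharacter G)) (x : G) : ℂ :=
  ∑ᶠ χ ∈ U, (χ : G → ℂ) 1 * (χ : G → ℂ) x

/-- The weighted sum of `U` vanishes at every `p`-singular element. -/
def VanishSing (p : ℕ) {G : Type u} [Group G] (U : Set (IrrCharacter G)) : Prop :=
  ∀ x : G, p ∣ orderOf x → wsum U x = 0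

/-- The irreducible characters of `G ⧸ V` whose inflation to `G` lies in `U`. -/
def quotSet {G : Type u} [Group G] (V : Subgroup G) [V.Normal] (U : Set (IrrCharacter G)) :
    Set (IrrCharacter (G ⧸ V)) :=
  {ξ | ∃ χ ∈ U, ∀ g : G, (χ : G → ℂ) g = (ξ : G ⧸ V → ℂ) (QuotientGroup.mk' V g)}

/-- `χ` and `ψ` have proportional values on `Z` (same central character, for `Z` central). -/
def SameCentral {G : Type u} [Group G] (Z : Subgroup G) (χ ψ : G → ℂ) : Prop :=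
  ∀ z ∈ Z, χ z * ψ 1 = ψ z * χ 1

/-- The number of elements of `V` commuting with `s`, as a complex number. -/
noncomputable def fixCount {G : Type u} [Group G] (V : Subgroup G) (s : G) : ℂ :=
  (Nat.card {v : V // (v : G) * s = s * (v : G)} : ℂ)

/-! ### Pieces for the central case -/

/-- (AVG) averaging the weighted sum over a coset of a normal subgroup. -/
def StmtAvg : Prop := ∀ (G : Type u) [Group G] [Finite G] (V : Subgroup G) [V.Normal]
    (U : Set (IrrCharacter G)) (g : G),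
    ∑ᶠ y ∈ (V : Set G), wsum U (g * y) =
      (Nat.card V : ℂ) * wsum (quotSet V U) (QuotientGroup.mk' V g)

/-- (QV) vanishing passes to quotients. -/
def StmtQV (p : ℕ) : Prop := ∀ (G : Type u) [Group G] [Finite G] (V : Subgroup G) [V.Normal]
    (U : Set (IrrCharacter G)), VanishSing p U → VanishSing p (quotSet V U)

/-- (REGDET) a class function vanishing at `p`-singular elements, all of whose averages over
cosets of a normal `p`-subgroup vanish, is zero. -/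
def StmtRegDet (p : ℕ) : Prop := ∀ (G : Type u) [Group G] [Finite G] (V : Subgroup G) [V.Normal],
    IsPGroup p V → ∀ f : G → ℂ, IsClassFunction G f → (∀ x : G, p ∣ orderOf x → f x = 0) →
    (∀ g : G, ∑ᶠ y ∈ (V : Set G), f (g * y) = 0) → ∀ g : G, f g = 0

/-- (LI) the weighted sum determines the set. -/
def StmtLI : Prop := ∀ (G : Type u) [Group G] [Finite G] (U U' : Set (IrrCharacter G)),
    (∀ x : G, wsum U x = wsum U' x) → U = U'

/-- (DET) for a normal `p`-subgroup `V`, a set with vanishing weighted sum is determined by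
its members trivial on `V`. -/
def StmtDet (p : ℕ) : Prop := ∀ (G : Type u) [Group G] [Finite G] (V : Subgroup G) [V.Normal],
    IsPGroup p V → ∀ U U' : Set (IrrCharacter G), VanishSing p U → VanishSing p U' →
    quotSet V U = quotSet V U' → U = U'

/-- (VB) the characters with a given central character on a central `p'`-subgroup. -/
def StmtVB (p : ℕ) : Prop := ∀ (G : Type u) [Group G] [Finite G] (Z : Subgroup G),
    Z ≤ Subgroup.center G → (Nat.card Z).Coprime p → ∀ χ₀ : IrrCharacter G,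
    VanishSing p {ψ : IrrCharacter G | SameCentral Z (χ₀ : G → ℂ) (ψ : G → ℂ)}

/-- (IND) in a split extension by a normal `p`-subgroup, a class function vanishing at the
`p`-singular elements is induced from the complement. -/
def StmtInd (p : ℕ) : Prop := ∀ (G : Type u) [Group G] [Fintype G] (V Γ₁ : Subgroup G) [V.Normal],
    IsPGroup p V → V.IsComplement' Γ₁ → ∀ f : G → ℂ, IsClassFunction G f →
    (∀ x : G, p ∣ orderOf x → f x = 0) →
    ∀ g : G, f g = indFun Γ₁ (fun s : Γ₁ => f s / fixCount V (s : G)) g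

/-- (SPLITPI) closure under constituents of `χ · π` on the complement. -/
def StmtSplitPi : Prop := ∀ (G : Type u) [Group G] [Fintype G] (V Γ₁ : Subgroup G) [V.Normal],
    V.IsComplement' Γ₁ → ∀ (U : Set (IrrCharacter G)) (f₁ : Γ₁ → ℂ), IsClassFunction Γ₁ f₁ →
    (∀ g : G, wsum U g = indFun Γ₁ f₁ g) →
    ∀ χ ∈ U, (∀ v ∈ V, (χ : G → ℂ) v = (χ : G → ℂ) 1) →
    ∀ ψ : IrrCharacter G, (∀ v ∈ V, (ψ : G → ℂ) v = (ψ : G → ℂ) 1) →
    (∑ᶠ s ∈ (Γ₁ : Set G), (χ : G → ℂ) s * fixCount V s * conj ((ψ : G → ℂ) s)) ≠ 0 → ψ ∈ U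

/-- (POLY) the Burnside–Brauer polynomial trick. -/
def StmtPoly : Prop := ∀ (Q : Type u) [Group Q] [Fintype Q] (C : Subgroup Q) (π : Q → ℂ),
    IsClassFunction Q π → (∀ q : Q, π q = π 1 ↔ q ∈ C) → ∀ S : Set (IrrCharacter Q),
    (∀ ξ ∈ S, ∀ ξ' : IrrCharacter Q,
      classInner (fun q => (ξ : Q → ℂ) q * π q) (ξ' : Q → ℂ) ≠ 0 → ξ' ∈ S) →
    ∀ ξ ∈ S, ∀ ξ' : IrrCharacter Q,
      (∑ᶠ c ∈ (C : Set Q), (ξ : Q → ℂ) c * conj ((ξ' : Q → ℂ) c)) ≠ 0 → ξ' ∈ S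

/-- (SPLITCENTRAL) the split case. -/
def StmtSplitCentral (p : ℕ) : Prop := ∀ (G : Type u) [Group G] [Finite G]
    (V Γ₁ Z : Subgroup G) [V.Normal],
    IsPGroup p V → V.IsComplement' Γ₁ → Z ≤ Subgroup.center G →
    (∀ c ∈ Γ₁, (∀ v ∈ V, c * v = v * c) → c ∈ Z) →
    ∀ U : Set (IrrCharacter G), VanishSing p U →
    ∀ χ ∈ U, (∀ v ∈ V, (χ : G → ℂ) v = (χ : G → ℂ) 1) →
    ∀ ψ : IrrCharacter G, (∀ v ∈ V, (ψ : G → ℂ) v = (ψ : G → ℂ) 1) →
    SameCentral Z (χ : G → ℂ) (ψ : G → ℂ) → ψ ∈ U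

/-- (GT0) Hall–Higman with a central `p'`-core. -/
def StmtGT0 (p : ℕ) : Prop := ∀ (Γ : Type u) [Group Γ] [Finite Γ] [(pPrimeCore p Γ).Normal],
    IsPSolvable p Γ → pPrimeCore p Γ ≤ Subgroup.center Γ →
    Subgroup.centralizer ((pCore p Γ : Subgroup Γ) : Set Γ) ≤ pCore p Γ ⊔ pPrimeCore p Γ ∧
    pCore p (Γ ⧸ pPrimeCore p Γ) ≤ (pCore p Γ).map (QuotientGroup.mk' (pPrimeCore p Γ))

/-- (GTa) the Frattini case. -/
def StmtGTa (p : ℕ) : Prop := ∀ (Γ : Type u) [Group Γ] [Finite Γ] [(pPrimeCore p Γ).Normal]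
    (Φ : Subgroup Γ) [Φ.Normal],
    IsPSolvable p Γ → pPrimeCore p Γ ≤ Subgroup.center Γ →
    pCore p (Γ ⧸ pPrimeCore p Γ) ≤ (pCore p Γ).map (QuotientGroup.mk' (pPrimeCore p Γ)) →
    Φ = (frattini ↥(pCore p Γ)).map (pCore p Γ).subtype →
    pPrimeCore p (Γ ⧸ Φ) ≤ (pPrimeCore p Γ).map (QuotientGroup.mk' Φ)

/-- (GTb) the case of a central part of an abelian `O_p`. -/
def StmtGTb (p : ℕ) : Prop := ∀ (Γ : Type u) [Group Γ] [Finite Γ] [(pCore p Γ).Normal]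
    (W : Subgroup Γ) [W.Normal],
    IsPSolvable p Γ → pPrimeCore p Γ ≤ Subgroup.center Γ →
    Subgroup.centralizer ((pCore p Γ : Subgroup Γ) : Set Γ) ≤ pCore p Γ ⊔ pPrimeCore p Γ →
    (∀ a ∈ pCore p Γ, ∀ b ∈ pCore p Γ, a * b = b * a) → W ≤ pCore p Γ →
    (∀ w ∈ W, ∀ m : Γ,
      QuotientGroup.mk' (pCore p Γ) m ∈ pPrimeCore p (Γ ⧸ pCore p Γ) → m * w = w * m) →
    pPrimeCore p (Γ ⧸ W) ≤ (pPrimeCore p Γ).map (QuotientGroup.mk' W)

/-- (GTc) the split case. -/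
def StmtGTc (p : ℕ) : Prop := ∀ (Γ : Type u) [Group Γ] [Finite Γ] [(pCore p Γ).Normal],
    IsPSolvable p Γ → pPrimeCore p Γ ≤ Subgroup.center Γ →
    Subgroup.centralizer ((pCore p Γ : Subgroup Γ) : Set Γ) ≤ pCore p Γ ⊔ pPrimeCore p Γ →
    (∀ a ∈ pCore p Γ, ∀ b ∈ pCore p Γ, a * b = b * a) →
    (∀ w ∈ pCore p Γ, (∀ m : Γ,
      QuotientGroup.mk' (pCore p Γ) m ∈ pPrimeCore p (Γ ⧸ pCore p Γ) → m * w = w * m) → w = 1) →
    ∃ Γ₁ : Subgroup Γ, (pCore p Γ).IsComplement' Γ₁ ∧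
      ∀ c ∈ Γ₁, (∀ v ∈ pCore p Γ, c * v = v * c) → c ∈ pPrimeCore p Γ

/-- (GT) the group-theoretic dichotomy. -/
def StmtGT (p : ℕ) : Prop := ∀ (Γ : Type u) [Group Γ] [Finite Γ], IsPSolvable p Γ →
    pPrimeCore p Γ ≤ Subgroup.center Γ → p ∣ Nat.card Γ →
    ∃ (V : Subgroup Γ) (_ : V.Normal), V ≠ ⊥ ∧ IsPGroup p V ∧
      (pPrimeCore p (Γ ⧸ V) ≤ (pPrimeCore p Γ).map (QuotientGroup.mk' V) ∨
       ∃ Γ₁ : Subgroup Γ, V.IsComplement' Γ₁ ∧
         ∀ c ∈ Γ₁, (∀ v ∈ V, c * v = v * c) → c ∈ pPrimeCore p Γ)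

/-- The conclusion of the central case for one group. -/
def CentralUnion (p : ℕ) (Γ : Type u) [Group Γ] : Prop :=
  ∀ U : Set (IrrCharacter Γ), VanishSing p U →
    (∀ χ ∈ U, ∀ ψ ∈ U, SameCentral (pPrimeCore p Γ) (χ : Γ → ℂ) (ψ : Γ → ℂ)) →
    ∀ χ ∈ U, ∀ ψ : IrrCharacter Γ,
      SameCentral (pPrimeCore p Γ) (χ : Γ → ℂ) (ψ : Γ → ℂ) → ψ ∈ U

/-- (HC) the central case. -/
def StmtHC (p : ℕ) : Prop := ∀ (Γ : Type u) [Group Γ] [Finite Γ], IsPSolvable p Γ →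
    pPrimeCore p Γ ≤ Subgroup.center Γ → CentralUnion p Γ

/-! ### Pieces for the reduction to the central case -/

/-- (BLOCKPART) the block part of a class function vanishing at `p`-singular elements. -/
def StmtBlockPart (p : ℕ) (M : Ideal AlgInt) : Prop := ∀ (T : Type u) [Group T] [Fintype T],
    IsPModular p M → ∀ f : T → ℂ, IsClassFunction T f → (∀ x : T, p ∣ orderOf x → f x = 0) →
    ∀ (ψ₀ : IrrCharacter T) (x : T), p ∣ orderOf x →
      ∑ᶠ ψ ∈ blockOf M (ψ₀ : T → ℂ), classInner f (ψ : T → ℂ) * (ψ : T → ℂ) x = 0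

/-- (BLOCKPROJ) intersecting with a block preserves vanishing. -/
def StmtBlockProj (p : ℕ) (M : Ideal AlgInt) : Prop := ∀ (G : Type u) [Group G] [Finite G],
    IsPModular p M → ∀ U : Set (IrrCharacter G), VanishSing p U → ∀ χ₀ : IrrCharacter G,
    VanishSing p (U ∩ blockOf M (χ₀ : G → ℂ))

/-- The statement of S4440 for one group. -/
def UnionProp (p : ℕ) (M : Ideal AlgInt) (G : Type u) [Group G] : Prop :=
  ∀ U : Set (IrrCharacter G), VanishSing p U → ∀ χ ∈ U, ∀ ψ : IrrCharacter G,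
    SameBlock M (χ : G → ℂ) (ψ : G → ℂ) → ψ ∈ U

/-- (FR) the Fong–Reynolds step. -/
def StmtFR (p : ℕ) (M : Ideal AlgInt) : Prop := ∀ (G : Type u) [Group G] [Finite G]
    (K T : Subgroup G) [hK : K.Normal] [Fintype K],
    IsPModular p M → (Nat.card K).Coprime p → ∀ θ : IrrCharacter K,
    (∀ g : G, g ∈ T ↔
      ∀ n : K, (θ : K → ℂ) ⟨g * n * g⁻¹, hK.conj_mem n n.2 g⟩ = (θ : K → ℂ) n) →
    UnionProp p M T →
    ∀ U : Set (IrrCharacter G), VanishSing p U → ∀ χ ∈ U,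
    classInner (fun n : K => (χ : G → ℂ) n) (θ : K → ℂ) ≠ 0 →
    ∀ ψ : IrrCharacter G, SameBlock M (χ : G → ℂ) (ψ : G → ℂ) → ψ ∈ U

/-- Central-extension data for `(G, K, θ)`: a surjection `π : Ĝ → G` with central kernel, an
irreducible character `θt` of `Ĝ` and a function `ν`, multiplicative and conjugation-invariant
on `π⁻¹(K)`, with `θt = ν · (θ ∘ π)` on `π⁻¹(K)`. -/
structure CEData {G : Type u} [Group G] (K : Subgroup G) (θ : K → ℂ) (Ĝ : Type u) [Group Ĝ]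
    (π : Ĝ →* G) (θt ν : Ĝ → ℂ) : Prop where
  surj : Function.Surjective π
  central : π.ker ≤ Subgroup.center Ĝ
  ker_exp : ∀ z ∈ π.ker, z ^ Nat.card K = 1
  irr : IsIrrCharacter Ĝ θt
  res : ∀ (x : Ĝ) (hx : π x ∈ K), θt x = ν x * θ ⟨π x, hx⟩
  res_irr : IsIrrCharacter (K.comap π) (fun x => θt x)
  nu_mul : ∀ x y : Ĝ, π x ∈ K → π y ∈ K → ν (x * y) = ν x * ν y
  nu_ne : ∀ x : Ĝ, π x ∈ K → ν x ≠ 0
  nu_conj : ∀ x y : Ĝ, π x ∈ K → ν (y * x * y⁻¹) = ν x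

/-- (CE) existence of central-extension data for an invariant irreducible character. -/
def StmtCE : Prop := ∀ (G : Type u) [Group G] [Finite G] (K : Subgroup G) [hK : K.Normal]
    (θ : IrrCharacter K),
    (∀ (g : G) (n : K), (θ : K → ℂ) ⟨g * n * g⁻¹, hK.conj_mem n n.2 g⟩ = (θ : K → ℂ) n) →
    ∃ (Ĝ : Type u) (_ : Group Ĝ) (_ : Finite Ĝ) (π : Ĝ →* G) (θt ν : Ĝ → ℂ),
      CEData K (θ : K → ℂ) Ĝ π θt ν

/-- (NV) a character restricting irreducibly to a normal subgroup vanishes on no coset. -/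
def StmtNV : Prop := ∀ (H : Type u) [Group H] [Finite H] (N : Subgroup H) [N.Normal] (χ : H → ℂ),
    IsIrrCharacter H χ → IsIrrCharacter N (fun n : N => χ n) → ∀ x : H, ∃ n ∈ N, χ (x * n) ≠ 0

/-- (TRANSA) Gallagher: a character of `G` over `θ` factors as `β · θt` on `Ĝ`. -/
def StmtTransA : Prop := ∀ (G : Type u) [Group G] [Finite G] (K : Subgroup G) [K.Normal]
    [Fintype K] (θ : IrrCharacter K) (Ĝ : Type u) [Group Ĝ] [Finite Ĝ] (π : Ĝ →* G)
    (θt ν : Ĝ → ℂ), CEData K (θ : K → ℂ) Ĝ π θt ν →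
    ∀ ψ : IrrCharacter G, classInner (fun n : K => (ψ : G → ℂ) n) (θ : K → ℂ) ≠ 0 →
    ∃ β : IrrCharacter Ĝ, (∀ x : Ĝ, (ψ : G → ℂ) (π x) = (β : Ĝ → ℂ) x * θt x) ∧
      ∀ x k : Ĝ, π k ∈ K → (β : Ĝ → ℂ) (x * k) = (ν k)⁻¹ * (β : Ĝ → ℂ) x

/-- The characters `β` of `Ĝ` over `ν⁻¹` with `β · θt` the inflation of a member of `U`. -/
def liftSet {G : Type u} [Group G] (K : Subgroup G) (Ĝ : Type u) [Group Ĝ] (π : Ĝ →* G)
    (θt ν : Ĝ → ℂ) (U : Set (IrrCharacter G)) : Set (IrrCharacter Ĝ) :=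
  {β | (∀ x k : Ĝ, π k ∈ K → (β : Ĝ → ℂ) (x * k) = (ν k)⁻¹ * (β : Ĝ → ℂ) x) ∧
    ∃ χ ∈ U, ∀ x : Ĝ, (χ : G → ℂ) (π x) = (β : Ĝ → ℂ) x * θt x}

/-- (TRANSB) vanishing transfers to the central extension. -/
def StmtTransB (p : ℕ) : Prop := ∀ (G : Type u) [Group G] [Finite G] (K : Subgroup G) [K.Normal]
    [Fintype K] (θ : IrrCharacter K) (Ĝ : Type u) [Group Ĝ] [Finite Ĝ] (π : Ĝ →* G)
    (θt ν : Ĝ → ℂ), CEData K (θ : K → ℂ) Ĝ π θt ν → (Nat.card K).Coprime p →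
    ∀ U : Set (IrrCharacter G), VanishSing p U →
    (∀ χ ∈ U, classInner (fun n : K => (χ : G → ℂ) n) (θ : K → ℂ) ≠ 0) →
    VanishSing p (liftSet K Ĝ π θt ν U)

/-- (GROUPGAMMA) the quotient of the central extension by the kernel of `ν`. -/
def StmtGroupGamma (p : ℕ) : Prop := ∀ (G : Type u) [Group G] [Finite G] (K : Subgroup G)
    [K.Normal] (θ : K → ℂ) (Ĝ : Type u) [Group Ĝ] [Finite Ĝ] (π : Ĝ →* G) (θt ν : Ĝ → ℂ)
    (L : Subgroup Ĝ) [L.Normal],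
    CEData K θ Ĝ π θt ν → IsPSolvable p G → K = pPrimeCore p G →
    (∀ x : Ĝ, x ∈ L ↔ π x ∈ K ∧ ν x = 1) →
    IsPSolvable p (Ĝ ⧸ L) ∧ pPrimeCore p (Ĝ ⧸ L) ≤ Subgroup.center (Ĝ ⧸ L) ∧
      pPrimeCore p (Ĝ ⧸ L) ≤ (K.comap π).map (QuotientGroup.mk' L)

/-- (INVCORE) the case of an invariant character of `O_{p'}(G)`. -/
def StmtInvCore (p : ℕ) : Prop := ∀ (G : Type u) [Group G] [Finite G] (K : Subgroup G)
    [hK : K.Normal] [Fintype K],
    IsPSolvable p G → K = pPrimeCore p G → ∀ θ : IrrCharacter K,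
    (∀ (g : G) (n : K), (θ : K → ℂ) ⟨g * n * g⁻¹, hK.conj_mem n n.2 g⟩ = (θ : K → ℂ) n) →
    ∀ U : Set (IrrCharacter G), VanishSing p U →
    (∀ χ ∈ U, classInner (fun n : K => (χ : G → ℂ) n) (θ : K → ℂ) ≠ 0) →
    ∀ χ ∈ U, ∀ ψ : IrrCharacter G,
      classInner (fun n : K => (ψ : G → ℂ) n) (θ : K → ℂ) ≠ 0 → ψ ∈ U

end Cfsg.Agent.H79.Hc
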