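import Mathlib
import Cfsg.Agent.H86.Ev2Defs

/-!
# EV2-JPLANES (helper79, for helper86)

An isometry `x` of a nondegenerate quadratic form (`2 ≠ 0`) with `x * x = -1` decomposes the
space into pairwise orthogonal planes `⟨v j, x v j⟩` with `v j` nonsingular: strong induction on
the dimension of an `x`-invariant nondegenerate subspace.
-/

set_option autoImplicit false

namespace Cfsg.Agent.H79.Ev2

open Cfsg.Agent.H86.Ev2 Module Matrix

universe u v

section Abstract

variable {F : Type u} [Field F] {V : Type v} [AddCommGroup V] [Module F V]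

/-- A nonzero nondegenerate subspace contains a nonisotropic vector (`2 ≠ 0`). -/
theorem exists_nonisotropic (B : V →ₗ[F] V →ₗ[F] F) (h2 : (2 : F) ≠ 0)
    (hs : ∀ x y, B x y = B y x) (K : Submodule F V) (hK0 : K ≠ ⊥)
    (hK : ∀ w ∈ K, (∀ u ∈ K, B w u = 0) → w = 0) : ∃ v ∈ K, B v v ≠ 0 := by
  by_contra hcon
  have hall : ∀ v ∈ K, B v v = 0 := by
    intro v hv
    by_contra h
    exact hcon ⟨v, hv, h⟩
  obtain ⟨w, hw, hw0⟩ := Submodule.exists_mem_ne_zero_of_ne_bot hK0
  apply hw0
  apply hK w hw
  intro u hu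
  have h1 := hall (w + u) (K.add_mem hw hu)
  simp only [map_add, LinearMap.add_apply] at h1
  rw [hall w hw, hall u hu, hs u w] at h1
  have h3 : (2 : F) * B w u = 0 := by linear_combination h1
  exact (mul_eq_zero.mp h3).resolve_left h2

/-- `v ⊥ T v` for an isometry `T` with `T ∘ T = -1`. -/
theorem self_T_zero (B : V →ₗ[F] V →ₗ[F] F) (T : V →ₗ[F] V) (h2 : (2 : F) ≠ 0)
    (hs : ∀ x y, B x y = B y x) (hiso : ∀ x y, B (T x) (T y) = B x y)
    (hT : ∀ x, T (T x) = -x) (v : V) : B v (T v) = 0 := by
  have h1 : B v (T v) = B (T v) (T (T v)) := (hiso v (T v)).symm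
  rw [hT, map_neg, hs (T v) v] at h1
  have h3 : (2 : F) * B v (T v) = 0 := by linear_combination h1
  exact (mul_eq_zero.mp h3).resolve_left h2

/-- The induction: an invariant nondegenerate subspace is an orthogonal sum of planes. -/
theorem planes_aux [FiniteDimensional F V] (B : V →ₗ[F] V →ₗ[F] F) (T : V →ₗ[F] V)
    (h2 : (2 : F) ≠ 0) (hs : ∀ x y, B x y = B y x) (hiso : ∀ x y, B (T x) (T y) = B x y)
    (hT : ∀ x, T (T x) = -x) :
    ∀ (d : ℕ) (K : Submodule F V), finrank F K = d → (∀ w ∈ K, T w ∈ K) →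
      (∀ w ∈ K, (∀ u ∈ K, B w u = 0) → w = 0) →
      ∃ (n : ℕ) (v : Fin n → V), finrank F K = 2 * n ∧ (∀ j, v j ∈ K) ∧
        (∀ j, B (v j) (v j) ≠ 0) ∧
        (∀ j k, j ≠ k → B (v j) (v k) = 0 ∧ B (v j) (T (v k)) = 0) ∧
        (⨆ j, Submodule.span F {v j, T (v j)}) = K := by
  intro d
  induction d using Nat.strong_induction_on with
  | _ d ih =>
  intro K hd hinv hnd
  by_cases hK0 : K = ⊥
  · refine ⟨0, Fin.elim0, ?_, fun j => j.elim0, fun j => j.elim0, fun j => j.elim0, ?_⟩
    · rw [hK0, finrank_bot]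
    · rw [hK0]
      exact iSup_of_empty _
  · obtain ⟨v, hvK, hvv⟩ := exists_nonisotropic B h2 hs K hK0 hnd
    have hvT : B v (T v) = 0 := self_T_zero B T h2 hs hiso hT v
    have hTv : B (T v) v = 0 := by
      rw [hs]
      exact hvT
    have hTT : B (T v) (T v) = B v v := hiso v v
    have hTvK : T v ∈ K := hinv v hvK
    obtain ⟨K', hK'⟩ : ∃ K' : Submodule F V,
        ∀ w, w ∈ K' ↔ (w ∈ K ∧ B v w = 0 ∧ B (T v) w = 0) := by
      refine ⟨K ⊓ LinearMap.ker (B v) ⊓ LinearMap.ker (B (T v)), fun w => ?_⟩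
      simp only [Submodule.mem_inf, LinearMap.mem_ker, and_assoc]
    have hdec : ∀ k ∈ K, ∃ α β : F, k - α • v - β • T v ∈ K' := by
      intro k hk
      refine ⟨B v k / B v v, B (T v) k / B v v, ?_⟩
      rw [hK']
      refine ⟨K.sub_mem (K.sub_mem hk (K.smul_mem _ hvK)) (K.smul_mem _ hTvK), ?_, ?_⟩
      · simp only [map_sub, map_smul, smul_eq_mul, hvT, mul_zero, sub_zero]
        rw [div_mul_cancel₀ _ hvv, sub_self]
      · simp only [map_sub, map_smul, smul_eq_mul, hTv, hTT, mul_zero, sub_zero]
        rw [div_mul_cancel₀ _ hvv, sub_self]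
    have hinv' : ∀ w ∈ K', T w ∈ K' := by
      intro w hw
      rw [hK'] at hw ⊢
      obtain ⟨hwK, h1, h2'⟩ := hw
      refine ⟨hinv w hwK, ?_, ?_⟩
      · have h3 : B v (T w) = B (T v) (T (T w)) := (hiso v (T w)).symm
        rw [h3, hT, map_neg, h2', neg_zero]
      · rw [hiso, h1]
    have hnd' : ∀ w ∈ K', (∀ u ∈ K', B w u = 0) → w = 0 := by
      intro w hw hwu
      have hw' := (hK' w).mp hw
      apply hnd w hw'.1
      intro k hk
      obtain ⟨α, β, hk'⟩ := hdec k hk
      have h3 := hwu _ hk'
      simp only [map_sub, map_smul, smul_eq_mul] at h3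
      rw [hs w v, hw'.2.1, hs w (T v), hw'.2.2, mul_zero, mul_zero, sub_zero, sub_zero] at h3
      exact h3
    have hle : K' ≤ K := fun w hw => ((hK' w).mp hw).1
    have hlt : K' < K := by
      refine lt_of_le_of_ne hle ?_
      intro h
      have h3 : v ∈ K' := by
        rw [h]
        exact hvK
      exact hvv ((hK' v).mp h3).2.1
    have hfl : finrank F K' < d := by
      rw [← hd]
      exact Submodule.finrank_lt_finrank_of_lt hlt
    obtain ⟨n', v', hfin', hmem', hne', horth', hsup'⟩ :=
      ih (finrank F K') hfl K' rfl hinv' hnd'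
    have hPK : Submodule.span F {v, T v} ≤ K := by
      rw [Submodule.span_le]
      intro z hz
      rcases hz with hz | hz
      · rw [hz]
        exact hvK
      · rw [Set.mem_singleton_iff.mp hz]
        exact hTvK
    have hsupPK : Submodule.span F {v, T v} ⊔ K' = K := by
      apply le_antisymm (sup_le hPK hle)
      intro k hk
      obtain ⟨α, β, hk'⟩ := hdec k hk
      rw [Submodule.mem_sup]
      refine ⟨α • v + β • T v, ?_, k - α • v - β • T v, hk', by abel⟩
      rw [Submodule.mem_span_pair]
      exact ⟨α, β, rfl⟩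
    have hinfPK : Submodule.span F {v, T v} ⊓ K' = ⊥ := by
      rw [eq_bot_iff]
      intro w hw
      rw [Submodule.mem_inf, Submodule.mem_span_pair] at hw
      obtain ⟨⟨s, t, rfl⟩, hw2⟩ := hw
      rw [hK'] at hw2
      obtain ⟨_, h1, h2'⟩ := hw2
      simp only [map_add, map_smul, smul_eq_mul, hvT, hTv, hTT, mul_zero, add_zero,
        zero_add] at h1 h2'
      have hs0 : s = 0 := (mul_eq_zero.mp h1).resolve_right hvv
      have ht0 : t = 0 := (mul_eq_zero.mp h2').resolve_right hvv
      rw [hs0, ht0, zero_smul, zero_smul, add_zero]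
      exact Submodule.zero_mem _
    have hfinP : finrank F (Submodule.span F {v, T v}) = 2 := by
      have hli : LinearIndependent F ![v, T v] := by
        rw [LinearIndependent.pair_iff]
        intro s t hst
        have h1 : B v (s • v + t • T v) = 0 := by rw [hst, map_zero]
        have h2' : B (T v) (s • v + t • T v) = 0 := by rw [hst, map_zero]
        simp only [map_add, map_smul, smul_eq_mul, hvT, hTv, hTT, mul_zero, add_zero,
          zero_add] at h1 h2'
        exact ⟨(mul_eq_zero.mp h1).resolve_right hvv, (mul_eq_zero.mp h2').resolve_right hvv⟩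
      have h3 := finrank_span_eq_card hli
      rw [Matrix.range_cons_cons_empty] at h3
      rw [h3]
      simp
    have hfinK : finrank F K = 2 * (n' + 1) := by
      have h3 := Submodule.finrank_sup_add_finrank_inf_eq (Submodule.span F {v, T v}) K'
      rw [hsupPK, hinfPK, finrank_bot, hfinP, hfin'] at h3
      omega
    refine ⟨n' + 1, Fin.cons v v', hfinK, ?_, ?_, ?_, ?_⟩
    · intro j
      refine Fin.cases ?_ (fun j' => ?_) j
      · rw [Fin.cons_zero]
        exact hvK
      · rw [Fin.cons_succ]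
        exact hle (hmem' j')
    · intro j
      refine Fin.cases ?_ (fun j' => ?_) j
      · rw [Fin.cons_zero]
        exact hvv
      · rw [Fin.cons_succ]
        exact hne' j'
    · intro j k
      refine Fin.cases ?_ (fun j' => ?_) j
      · refine Fin.cases ?_ (fun k' => ?_) k
        · intro h
          exact absurd rfl h
        · intro _
          rw [Fin.cons_zero, Fin.cons_succ]
          have hk' := (hK' _).mp (hmem' k')
          refine ⟨hk'.2.1, ?_⟩
          have h3 : B v (T (v' k')) = B (T v) (T (T (v' k'))) := (hiso v _).symm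
          rw [h3, hT, map_neg, hk'.2.2, neg_zero]
      · refine Fin.cases ?_ (fun k' => ?_) k
        · intro _
          rw [Fin.cons_zero, Fin.cons_succ]
          have hj' := (hK' _).mp (hmem' j')
          exact ⟨by rw [hs]; exact hj'.2.1, by rw [hs]; exact hj'.2.2⟩
        · intro h
          rw [Fin.cons_succ, Fin.cons_succ]
          exact horth' j' k' (fun h' => h (by rw [h']))
    · apply le_antisymm
      · apply iSup_le
        intro j
        refine Fin.cases ?_ (fun j' => ?_) j
        · rw [Fin.cons_zero]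
          exact hPK
        · rw [Fin.cons_succ, Submodule.span_le]
          intro z hz
          rcases hz with hz | hz
          · rw [hz]
            exact hle (hmem' j')
          · rw [Set.mem_singleton_iff.mp hz]
            exact hinv _ (hle (hmem' j'))
      · have h5 : Submodule.span F {v, T v}
            ≤ ⨆ j, Submodule.span F {(Fin.cons v v' : Fin (n' + 1) → V) j,
              T ((Fin.cons v v' : Fin (n' + 1) → V) j)} := by
          refine le_iSup_of_le (0 : Fin (n' + 1)) ?_
          rw [Fin.cons_zero]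
        have h6 : K' ≤ ⨆ j, Submodule.span F {(Fin.cons v v' : Fin (n' + 1) → V) j,
              T ((Fin.cons v v' : Fin (n' + 1) → V) j)} := by
          rw [← hsup']
          apply iSup_le
          intro j'
          refine le_iSup_of_le j'.succ ?_
          rw [Fin.cons_succ]
        calc K = Submodule.span F {v, T v} ⊔ K' := hsupPK.symm
          _ ≤ _ := sup_le h5 h6

end Abstract

/-- EV2-JPLANES. -/
theorem jPlanes : StJPlanes.{u} := by
  intro F _ ι _ _ Q h2 hnd x hx hxx
  classical
  have hQ : ∀ a, Q ((x : Matrix ι ι F) *ᵥ a) = Q a := fun a => hx a a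
  obtain ⟨B, hB⟩ : ∃ B : (ι → F) →ₗ[F] (ι → F) →ₗ[F] F,
      ∀ a b, B a b = QuadraticMap.polar ⇑Q a b := ⟨QuadraticMap.polarBilin Q, fun a b => rfl⟩
  obtain ⟨T, hTdef⟩ : ∃ T : (ι → F) →ₗ[F] (ι → F), ∀ a, T a = (x : Matrix ι ι F) *ᵥ a :=
    ⟨Matrix.mulVecLin (x : Matrix ι ι F), fun a => rfl⟩
  have hs : ∀ a b, B a b = B b a := by
    intro a b
    rw [hB, hB, QuadraticMap.polar_comm]
  have hiso : ∀ a b, B (T a) (T b) = B a b := by
    intro a b
    rw [hB, hB]
    unfold QuadraticMap.polar
    rw [← map_add, hTdef, hTdef, hTdef, hQ, hQ, hQ]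
  have hT : ∀ a, T (T a) = -a := by
    intro a
    rw [hTdef, hTdef, Matrix.mulVec_mulVec, hxx, Matrix.neg_mulVec, Matrix.one_mulVec]
  obtain ⟨n, v, hfin, _, hne, horth, hsup⟩ :=
    planes_aux B T h2 hs hiso hT (finrank F (⊤ : Submodule F (ι → F))) ⊤ rfl
      (fun w _ => Submodule.mem_top)
      (fun w _ hw => hnd w (fun y => by rw [← hB]; exact hw y Submodule.mem_top))
  refine ⟨n, v, ?_, ?_, ?_, ?_⟩
  · rw [← hfin, finrank_top, Module.finrank_fintype_fun_eq_card]
  · intro j hj
    apply hne j
    rw [hB, QuadraticMap.polar_self, hj, smul_zero]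
  · intro j k hjk
    have h3 := horth j k hjk
    rw [hB, hB, hTdef] at h3
    exact h3
  · simp only [hTdef] at hsup
    exact hsup

example : StJPlanes.{u} := jPlanes

end Cfsg.Agent.H79.Ev2
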