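import Mathlib
import Cfsg.Agent.H99.I2Defs

/-!
# I2-PLANE (helper79, for helper99): an invariant nondegenerate subspace which is not of a-type
contains an invariant nondegenerate plane on which `T - 1` has rank `1`.
Also the basic identities of the context `I2Ctx`.
-/

set_option autoImplicit false

namespace Cfsg.Agent.H79.I2

open Cfsg.Agent.H45 Cfsg.Agent.H48.Ep Cfsg.Agent.H99.I2 Module

universe u v

section Basics

variable {F : Type u} [Field F] {V : Type v} [AddCommGroup V] [Module F V]
  {Q : QuadraticForm F V} {T : Module.End F V}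

theorem TT (h : I2Ctx Q T) (x : V) : T (T x) = x := by
  have := congrArg (fun f : Module.End F V => f x) h.sq
  simpa using this

theorem N_apply (T : Module.End F V) (x : V) : (T - 1) x = T x - x := by
  rw [LinearMap.sub_apply, Module.End.one_apply]

theorem add_self_F (h : I2Ctx Q T) (a : F) : a + a = 0 := by
  rw [← two_mul, h.two, zero_mul]

theorem add_self_V (h : I2Ctx Q T) (x : V) : x + x = 0 := by
  rw [← two_smul F, h.two, zero_smul]

theorem polar_self0 (h : I2Ctx Q T) (x : V) : QuadraticMap.polar ⇑Q x x = 0 := by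
  rw [QuadraticMap.polar_self, two_nsmul, add_self_F h]

theorem polar_T (h : I2Ctx Q T) (x y : V) :
    QuadraticMap.polar ⇑Q (T x) (T y) = QuadraticMap.polar ⇑Q x y := by
  unfold QuadraticMap.polar
  rw [← map_add, h.isom, h.isom, h.isom]

theorem polar_T' (h : I2Ctx Q T) (x y : V) :
    QuadraticMap.polar ⇑Q x (T y) = QuadraticMap.polar ⇑Q (T x) y := by
  rw [← polar_T h x (T y), TT h]

theorem Q_N (h : I2Ctx Q T) (x : V) :
    Q ((T - 1) x) = QuadraticMap.polar ⇑Q x (T x) := by
  have e : T x - x = T x + -x := sub_eq_add_neg _ _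
  rw [N_apply, e, QuadraticMap.map_add (⇑Q), QuadraticMap.map_neg, h.isom,
    QuadraticMap.polar_neg_right, QuadraticMap.polar_comm, add_self_F h, zero_add]
  exact neg_eq_of_add_eq_zero_left (add_self_F h _)

theorem polar_x_Nx (h : I2Ctx Q T) (x : V) :
    QuadraticMap.polar ⇑Q x ((T - 1) x) = Q ((T - 1) x) := by
  rw [Q_N h, N_apply, QuadraticMap.polar_sub_right, polar_self0 h, sub_zero]

theorem polar_N_swap (h : I2Ctx Q T) (x y : V) :
    QuadraticMap.polar ⇑Q x ((T - 1) y) = QuadraticMap.polar ⇑Q y ((T - 1) x) := by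
  rw [N_apply, N_apply, QuadraticMap.polar_sub_right, QuadraticMap.polar_sub_right,
    QuadraticMap.polar_comm (⇑Q) y x, polar_T' h x y, QuadraticMap.polar_comm (⇑Q) (T x) y]

theorem polar_N_N (h : I2Ctx Q T) (x y : V) :
    QuadraticMap.polar ⇑Q ((T - 1) x) ((T - 1) y) = 0 := by
  rw [N_apply, N_apply, QuadraticMap.polar_sub_left, QuadraticMap.polar_sub_right,
    QuadraticMap.polar_sub_right, polar_T h, polar_T' h x y]
  linear_combination (QuadraticMap.polar ⇑Q x y - QuadraticMap.polar ⇑Q (T x) y) * h.two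

theorem T_N (h : I2Ctx Q T) (x : V) : T ((T - 1) x) = -((T - 1) x) := by
  rw [N_apply, map_sub, TT h]
  abel

theorem N_N (h : I2Ctx Q T) (x : V) : (T - 1) ((T - 1) x) = 0 := by
  rw [N_apply T ((T - 1) x), T_N h, ← neg_add', add_self_V h, neg_zero]

theorem N_T (h : I2Ctx Q T) (x : V) : (T - 1) (T x) = -((T - 1) x) := by
  rw [N_apply, N_apply, TT h]
  abel

/-- A family whose Gram matrix detects coefficients is linearly independent and spans a
nondegenerate subspace. -/
theorem indep_nd_of_detect {ι : Type*} [Fintype ι] (Q : QuadraticForm F V) (e : ι → V)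
    (hdet : ∀ c : ι → F, (∀ i, QuadraticMap.polar ⇑Q (e i) (∑ j, c j • e j) = 0) →
      ∀ i, c i = 0) :
    LinearIndependent F e ∧ QNd Q (Submodule.span F (Set.range e)) := by
  constructor
  · rw [Fintype.linearIndependent_iff]
    intro c hc
    apply hdet
    intro i
    rw [hc, QuadraticMap.polar_zero_right]
  · unfold QNd
    rw [eq_bot_iff]
    rintro x ⟨hx1, hx2⟩
    obtain ⟨c, rfl⟩ := (Submodule.mem_span_range_iff_exists_fun F).mp hx1
    have hc : ∀ i, c i = 0 :=
      hdet c (fun i => hx2 (e i) (Submodule.subset_span ⟨i, rfl⟩))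
    simp [hc]

end Basics

theorem plane : StI2Plane.{u, v} := by
  intro F _ V _ _ _ Q T h X hX hA
  obtain ⟨hXinv, hXnd⟩ := hX
  unfold AType at hA
  push Not at hA
  obtain ⟨x, hxX, hx⟩ := hA
  have hc : QuadraticMap.polar ⇑Q x (T x) ≠ 0 := by rwa [← Q_N h]
  have hTX : ∀ y ∈ X, T y ∈ X := fun y hy => hXinv hy
  have hdet : ∀ c : Fin 2 → F,
      (∀ i, QuadraticMap.polar ⇑Q ((![x, T x] : Fin 2 → V) i)
        (∑ j, c j • (![x, T x] : Fin 2 → V) j) = 0) → ∀ i, c i = 0 := by
    intro c hcc
    have h0 := hcc 0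
    have h1 := hcc 1
    simp only [Fin.sum_univ_two, Matrix.cons_val_zero, Matrix.cons_val_one,
      QuadraticMap.polar_add_right, QuadraticMap.polar_smul_right, polar_self0 h, smul_eq_mul,
      mul_zero, zero_add, add_zero] at h0 h1
    rw [QuadraticMap.polar_comm] at h1
    intro i
    fin_cases i
    · exact (mul_eq_zero.mp h1).resolve_right hc
    · exact (mul_eq_zero.mp h0).resolve_right hc
  obtain ⟨hli, hnd⟩ := indep_nd_of_detect Q _ hdet
  refine ⟨Submodule.span F (Set.range (![x, T x] : Fin 2 → V)), ?_, ⟨?_, hnd⟩, ?_, ?_⟩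
  · rw [Submodule.span_le]
    rintro _ ⟨i, rfl⟩
    fin_cases i
    · exact hxX
    · exact hTX x hxX
  · rw [Module.End.mem_invtSubmodule_iff_map_le, Submodule.map_span, Submodule.span_le]
    rintro _ ⟨_, ⟨i, rfl⟩, rfl⟩
    fin_cases i
    · exact Submodule.subset_span ⟨1, rfl⟩
    · have : T (T x) = x := TT h x
      show T (T x) ∈ _
      rw [this]
      exact Submodule.subset_span ⟨0, rfl⟩
  · rw [finrank_span_eq_card hli, Fintype.card_fin]
  · unfold rk
    have hne : (T - 1) x ≠ 0 := by
      intro h0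
      apply hx
      rw [h0, map_zero]
    have : (Submodule.span F (Set.range (![x, T x] : Fin 2 → V))).map (T - 1)
        = Submodule.span F {(T - 1) x} := by
      rw [Submodule.map_span]
      apply le_antisymm
      · rw [Submodule.span_le]
        rintro _ ⟨_, ⟨i, rfl⟩, rfl⟩
        fin_cases i
        · exact Submodule.subset_span rfl
        · show (T - 1) (T x) ∈ _
          rw [N_T h]
          exact neg_mem (Submodule.subset_span rfl)
      · rw [Submodule.span_le, Set.singleton_subset_iff]
        exact Submodule.subset_span ⟨x, ⟨0, rfl⟩, rfl⟩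
    rw [this, finrank_span_singleton hne]

example : StI2Plane.{u, v} := plane

end Cfsg.Agent.H79.I2
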