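import Mathlib
import Cfsg.Agent.H99.I2Defs
import Cfsg.Agent.H79.I2Plane

/-!
# I2-BLOCK (helper79, for helper99): an invariant nondegenerate subspace of a-type on which
`T ≠ 1` contains an invariant nondegenerate `4`-dimensional subspace of plus type on which
`T - 1` has rank `2`.
-/

set_option autoImplicit false

namespace Cfsg.Agent.H79.I2

open Cfsg.Agent.H45 Cfsg.Agent.H48.Ep Cfsg.Agent.H99.I2 Module

universe u v

theorem block : StI2Block.{u, v} := by
  intro F _ V _ _ _ Q T h X hX hA hrk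
  obtain ⟨hXinv, hXnd⟩ := hX
  have hTX : ∀ y ∈ X, T y ∈ X := fun y hy => hXinv hy
  have hNX : ∀ y ∈ X, (T - 1) y ∈ X := fun y hy => by
    rw [N_apply]; exact sub_mem (hTX y hy) hy
  -- `w` with `N w ≠ 0`
  obtain ⟨w, hwX, hw⟩ : ∃ w ∈ X, (T - 1) w ≠ 0 := by
    by_contra hcon
    push Not at hcon
    apply hrk
    unfold rk
    have : X.map (T - 1) = ⊥ := by
      rw [eq_bot_iff]
      rintro _ ⟨y, hy, rfl⟩
      rw [Submodule.mem_bot]
      exact hcon y hy
    rw [this, finrank_bot]
  -- `u` with `polar u (N w) ≠ 0`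
  obtain ⟨u, huX, hu⟩ : ∃ u ∈ X, QuadraticMap.polar ⇑Q u ((T - 1) w) ≠ 0 := by
    by_contra hcon
    push Not at hcon
    apply hw
    have hmem : (T - 1) w ∈ X ⊓ perp (QuadraticMap.polarBilin Q) X :=
      ⟨hNX w hwX, fun u hu => hcon u hu⟩
    unfold QNd at hXnd
    rw [hXnd] at hmem
    exact (Submodule.mem_bot F).mp hmem
  obtain ⟨x, hxX, f1⟩ : ∃ x ∈ X, QuadraticMap.polar ⇑Q x ((T - 1) w) = 1 := by
    refine ⟨(QuadraticMap.polar ⇑Q u ((T - 1) w))⁻¹ • u, X.smul_mem _ huX, ?_⟩
    rw [QuadraticMap.polar_smul_left, smul_eq_mul, inv_mul_cancel₀ hu]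
  -- Gram entries
  have g01 : QuadraticMap.polar ⇑Q x ((T - 1) x) = 0 := by
    rw [polar_x_Nx h]; exact hA x hxX
  have g10 : QuadraticMap.polar ⇑Q ((T - 1) x) x = 0 := by
    rw [QuadraticMap.polar_comm]; exact g01
  have g11 : QuadraticMap.polar ⇑Q ((T - 1) x) ((T - 1) x) = 0 := polar_N_N h x x
  have g21 : QuadraticMap.polar ⇑Q w ((T - 1) x) = 1 := by
    rw [← polar_N_swap h x w]; exact f1
  have g12 : QuadraticMap.polar ⇑Q ((T - 1) x) w = 1 := by
    rw [QuadraticMap.polar_comm]; exact g21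
  have g13 : QuadraticMap.polar ⇑Q ((T - 1) x) ((T - 1) w) = 0 := polar_N_N h x w
  have g23 : QuadraticMap.polar ⇑Q w ((T - 1) w) = 0 := by
    rw [polar_x_Nx h]; exact hA w hwX
  have g30 : QuadraticMap.polar ⇑Q ((T - 1) w) x = 1 := by
    rw [QuadraticMap.polar_comm]; exact f1
  have g31 : QuadraticMap.polar ⇑Q ((T - 1) w) ((T - 1) x) = 0 := polar_N_N h w x
  have g32 : QuadraticMap.polar ⇑Q ((T - 1) w) w = 0 := by
    rw [QuadraticMap.polar_comm]; exact g23
  have g33 : QuadraticMap.polar ⇑Q ((T - 1) w) ((T - 1) w) = 0 := polar_N_N h w w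
  have hdet : ∀ c : Fin 4 → F,
      (∀ i, QuadraticMap.polar ⇑Q ((![x, (T - 1) x, w, (T - 1) w] : Fin 4 → V) i)
        (∑ j, c j • (![x, (T - 1) x, w, (T - 1) w] : Fin 4 → V) j) = 0) → ∀ i, c i = 0 := by
    intro c hcc
    have h0 : QuadraticMap.polar ⇑Q x
        (c 0 • x + c 1 • (T - 1) x + c 2 • w + c 3 • (T - 1) w) = 0 := by
      have := hcc 0
      rw [Fin.sum_univ_four] at this
      exact this
    have h1 : QuadraticMap.polar ⇑Q ((T - 1) x)
        (c 0 • x + c 1 • (T - 1) x + c 2 • w + c 3 • (T - 1) w) = 0 := by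
      have := hcc 1
      rw [Fin.sum_univ_four] at this
      exact this
    have h2 : QuadraticMap.polar ⇑Q w
        (c 0 • x + c 1 • (T - 1) x + c 2 • w + c 3 • (T - 1) w) = 0 := by
      have := hcc 2
      rw [Fin.sum_univ_four] at this
      exact this
    have h3 : QuadraticMap.polar ⇑Q ((T - 1) w)
        (c 0 • x + c 1 • (T - 1) x + c 2 • w + c 3 • (T - 1) w) = 0 := by
      have := hcc 3
      rw [Fin.sum_univ_four] at this
      exact this
    simp only [QuadraticMap.polar_add_right, QuadraticMap.polar_smul_right, polar_self0 h,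
      g01, f1, g10, g11, g12, g13, g21, g23, g30, g31, g32, g33, smul_eq_mul] at h0 h1 h2 h3
    have e0 : c 0 = 0 := by linear_combination h3
    have e2 : c 2 = 0 := by linear_combination h1
    have e1 : c 1 = 0 := by
      linear_combination h2 - QuadraticMap.polar ⇑Q w x * e0
    have e3 : c 3 = 0 := by
      linear_combination h0 - QuadraticMap.polar ⇑Q x w * e2
    intro i
    fin_cases i
    · exact e0
    · exact e1
    · exact e2
    · exact e3
  obtain ⟨hli, hnd⟩ := indep_nd_of_detect Q _ hdet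
  have hAfin : finrank F ↥(Submodule.span F
      (Set.range (![x, (T - 1) x, w, (T - 1) w] : Fin 4 → V))) = 4 := by
    rw [finrank_span_eq_card hli, Fintype.card_fin]
  -- the totally singular plane
  have hUli : LinearIndependent F (![(T - 1) x, (T - 1) w] : Fin 2 → V) := by
    have e : (![(T - 1) x, (T - 1) w] : Fin 2 → V)
        = (![x, (T - 1) x, w, (T - 1) w] : Fin 4 → V) ∘ (![1, 3] : Fin 2 → Fin 4) := by
      funext i
      fin_cases i <;> rfl
    rw [e]
    exact hli.comp _ (by decide)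
  have hUfin : finrank F ↥(Submodule.span F
      (Set.range (![(T - 1) x, (T - 1) w] : Fin 2 → V))) = 2 := by
    rw [finrank_span_eq_card hUli, Fintype.card_fin]
  have hUA : Submodule.span F (Set.range (![(T - 1) x, (T - 1) w] : Fin 2 → V))
      ≤ Submodule.span F (Set.range (![x, (T - 1) x, w, (T - 1) w] : Fin 4 → V)) := by
    rw [Submodule.span_le]
    rintro _ ⟨i, rfl⟩
    fin_cases i
    · exact Submodule.subset_span ⟨1, rfl⟩
    · exact Submodule.subset_span ⟨3, rfl⟩
  have hUsing : ∀ y ∈ Submodule.span F (Set.range (![(T - 1) x, (T - 1) w] : Fin 2 → V)),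
      Q y = 0 := by
    intro y hy
    obtain ⟨c, rfl⟩ := (Submodule.mem_span_range_iff_exists_fun F).mp hy
    rw [Fin.sum_univ_two]
    show Q (c 0 • (T - 1) x + c 1 • (T - 1) w) = 0
    rw [QuadraticMap.map_add (⇑Q), QuadraticMap.map_smul, QuadraticMap.map_smul,
      QuadraticMap.polar_smul_left, QuadraticMap.polar_smul_right, g13, hA x hxX, hA w hwX]
    simp
  refine ⟨Submodule.span F (Set.range (![x, (T - 1) x, w, (T - 1) w] : Fin 4 → V)), ?_,
    ⟨?_, hnd⟩, hAfin, ⟨_, hUA, hUsing, by rw [hUfin, hAfin]⟩, ?_⟩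
  · rw [Submodule.span_le]
    rintro _ ⟨i, rfl⟩
    fin_cases i
    · exact hxX
    · exact hNX x hxX
    · exact hwX
    · exact hNX w hwX
  · rw [Module.End.mem_invtSubmodule_iff_map_le, Submodule.map_span, Submodule.span_le]
    rintro _ ⟨_, ⟨i, rfl⟩, rfl⟩
    fin_cases i
    · show T x ∈ _
      have e : T x = x + (T - 1) x := by rw [N_apply]; abel
      rw [e]
      exact add_mem (Submodule.subset_span ⟨0, rfl⟩) (Submodule.subset_span ⟨1, rfl⟩)
    · show T ((T - 1) x) ∈ _
      rw [T_N h]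
      exact neg_mem (Submodule.subset_span ⟨1, rfl⟩)
    · show T w ∈ _
      have e : T w = w + (T - 1) w := by rw [N_apply]; abel
      rw [e]
      exact add_mem (Submodule.subset_span ⟨2, rfl⟩) (Submodule.subset_span ⟨3, rfl⟩)
    · show T ((T - 1) w) ∈ _
      rw [T_N h]
      exact neg_mem (Submodule.subset_span ⟨3, rfl⟩)
  · unfold rk
    have e : (Submodule.span F (Set.range (![x, (T - 1) x, w, (T - 1) w] : Fin 4 → V))).map
        (T - 1) = Submodule.span F (Set.range (![(T - 1) x, (T - 1) w] : Fin 2 → V)) := by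
      rw [Submodule.map_span]
      apply le_antisymm
      · rw [Submodule.span_le]
        rintro _ ⟨_, ⟨i, rfl⟩, rfl⟩
        fin_cases i
        · exact Submodule.subset_span ⟨0, rfl⟩
        · show (T - 1) ((T - 1) x) ∈ _
          rw [N_N h]
          exact zero_mem _
        · exact Submodule.subset_span ⟨1, rfl⟩
        · show (T - 1) ((T - 1) w) ∈ _
          rw [N_N h]
          exact zero_mem _
      · rw [Submodule.span_le]
        rintro _ ⟨i, rfl⟩
        fin_cases i
        · exact Submodule.subset_span ⟨x, ⟨0, rfl⟩, rfl⟩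
        · exact Submodule.subset_span ⟨w, ⟨2, rfl⟩, rfl⟩
    rw [e, hUfin]

example : StI2Block.{u, v} := block

end Cfsg.Agent.H79.I2
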