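import Mathlib
import Cfsg.Agent.H61.TmExDefs
import Cfsg.Agent.H3.TiCycSet
import Cfsg.Agent.H3.TiPrim
import Cfsg.Agent.H3.TiCompDvd

/-!
# TMX-POWERS (helper79, for helper61's S5987-EXEVEN sub-tree)

A fixed-point-free `T` with `T ^ r = 1` on a space of dimension `i = ii F r` is killed by one
irreducible factor `φ₁` of the cyclotomic polynomial, and every other factor `φ₀` kills a
suitable power of `T`: in the field `K = F[X]/(φ₁)` the class `ζ` of `X` has order `r`, the `r`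
powers of `ζ` are the roots of `X ^ r - 1 = φ₀ ψ`, and they cannot all be roots of `ψ`.
-/

set_option autoImplicit false

namespace Cfsg.Agent.H79.Tm

open Cfsg.Agent.H45 Cfsg.Agent.H42.Spd Cfsg.Agent.H42.Ti Cfsg.Agent.H77.Tq Cfsg.Agent.H77.Tm
  Cfsg.Agent.H61.Tm Module Polynomial

universe u

/-- Pure polynomial statement: some `φ₀ (X ^ e)` is divisible by `φ₁`. -/
theorem exists_pow_root {F : Type u} [Field F] (r : ℕ) (hr : r.Prime) (φ₁ φ₀ : F[X])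
    (hφ₁ : Irreducible φ₁) (h1 : φ₁ ∣ X ^ r - 1) (h0 : φ₀ ∣ X ^ r - 1)
    (hdeg : 0 < φ₀.natDegree) (hne : ¬ φ₁ ∣ X - 1) : ∃ e : ℕ, φ₁ ∣ φ₀.comp (X ^ e) := by
  have hfact : Fact (Irreducible φ₁) := ⟨hφ₁⟩
  have hfr : Fact r.Prime := ⟨hr⟩
  obtain ⟨ζ, hζ⟩ : ∃ ζ : AdjoinRoot φ₁, ζ = AdjoinRoot.root φ₁ := ⟨_, rfl⟩
  have hζr : ζ ^ r = 1 := by
    have h3 : AdjoinRoot.mk φ₁ (X ^ r - 1) = 0 := AdjoinRoot.mk_eq_zero.mpr h1
    rw [map_sub, map_pow, AdjoinRoot.mk_X, map_one] at h3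
    rw [hζ]
    exact sub_eq_zero.mp h3
  have hζ1 : ζ ≠ 1 := by
    intro h
    apply hne
    rw [← AdjoinRoot.mk_eq_zero, map_sub, AdjoinRoot.mk_X, map_one, ← hζ]
    exact sub_eq_zero.mpr h
  have hord : orderOf ζ = r := orderOf_eq_prime hζr hζ1
  obtain ⟨ψ, hψ⟩ := h0
  by_contra hcon
  have hroot0 : ∀ e : ℕ, (φ₀.map (algebraMap F (AdjoinRoot φ₁))).eval (ζ ^ e) ≠ 0 := by
    intro e h
    apply hcon
    refine ⟨e, ?_⟩
    rw [← AdjoinRoot.mk_eq_zero, ← AdjoinRoot.aeval_eq, Polynomial.aeval_comp, aeval_X_pow,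
      aeval_def, ← eval_map, ← hζ]
    exact h
  have hΨ : ∀ e : Fin r, (ψ.map (algebraMap F (AdjoinRoot φ₁))).eval (ζ ^ (e : ℕ)) = 0 := by
    intro e
    have h3 : ((X ^ r - 1 : F[X]).map (algebraMap F (AdjoinRoot φ₁))).eval (ζ ^ (e : ℕ)) = 0 := by
      simp only [Polynomial.map_sub, Polynomial.map_pow, map_X, Polynomial.map_one, eval_sub,
        eval_pow, eval_X, eval_one]
      rw [← pow_mul, mul_comm, pow_mul, hζr, one_pow, sub_self]
    rw [hψ, Polynomial.map_mul, eval_mul] at h3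
    exact (mul_eq_zero.mp h3).resolve_left (hroot0 e)
  have hinj : Function.Injective (fun e : Fin r => ζ ^ (e : ℕ)) := by
    intro a b hab
    apply Fin.ext
    apply pow_injOn_Iio_orderOf (x := ζ)
    · rw [hord]
      exact a.2
    · rw [hord]
      exact b.2
    · exact hab
  have hφ0 : φ₀ ≠ 0 := by
    rintro rfl
    simp at hdeg
  have hψ0 : ψ ≠ 0 := by
    rintro rfl
    rw [mul_zero] at hψ
    have h4 := X_pow_sub_C_ne_zero hr.pos (1 : F)
    rw [map_one] at h4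
    exact h4 hψ
  have hdegψ : (ψ.map (algebraMap F (AdjoinRoot φ₁))).natDegree < Fintype.card (Fin r) := by
    rw [Fintype.card_fin, natDegree_map]
    have h4 : (X ^ r - 1 : F[X]).natDegree = r := by
      have h5 := natDegree_X_pow_sub_C (R := F) (n := r) (r := 1)
      rw [map_one] at h5
      exact h5
    rw [hψ, natDegree_mul hφ0 hψ0] at h4
    omega
  have hzero := eq_zero_of_natDegree_lt_card_of_eval_eq_zero
    (ψ.map (algebraMap F (AdjoinRoot φ₁))) hinj hΨ hdegψ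
  exact hψ0 ((Polynomial.map_eq_zero (algebraMap F (AdjoinRoot φ₁))).mp hzero)

/-- TMX-POWERS. -/
theorem powers : StPowers.{u} := by
  intro F _ _ V _ _ _ r T hr hrF hTr hker hfin hipos Φs hΦ φ₀ hφ₀
  obtain ⟨_, hcyc⟩ := Cfsg.Agent.H3.Ti.cycSet F r hr hrF
  obtain ⟨hcard, hdegs, hprod⟩ := hcyc Φs hΦ
  have htop : (⊤ : Submodule F V) ∈ T.invtSubmodule := by
    rw [Module.End.mem_invtSubmodule]
    exact le_top
  have hprim := Cfsg.Agent.H3.Ti.tiPrim Cfsg.Agent.H3.Ti.cycSet F V r T hr hrF hTr Φs hΦ ⊤ htop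
  have e1 : ∀ K : Submodule F V, finrank F ↥(⊤ ⊓ K) = finrank F ↥K := fun K => by
    rw [top_inf_eq]
  rw [e1, hker, finrank_bot, zero_add, Finset.sum_congr rfl (fun φ _ => e1 _),
    finrank_top] at hprim
  have hdvd : ∀ φ ∈ Φs, ii F r ∣ finrank F ↥(LinearMap.ker (aeval T φ)) := by
    intro φ hφ
    have h3 := Cfsg.Agent.H3.Ti.tiCompDvd F V T φ ((hΦ φ).mp hφ).2.1 ⊤ htop
    rw [top_inf_eq, hdegs φ hφ] at h3
    exact h3
  have hex : ∃ φ₁ ∈ Φs, finrank F ↥(LinearMap.ker (aeval T φ₁)) ≠ 0 := by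
    by_contra hcon
    have hall : ∀ φ ∈ Φs, finrank F ↥(LinearMap.ker (aeval T φ)) = 0 := by
      intro φ hφ
      by_contra h
      exact hcon ⟨φ, hφ, h⟩
    rw [Finset.sum_eq_zero hall] at hprim
    omega
  obtain ⟨φ₁, hφ₁, hne⟩ := hex
  have hge : ii F r ≤ finrank F ↥(LinearMap.ker (aeval T φ₁)) :=
    Nat.le_of_dvd (Nat.pos_of_ne_zero hne) (hdvd φ₁ hφ₁)
  have hle : finrank F ↥(LinearMap.ker (aeval T φ₁)) ≤ finrank F V := Submodule.finrank_le _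
  have hkt : LinearMap.ker (aeval T φ₁) = ⊤ := Submodule.eq_top_of_finrank_eq (by omega)
  have hT1 : aeval T φ₁ = 0 := LinearMap.ker_eq_top.mp hkt
  have hcycdvd : ∀ φ ∈ Φs, φ ∣ (X ^ r - 1 : F[X]) := by
    intro φ hφ
    exact dvd_trans ((hΦ φ).mp hφ).2.2 (cyclotomic.dvd_X_pow_sub_one r F)
  have hnot : ¬ φ₁ ∣ X - 1 := by
    rintro ⟨c, hc⟩
    have h3 : aeval T (X - 1 : F[X]) = 0 := by
      rw [hc, map_mul, hT1, zero_mul]
    rw [map_sub, aeval_X, map_one] at h3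
    rw [h3, LinearMap.ker_zero] at hker
    have h4 : finrank F V = 0 := by
      rw [← finrank_top F V, hker, finrank_bot]
    omega
  have hdeg0 : 0 < φ₀.natDegree := by
    rw [hdegs φ₀ hφ₀]
    exact hipos
  obtain ⟨e, c, hc⟩ := exists_pow_root r hr φ₁ φ₀ ((hΦ φ₁).mp hφ₁).2.1 (hcycdvd φ₁ hφ₁)
    (hcycdvd φ₀ hφ₀) hdeg0 hnot
  refine ⟨e, ?_⟩
  have h5 : aeval T (φ₀.comp (X ^ e)) = aeval (T ^ e) φ₀ := by
    rw [Polynomial.aeval_comp, aeval_X_pow]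
  rw [← h5, hc, map_mul, hT1, zero_mul]

example : StPowers.{u} := powers

end Cfsg.Agent.H79.Tm
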