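import Mathlib
import Cfsg.Agent.H61.TmExDefs
import Cfsg.Agent.H32.TiModAdd

/-!
# TMX-SUM (helper79, for helper61's S5987-EXEVEN sub-tree)

Orthogonal sums of quadratic models.
-/

set_option autoImplicit false

namespace Cfsg.Agent.H79.Tm

open Cfsg.Agent.H45 Cfsg.Agent.H42.Spd Cfsg.Agent.H42.Ti Cfsg.Agent.H77.Tq Cfsg.Agent.H77.Tm
  Cfsg.Agent.H61.Tm Module Polynomial

universe u

section

variable {F : Type*} [Field F] {V₁ V₂ : Type*} [AddCommGroup V₁] [Module F V₁]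
  [AddCommGroup V₂] [Module F V₂]

/-- The polar form of an orthogonal sum. -/
theorem polar_prod_apply (Q₁ : QuadraticForm F V₁) (Q₂ : QuadraticForm F V₂) (x y : V₁ × V₂) :
    QuadraticMap.polar ⇑(Q₁.prod Q₂) x y
      = QuadraticMap.polar ⇑Q₁ x.1 y.1 + QuadraticMap.polar ⇑Q₂ x.2 y.2 := by
  simp only [QuadraticMap.polar, QuadraticMap.prod_apply, Prod.fst_add, Prod.snd_add]
  ring

/-- `QCtx` for an orthogonal sum. -/
theorem qctx_prod {r : ℕ} {Q₁ : QuadraticForm F V₁} {Q₂ : QuadraticForm F V₂}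
    {g₁ : Module.End F V₁} {g₂ : Module.End F V₂} (h₁ : QCtx r Q₁ g₁)
    (hnd₂ : ∀ x, (∀ y, QuadraticMap.polar ⇑Q₂ x y = 0) → x = 0)
    (hiso₂ : ∀ x, Q₂ (g₂ x) = Q₂ x) (hpow₂ : g₂ ^ r = 1) :
    QCtx r (Q₁.prod Q₂) (g₁.prodMap g₂) := by
  refine ⟨h₁.prime, h₁.ne_two, h₁.cast_ne, ?_, ?_, ?_⟩
  · intro x hx
    apply Prod.ext
    · apply h₁.nondeg
      intro y
      have h := hx (y, 0)
      rw [polar_prod_apply] at h
      simpa using h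
    · apply hnd₂
      intro y
      have h := hx (0, y)
      rw [polar_prod_apply] at h
      simpa using h
  · intro x
    rw [QuadraticMap.prod_apply, QuadraticMap.prod_apply]
    show Q₁ (g₁ x.1) + Q₂ (g₂ x.2) = _
    rw [h₁.isom, hiso₂]
  · rw [prodMap_pow', h₁.pow, hpow₂, LinearMap.prodMap_one]

theorem sub_one_prodMap (g₁ : Module.End F V₁) (g₂ : Module.End F V₂) :
    g₁.prodMap g₂ - 1 = (g₁ - 1).prodMap (g₂ - 1) := by
  apply LinearMap.ext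
  rintro ⟨x, y⟩
  simp only [LinearMap.sub_apply, LinearMap.prodMap_apply, Module.End.one_apply,
    Prod.mk_sub_mk]

end

/-- TMX-SUM. -/
theorem modSum : StModSum.{u} := by
  intro F _ r Φs n₁ c₁ n₂ c₂ a₁ a₂ h₁ h₂
  obtain ⟨V₁, _, _, _, Q₁, g₁, hq₁, hn₁, hc₁, ha₁⟩ := h₁
  obtain ⟨V₂, _, _, _, Q₂, g₂, hq₂, hn₂, hc₂, ha₂⟩ := h₂
  refine ⟨V₁ × V₂, inferInstance, inferInstance, inferInstance, Q₁.prod Q₂, g₁.prodMap g₂,
    qctx_prod hq₁ hq₂.nondeg hq₂.isom hq₂.pow, ?_, ?_, ?_⟩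
  · rw [Module.finrank_prod, hn₁, hn₂]
  · rw [sub_one_prodMap, Cfsg.Agent.H32.Ti.ker_prodMap, Cfsg.Agent.H32.Ti.finrank_prod_sub,
      hc₁, hc₂]
  · intro φ hφ
    rw [Cfsg.Agent.H32.Ti.aeval_prodMap, Cfsg.Agent.H32.Ti.ker_prodMap,
      Cfsg.Agent.H32.Ti.finrank_prod_sub, ha₁ φ hφ, ha₂ φ hφ]

example : StModSum.{u} := modSum

end Cfsg.Agent.H79.Tm
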