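import Mathlib
import Cfsg.Agent.H61.TmExDefs
import Cfsg.Agent.H32.TiModAdd
import Cfsg.Agent.H79.TmXSum

/-!
# TMX-FIX (helper79, for helper61's S5987-EXEVEN sub-tree)

The orthogonal sum of a fixed-point-free model with a quadratic space on which the isometry is
the identity.
-/

set_option autoImplicit false

namespace Cfsg.Agent.H79.Tm

open Cfsg.Agent.H45 Cfsg.Agent.H42.Spd Cfsg.Agent.H42.Ti Cfsg.Agent.H77.Tq Cfsg.Agent.H77.Tm
  Cfsg.Agent.H61.Tm Module Polynomial

universe u

/-- TMX-FIX. -/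
theorem modFix : StModFix.{u} := by
  intro F _ r n Φs a C _ _ _ QC hev hM hndC
  obtain ⟨V₁, _, _, _, Q₁, g₁, hq₁, hn₁, hc₁, ha₁⟩ := hM
  have hker₁ : LinearMap.ker (g₁ - 1) = ⊥ := Submodule.finrank_eq_zero.mp hc₁
  have hq : QCtx r (Q₁.prod QC) (g₁.prodMap (1 : Module.End F C)) :=
    qctx_prod hq₁ hndC (fun x => rfl) (one_pow r)
  refine ⟨V₁ × C, inferInstance, inferInstance, inferInstance, Q₁.prod QC, g₁.prodMap 1,
    LinearMap.inr F V₁ C, hq, ?_, LinearMap.inr_injective, ?_, ?_, ?_⟩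
  · rw [Module.finrank_prod, hn₁]
  · ext ⟨x, y⟩
    rw [sub_one_prodMap, Cfsg.Agent.H32.Ti.ker_prodMap, hker₁, sub_self]
    simp only [LinearMap.mem_range, LinearMap.inr_apply, Prod.mk.injEq, Submodule.mem_prod,
      Submodule.mem_bot, LinearMap.ker_zero, Submodule.mem_top, and_true]
    constructor
    · rintro ⟨c, h0, _⟩
      exact h0.symm
    · intro h
      exact ⟨y, h.symm, rfl⟩
  · intro c
    rw [QuadraticMap.prod_apply]
    simp
  · intro φ hφ
    rw [Cfsg.Agent.H32.Ti.aeval_prodMap, Cfsg.Agent.H32.Ti.ker_prodMap,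
      Cfsg.Agent.H32.Ti.finrank_prod_sub, ha₁ φ hφ]
    have hk : LinearMap.ker (aeval (1 : Module.End F C) φ) = ⊥ := by
      have h1 : aeval (1 : Module.End F C) φ = algebraMap F (Module.End F C) (φ.eval 1) := by
        rw [← Polynomial.aeval_algebraMap_apply_eq_algebraMap_eval, map_one]
      rw [h1, LinearMap.ker_eq_bot']
      intro x hx
      rw [Module.algebraMap_end_apply] at hx
      exact (smul_eq_zero.mp hx).resolve_left (hev φ hφ)
    rw [hk, finrank_bot, add_zero]

example : StModFix.{u} := modFix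

end Cfsg.Agent.H79.Tm
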