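import Cfsg.Agent.H79.HcDefs

/-!
# S4439 team project: exact statements of the pieces (helper79)

In a `p`-solvable group, the height of a character in a block with defect group `P` is at most
`ν_p(|P : Z(P)|)`.  Uses the central-extension machinery of the S4440 project (`HcDefs`).
-/

set_option autoImplicit false

namespace Cfsg.Agent.H79.Hc

open Cfsg
open scoped ComplexConjugate

universe u

/-- (HTCENTRAL) central `p'`-core: the `p`-part of a degree is at most `|P : Z(P)|`. -/
def StmtHtCentral (p : ℕ) : Prop := ∀ (Γ : Type u) [Group Γ] [Finite Γ], IsPSolvable p Γ →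
    pPrimeCore p Γ ≤ Subgroup.center Γ → ∀ (ξ : IrrCharacter Γ) (P : Sylow p Γ),
    (charDegree (ξ : Γ → ℂ)).factorization p ≤
      ((Subgroup.center (P : Subgroup Γ)).index).factorization p

/-- (SYLOWCENTER) a surjection with `p'`-kernel preserves `|P : Z(P)|` for Sylow
`p`-subgroups. -/
def StmtSylowCenter (p : ℕ) : Prop := ∀ (X Y : Type u) [Group X] [Finite X] [Group Y] [Finite Y]
    (f : X →* Y), Function.Surjective f → (Nat.card f.ker).Coprime p →
    ∀ (P : Sylow p X) (Q : Sylow p Y),
    (Subgroup.center (P : Subgroup X)).index = (Subgroup.center (Q : Subgroup Y)).index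

/-- (HTINV) characters over an invariant character of `O_{p'}(G)`. -/
def StmtHtInv (p : ℕ) : Prop := ∀ (G : Type u) [Group G] [Finite G] (K : Subgroup G)
    [hK : K.Normal] [Fintype K],
    IsPSolvable p G → K = pPrimeCore p G → ∀ θ : IrrCharacter K,
    (∀ (g : G) (n : K), (θ : K → ℂ) ⟨g * n * g⁻¹, hK.conj_mem n n.2 g⟩ = (θ : K → ℂ) n) →
    ∀ χ : IrrCharacter G, classInner (fun n : K => (χ : G → ℂ) n) (θ : K → ℂ) ≠ 0 →
    ∀ P : Sylow p G,
    (charDegree (χ : G → ℂ)).factorization p ≤
      ((Subgroup.center (P : Subgroup G)).index).factorization p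

/-- The statement of S4439 for one group. -/
def HtProp (p : ℕ) (M : Ideal AlgInt) (G : Type u) [Group G] : Prop :=
  ∀ B : Set (IrrCharacter G), IsPBlock M B → ∀ P : Subgroup G, IsDefectGroup p M B P →
    ∀ χ ∈ B, blockHeight p B (χ : G → ℂ) ≤ ((Subgroup.center P).index).factorization p

/-- (HTFR) the Fong–Reynolds step for heights. -/
def StmtHtFR (p : ℕ) (M : Ideal AlgInt) : Prop := ∀ (G : Type u) [Group G] [Finite G]
    (K T : Subgroup G) [hK : K.Normal] [Fintype K],
    IsPModular p M → (Nat.card K).Coprime p → ∀ θ : IrrCharacter K,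
    (∀ g : G, g ∈ T ↔
      ∀ n : K, (θ : K → ℂ) ⟨g * n * g⁻¹, hK.conj_mem n n.2 g⟩ = (θ : K → ℂ) n) →
    HtProp p M T →
    ∀ B : Set (IrrCharacter G), IsPBlock M B → ∀ P : Subgroup G, IsDefectGroup p M B P →
    ∀ χ ∈ B, classInner (fun n : K => (χ : G → ℂ) n) (θ : K → ℂ) ≠ 0 →
    blockHeight p B (χ : G → ℂ) ≤ ((Subgroup.center P).index).factorization p

end Cfsg.Agent.H79.Hc
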