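import Mathlib
import Cfsg.Agent.H83.AbIdxDefs

/-!
# S4463-COREFREE (helper79, for helper83's project)

If every normal subgroup properly containing `K` contains `G'` and `G / K` is not solvable, then
the preimage of the centralizer of a nonidentity element of `G / K` has normal core inside `K`.
-/

set_option autoImplicit false

namespace Cfsg.Agent.H79.AbIdx

open Cfsg Cfsg.Agent.H83.AbIdx

universe u

theorem coreFree : StmtCoreFree.{u} := by
  intro G _ _ K _ hmax hns x hx
  set H := (Subgroup.centralizer ({(x : G ⧸ K)} : Set (G ⧸ K))).comap (QuotientGroup.mk' K)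
    with hH
  set L := H.normalCore with hL
  have hK1 : ∀ k ∈ K, (QuotientGroup.mk' K k) = 1 := fun k hk => by
    simpa using (QuotientGroup.eq_one_iff k).2 hk
  have hKH : K ≤ H := by
    intro k hk
    rw [hH, Subgroup.mem_comap, Subgroup.mem_centralizer_iff]
    intro y hy
    rw [hK1 k hk]; simp
  have hKL : K ≤ L := Subgroup.normal_le_normalCore.2 hKH
  by_contra hLK
  have hne : L ≠ K := fun h => hLK (h ▸ le_rfl)
  have hGL : commutator G ≤ L := hmax L (Subgroup.normalCore_normal H) hKL hne
  have hLH : L ≤ H := Subgroup.normalCore_le H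
  set M := L.map (QuotientGroup.mk' K) with hM
  haveI hMn : M.Normal :=
    Subgroup.Normal.map (Subgroup.normalCore_normal H) _ (QuotientGroup.mk'_surjective K)
  set C := (Subgroup.centralizer (M : Set (G ⧸ K))).comap (QuotientGroup.mk' K) with hC
  haveI hCn : C.Normal := Subgroup.Normal.comap inferInstance _
  have hKC : K ≤ C := by
    intro k hk
    rw [hC, Subgroup.mem_comap, Subgroup.mem_centralizer_iff]
    intro y hy
    rw [hK1 k hk]; simp
  have hxC : x ∈ C := by
    rw [hC, Subgroup.mem_comap, Subgroup.mem_centralizer_iff]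
    rintro y ⟨l, hl, rfl⟩
    have := hLH hl
    rw [hH, Subgroup.mem_comap, Subgroup.mem_centralizer_iff] at this
    exact (this _ rfl).symm
  have hCne : C ≠ K := fun h => hx (h ▸ hxC)
  have hGC : commutator G ≤ C := hmax C hCn hKC hCne
  apply hns
  rw [Group.isSolvable_def]
  refine ⟨2, ?_⟩
  have hD : derivedSeries (G ⧸ K) 1 = (commutator G).map (QuotientGroup.mk' K) := by
    rw [derivedSeries_succ, derivedSeries_zero, commutator_def, Subgroup.map_commutator,
      Subgroup.map_top_of_surjective _ (QuotientGroup.mk'_surjective K)]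
  rw [derivedSeries_succ, hD, eq_bot_iff, Subgroup.commutator_le]
  rintro _ ⟨a, ha, rfl⟩ _ ⟨b, hb, rfl⟩
  have haC := hGC ha
  rw [hC, Subgroup.mem_comap, Subgroup.mem_centralizer_iff] at haC
  have hbM : QuotientGroup.mk' K b ∈ (M : Set (G ⧸ K)) := ⟨b, hGL hb, rfl⟩
  rw [Subgroup.mem_bot, commutatorElement_eq_one_iff_mul_comm]
  exact (haC _ hbM).symm
  
example : StmtCoreFree.{u} := coreFree

end Cfsg.Agent.H79.AbIdx
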