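import Mathlib
import Cfsg.Agent.H83.AbIdxDefs
import Cfsg.Agent.H4.IrrCount
import Cfsg.Agent.H64.Ord7920SumSq
import Cfsg.Agent.H71.ClassIndex
import Cfsg.Agent.H80.Block

/-!
# S4463-SMALLCLASS (helper79, for helper83's project)

A nontrivial finite group all of whose irreducible degrees are at most `b` has a nonidentity
conjugacy class of size at most `b ^ 2`.
-/

set_option autoImplicit false

namespace Cfsg.Agent.H79.AbIdx

open Cfsg Cfsg.Agent.H83.AbIdx

universe u

theorem smallClass : StmtSmallClass.{u} := by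
  intro X _ _ _ b hb
  classical
  by_contra hcon
  push Not at hcon
  haveI := Fintype.ofFinite X
  letI := Cfsg.Agent.H4.fintypeIrr X
  haveI : Fintype (ConjClasses X) := Fintype.ofFinite _
  have hk : Fintype.card (IrrCharacter X) = Fintype.card (ConjClasses X) := by
    have := Cfsg.Agent.H4.card_irr_eq_card_conjClasses (G := X)
    rwa [Nat.card_eq_fintype_card, Nat.card_eq_fintype_card] at this
  have h1 : ∑ χ : IrrCharacter X, charDegree (χ : X → ℂ) ^ 2 = Nat.card X :=
    Cfsg.Agent.H64.Ord7920.sum_sq_charDegree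
  have h2 : ∑ c : ConjClasses X, c.carrier.ncard = Nat.card X := by
    rw [← Group.sum_card_conj_classes_eq_card, finsum_eq_sum_of_fintype]
  -- upper bound
  have hU : ∑ χ : IrrCharacter X, charDegree (χ : X → ℂ) ^ 2 ≤
      1 + (Fintype.card (IrrCharacter X) - 1) * b ^ 2 := by
    rw [← Finset.add_sum_erase Finset.univ _ (Finset.mem_univ (Cfsg.Agent.H80.trivChar X))]
    have ht : charDegree ((Cfsg.Agent.H80.trivChar X : IrrCharacter X) : X → ℂ) = 1 := by
      have := Cfsg.Agent.H82.irr_one_eq_charDegree (Cfsg.Agent.H80.trivChar X)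
      have h1' : (Cfsg.Agent.H80.trivChar X).1 1 = 1 := rfl
      rw [h1'] at this
      exact_mod_cast this.symm
    rw [ht]
    have : ∑ χ ∈ Finset.univ.erase (Cfsg.Agent.H80.trivChar X), charDegree (χ : X → ℂ) ^ 2 ≤
        (Finset.univ.erase (Cfsg.Agent.H80.trivChar X)).card • b ^ 2 :=
      Finset.sum_le_card_nsmul _ _ _ (fun χ _ => Nat.pow_le_pow_left (hb χ) 2)
    rw [Finset.card_erase_of_mem (Finset.mem_univ _), Finset.card_univ, smul_eq_mul] at this
    omega
  have hL : 1 + (Fintype.card (ConjClasses X) - 1) * (b ^ 2 + 1) ≤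
      ∑ c : ConjClasses X, c.carrier.ncard := by
    rw [← Finset.add_sum_erase Finset.univ _ (Finset.mem_univ (ConjClasses.mk (1 : X)))]
    have ht : (ConjClasses.mk (1 : X)).carrier.ncard = 1 := by
      rw [Cfsg.Agent.H71.ncard_carrier_eq_index]
      have : Subgroup.centralizer ({(1 : X)} : Set X) = ⊤ := by
        ext y; simp [Subgroup.mem_centralizer_iff]
      rw [this, Subgroup.index_top]
    rw [ht]
    have : (Finset.univ.erase (ConjClasses.mk (1 : X))).card • (b ^ 2 + 1) ≤
        ∑ c ∈ Finset.univ.erase (ConjClasses.mk (1 : X)), c.carrier.ncard := by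
      apply Finset.card_nsmul_le_sum
      intro c hc
      obtain ⟨x, rfl⟩ := ConjClasses.mk_surjective c
      have hx : x ≠ 1 := by
        rintro rfl
        exact (Finset.mem_erase.1 hc).1 rfl
      rw [Cfsg.Agent.H71.ncard_carrier_eq_index]
      exact hcon x hx
    rw [Finset.card_erase_of_mem (Finset.mem_univ _), Finset.card_univ, smul_eq_mul] at this
    omega
  rw [h1] at hU
  rw [h2, ← hk] at hL
  have hk1 : Fintype.card (IrrCharacter X) - 1 = 0 := by
    by_contra hne
    have hpos : 0 < Fintype.card (IrrCharacter X) - 1 := Nat.pos_of_ne_zero hne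
    have : (Fintype.card (IrrCharacter X) - 1) * b ^ 2 <
        (Fintype.card (IrrCharacter X) - 1) * (b ^ 2 + 1) :=
      Nat.mul_lt_mul_of_pos_left (Nat.lt_succ_self _) hpos
    omega
  have hcc : Fintype.card (ConjClasses X) ≤ 1 := by omega
  obtain ⟨x, hx⟩ := exists_ne (1 : X)
  have hsub : Subsingleton (ConjClasses X) := Fintype.card_le_one_iff_subsingleton.1 hcc
  have : ConjClasses.mk x = ConjClasses.mk (1 : X) := Subsingleton.elim _ _
  rw [ConjClasses.mk_eq_mk_iff_isConj] at this
  exact hx (isConj_one_left.1 this)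

example : StmtSmallClass.{u} := smallClass

end Cfsg.Agent.H79.AbIdx
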