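import Mathlib
import Cfsg.Agent.H79.BrDefs
import Cfsg.Agent.H82.BrLibB
import Cfsg.Agent.H4.Chars

/-!
# S4504-LIB2: a normal `p'`-subgroup centralizes `P` (helper79), from helper82's `stNC`.
-/

set_option autoImplicit false

namespace Cfsg.Agent.H79.Br

open Cfsg

universe u

theorem centP : StCentP.{u} := by
  intro G _ _ p _ P hP χ hχ hfaith hdeg M hM hpM m hm x hx
  classical
  have hp : p.Prime := Fact.out
  -- `P` is commutative
  have hPcomm : ∀ a ∈ (P : Subgroup G), ∀ b ∈ (P : Subgroup G), a * b = b * a := by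
    intro a ha b hb
    haveI : Fact p.Prime := ⟨hp⟩
    haveI : IsCyclic (P : Subgroup G) := isCyclic_of_prime_card hP
    letI := IsCyclic.commGroup (α := (P : Subgroup G))
    have := mul_comm (⟨a, ha⟩ : (P : Subgroup G)) ⟨b, hb⟩
    exact congrArg Subtype.val this
  -- `M ⊓ P = ⊥`
  have hMP : M ⊓ (P : Subgroup G) = ⊥ := by
    apply Subgroup.inf_eq_bot_of_coprime
    rw [hP]
    exact (Nat.Coprime.symm ((Nat.Prime.coprime_iff_not_dvd hp).2 hpM))
  set H : Subgroup G := M ⊔ (P : Subgroup G) with hH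
  have hPH : (P : Subgroup G) ≤ H := le_sup_right
  have hMH : M ≤ H := le_sup_left
  set PH : Sylow p H := P.subtype hPH with hPHdef
  have hmemPH : ∀ z : H, z ∈ (PH : Subgroup H) ↔ (z : G) ∈ (P : Subgroup G) := by
    intro z
    rw [hPHdef, Sylow.coe_subtype, Subgroup.mem_subgroupOf]
  have hcardPH : Nat.card (PH : Subgroup H) = p := by
    rw [hPHdef, Sylow.coe_subtype]
    exact (Nat.card_congr (Subgroup.subgroupOfEquivOfLe hPH).toEquiv).trans hP
  have hNC : ∀ h ∈ Subgroup.normalizer ((PH : Subgroup H) : Set H),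
      h ∈ Subgroup.centralizer ((PH : Subgroup H) : Set H) := by
    intro h hh
    rw [Subgroup.mem_centralizer_iff]
    intro z hz
    have hz' : (z : G) ∈ (P : Subgroup G) := (hmemPH z).1 hz
    -- decompose `h = m' * y`
    have hh' : (h : G) ∈ ((M ⊔ (P : Subgroup G) : Subgroup G) : Set G) := h.2
    rw [Subgroup.normal_mul] at hh'
    obtain ⟨m', hm', y, hy, hmy⟩ := Set.mem_mul.1 hh'
    have hconj : (h * z * h⁻¹ : H) ∈ (PH : Subgroup H) :=
      ((Subgroup.mem_normalizer_iff.1 hh) z).1 hz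
    have hconj' : (h : G) * (z : G) * (h : G)⁻¹ ∈ (P : Subgroup G) := by
      have := (hmemPH _).1 hconj
      simpa using this
    have h1 : (h : G) * (z : G) * (h : G)⁻¹ = m' * (z : G) * m'⁻¹ := by
      rw [← hmy]
      have := hPcomm y hy (z : G) hz'
      calc m' * y * (z : G) * (m' * y)⁻¹ = m' * (y * (z : G)) * y⁻¹ * m'⁻¹ := by group
        _ = m' * ((z : G) * y) * y⁻¹ * m'⁻¹ := by rw [this]
        _ = m' * (z : G) * m'⁻¹ := by group
    rw [h1] at hconj'
    have h2 : m' * (z : G) * m'⁻¹ * (z : G)⁻¹ ∈ M ⊓ (P : Subgroup G) := by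
      refine ⟨?_, (P : Subgroup G).mul_mem hconj' ((P : Subgroup G).inv_mem hz')⟩
      have : (z : G) * m'⁻¹ * (z : G)⁻¹ ∈ M := hM.conj_mem _ (M.inv_mem hm') _
      have h3 : m' * (z : G) * m'⁻¹ * (z : G)⁻¹ = m' * ((z : G) * m'⁻¹ * (z : G)⁻¹) := by group
      rw [h3]; exact M.mul_mem hm' this
    rw [hMP, Subgroup.mem_bot] at h2
    have h3 : m' * (z : G) * m'⁻¹ = (z : G) := by
      have := mul_inv_eq_one.1 h2
      exact this
    apply Subtype.ext
    have h4 : (h : G) * (z : G) * (h : G)⁻¹ = (z : G) := by rw [h1, h3]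
    have h5 : (h : G) * (z : G) = (z : G) * (h : G) := by
      calc (h : G) * (z : G) = (h : G) * (z : G) * (h : G)⁻¹ * (h : G) := by group
        _ = (z : G) * (h : G) := by rw [h4]
    simpa using h5.symm
  have hχH : IsCharacter H (fun h : H => χ h) := Cfsg.Agent.H4.isCharacter_restrict H hχ
  have hfaithH : ∀ g : H, (fun h : H => χ h) g = (fun h : H => χ h) 1 → g = 1 := by
    intro g hg
    apply Subtype.ext
    exact hfaith (g : G) hg
  have hdegH : 2 * charDegree (fun h : H => χ h) + 1 ≤ p := hdeg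
  have key := Cfsg.Agent.H82.BrLib.stNC p PH hcardPH hNC (fun h : H => χ h) hχH hfaithH hdegH
    ⟨x, hPH hx⟩ ((hmemPH _).2 hx) ⟨m, hMH hm⟩
  exact (congrArg Subtype.val key).symm

end Cfsg.Agent.H79.Br
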