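import Mathlib
import Cfsg.Agent.H79.BrDefs
import Cfsg.Agent.S0732

/-!
# S4504: the final assembly from the team-project pieces (helper79)
-/

set_option autoImplicit false

namespace Cfsg.Agent.H79.Br

open Cfsg

universe u

theorem final_of_pieces (hNP : StNP.{u}) (hCA : StCentAll.{u}) (hK : StKer.{u})
    (hPB : StPermBound.{u}) (hNoPGL : StNoPGL.{u}) (hSemi : StSemi.{u})
    {G : Type u} [Group G] [Finite G] (p : ℕ) (hp : p.Prime) (hdiv : p ∣ Nat.card G)
    (hsq : ¬ p ^ 2 ∣ Nat.card G) (hnn : ∀ H : Subgroup G, H.Normal → Nat.card H ≠ p)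
    (χ : G → ℂ) (hχ : Cfsg.IsCharacter G χ) (hfaith : ∀ g : G, χ g = χ 1 → g = 1)
    (hdeg : 2 * Cfsg.charDegree χ + 1 = p) :
    Nonempty ((G ⧸ Subgroup.center G) ≃*
      Matrix.ProjectiveSpecialLinearGroup (Fin 2) (ZMod p)) := by
  classical
  have : Fact p.Prime := ⟨hp⟩
  obtain ⟨P⟩ : Nonempty (Sylow p G) := inferInstance
  have hP : Nat.card (P : Subgroup G) = p := by
    have h1 := P.card_eq_multiplicity
    have hG : Nat.card G ≠ 0 := Nat.card_pos.ne'
    have h2 : 1 ≤ (Nat.card G).factorization p :=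
      (hp.pow_dvd_iff_le_factorization hG).mp (by rwa [pow_one])
    have h3 : ¬ 2 ≤ (Nat.card G).factorization p := fun h =>
      hsq ((hp.pow_dvd_iff_le_factorization hG).mpr h)
    have h4 : (Nat.card G).factorization p = 1 := by omega
    rw [h1, h4, pow_one]
  have hPn : ¬ (P : Subgroup G).Normal := fun h => hnn P h hP
  obtain ⟨hnp, hperf, -⟩ := hNP p P hP hPn χ hχ hfaith hdeg
  have hcent := hCA p P hP hPn χ hχ hfaith hdeg
  have hker := hK p P hP hPn hcent
  obtain ⟨d, hcard, hdlt, hdconj⟩ := hPB p P hP hnp (fun g hg => (hker g).1 hg)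
  -- the permutation representation on the Sylow subgroups
  letI : Fintype (Sylow p G) := Fintype.ofFinite _
  set φ : G →* Equiv.Perm (Sylow p G) := MulAction.toPermHom G (Sylow p G) with hφ
  have hφker : φ.ker = Subgroup.center G := by
    ext g
    rw [MonoidHom.mem_ker, ← hker g]
    constructor
    · intro h Q
      have := congrArg (fun σ : Equiv.Perm (Sylow p G) => σ Q) h
      simpa [hφ] using this
    · intro h
      refine Equiv.ext fun Q => ?_
      show g • Q = Q
      exact h Q
  have hα : Fintype.card (Sylow p G) = p + 1 := by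
    rw [← Nat.card_eq_fintype_card]; exact hnp
  have hZpos : 0 < Nat.card (Subgroup.center G) := Nat.card_pos
  have hH : Nat.card φ.range = (p + 1) * p * d := by
    have h1 : Nat.card (G ⧸ φ.ker) = Nat.card φ.range :=
      Nat.card_congr (QuotientGroup.quotientKerEquivRange φ).toEquiv
    have h2 : Nat.card G = Nat.card (G ⧸ φ.ker) * Nat.card φ.ker :=
      Subgroup.card_eq_card_quotient_mul_card_subgroup φ.ker
    rw [hφker] at h2
    rw [hφker] at h1
    rw [h1, hcard] at h2
    exact (Nat.eq_of_mul_eq_mul_right hZpos h2).symm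
  have : MulAction.IsPretransitive φ.range (Sylow p G) := by
    constructor
    intro Q Q'
    obtain ⟨g, hg⟩ := MulAction.exists_smul_eq G Q Q'
    refine ⟨⟨φ g, g, rfl⟩, ?_⟩
    rw [← hg]
    rfl
  rcases Cfsg.Agent.S0732.result (α := Sylow p G) hp hα φ.range hH hdlt with
    ⟨hd1, -⟩ | ⟨-, ⟨e⟩⟩ | ⟨q, -, -, -, e, he⟩
  · -- PGL: all elements of P ∖ 1 conjugate
    exfalso
    have h5 : Cfsg.charDegree χ + 1 < p := by
      have := hp.two_le
      omega
    exact hNoPGL p P hP χ hχ hfaith h5 (hdconj hd1)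
  · -- PSL
    exact ⟨((QuotientGroup.quotientMulEquivOfEq hφker.symm).trans
      (QuotientGroup.quotientKerEquivRange φ)).trans e⟩
  · -- semi-affine: impossible since the normal closure of P is perfect
    exfalso
    set G₁ : Subgroup G := Subgroup.normalClosure ((P : Subgroup G) : Set G) with hG₁
    let ψ : G₁ →* Equiv.Perm (GaloisField 2 q) :=
      (e.permCongrHom.toMonoidHom.comp φ).comp G₁.subtype
    have hψ : ∀ k : G₁, ψ k ∈ Cfsg.semiaffineGroup (GaloisField 2 q) := by
      intro k
      have := he ⟨φ (k : G), (k : G), rfl⟩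
      exact this
    have h1 := hSemi (F := GaloisField 2 q) hperf ψ hψ
    have h2 : ∀ k : G₁, (k : G) ∈ Subgroup.center G := by
      intro k
      rw [← hφker, MonoidHom.mem_ker]
      have h3 : e.permCongrHom (φ (k : G)) = 1 := h1 k
      have h4 : e.permCongrHom (φ (k : G)) = e.permCongrHom 1 := by rw [h3, map_one]
      exact e.permCongrHom.injective h4
    have h3 : (P : Subgroup G) ≤ Subgroup.center G := by
      intro x hx
      exact h2 ⟨x, Subgroup.le_normalClosure hx⟩
    apply hPn
    constructor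
    intro n hn g
    have hc := h3 hn
    rw [Subgroup.mem_center_iff] at hc
    have : g * n * g⁻¹ = n := by rw [hc g]; group
    rw [this]; exact hn

end Cfsg.Agent.H79.Br
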