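import Mathlib
import Cfsg.Agent.H79.BrDefs
import Cfsg.Agent.H79.BrFinal
import Cfsg.Agent.H79.BrCentP
import Cfsg.Agent.H3.BrCentAll
import Cfsg.Agent.H3.BrSemi
import Cfsg.Agent.H3.BrCore1
import Cfsg.Agent.H98.BrGLSing
import Cfsg.Agent.H98.BrTwOrth
import Cfsg.Agent.H98.BrTwCCP
import Cfsg.Agent.H65.BrCFun
import Cfsg.Agent.H65.BrDeg
import Cfsg.Agent.H65.BrDecC
import Cfsg.Agent.H65.BrDecL
import Cfsg.Agent.H65.BrCC3
import Cfsg.Agent.H65.BrMom3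
import Cfsg.Agent.H73.BrSylLB
import Cfsg.Agent.H73.BrKer
import Cfsg.Agent.H73.BrRed
import Cfsg.Agent.H80.BrPermBound
import Cfsg.Agent.H80.BrNP
import Cfsg.Agent.H80.BrCoreAll
import Cfsg.Agent.H51.BrLoc
import Cfsg.Agent.H51.BrPair
import Cfsg.Agent.H51.BrExc3
import Cfsg.Agent.H28.BrProdWa
import Cfsg.Agent.H28.BrProdWb
import Cfsg.Agent.H54.BrAbs
import Cfsg.Agent.H54.BrCentConst
import Cfsg.Agent.H54.BrMom1
import Cfsg.Agent.H54.BrCC1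
import Cfsg.Agent.H35.BrCore3
import Cfsg.Agent.H35.BrOrth
import Cfsg.Agent.H91.BrPairArith
import Cfsg.Agent.H91.BrProd3
import Cfsg.Agent.H58.BrGLCent
import Cfsg.Agent.H58.BrGLPar
import Cfsg.Agent.H36.BrFive
import Cfsg.Agent.H36.BrNoLin
import Cfsg.Agent.H12.BrGLReps
import Cfsg.Agent.H12.BrGLOrb
import Cfsg.Agent.H28.BrProd1a
import Cfsg.Agent.H28.BrProd1b
import Cfsg.Agent.H28.BrExc1
import Cfsg.Agent.H23.BrMSplit
import Cfsg.Agent.H16.BrProd3A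
import Cfsg.Agent.H16.BrProd3B
import Cfsg.Agent.H69.BrCCP
import Cfsg.Agent.H69.BrNoPGL
import Cfsg.Agent.H69.BrSchur
import Cfsg.Agent.H89.BrTriv3
import Cfsg.Agent.H39.BrProd1
import Cfsg.Agent.H39.BrProdW
import Cfsg.Agent.H82.BrLibD

/-!
# S4504: wiring of the team-project pieces (helper79)
-/

set_option autoImplicit false

namespace Cfsg.Agent.H79.Br

open Cfsg

universe u

-- tools
theorem stTwCCP : StTwCCP.{u} := Cfsg.Agent.H98.Br.twCCP Cfsg.Agent.H69.Br.ccp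
theorem stOrth : StOrth.{u} := Cfsg.Agent.H35.Br.orth Cfsg.Agent.H98.Br.twOrth
theorem stPair : StPair.{u} := Cfsg.Agent.H51.Br.pair stOrth Cfsg.Agent.H91.Br.pairArith
theorem stDeg : StDeg.{u} := Cfsg.Agent.H65.Br.deg Cfsg.Agent.H65.Br.cfun
theorem stDecC : StDecC.{u} := Cfsg.Agent.H65.Br.decC Cfsg.Agent.H65.Br.cfun stDeg
theorem stDecL : StDecL.{u} := Cfsg.Agent.H65.Br.decL stDeg
theorem stDecL0 : StDecL0.{u} := Cfsg.Agent.H65.Br.decL0 stDeg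

-- p ≡ 3 (mod 4)
theorem stExc3 : StExc3.{u} := Cfsg.Agent.H51.Br.exc3 stPair stDecC Cfsg.Agent.H54.Br.centConst
theorem stTriv3 : StTriv3.{u} := Cfsg.Agent.H89.Br.triv3 stExc3 stDecL0
theorem stProd3a : StProd3a.{u} :=
  Cfsg.Agent.H16.Br.prod3a stDecL stPair Cfsg.Agent.H54.Br.centConst
theorem stProd3b : StProd3b.{u} :=
  Cfsg.Agent.H16.Br.prod3b stProd3a stDecC stPair Cfsg.Agent.H54.Br.centConst
theorem stProd3 : StProd3.{u} := Cfsg.Agent.H91.Br.prod3 stProd3a stProd3b stOrth stPair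
theorem stCC3 : StCC3.{u} := Cfsg.Agent.H65.Br.cc3 stProd3 stTwCCP stPair Cfsg.Agent.H54.Br.abs
theorem stMom3 : StMom3.{u} := Cfsg.Agent.H65.Br.mom3 stProd3 stCC3 Cfsg.Agent.H23.Br.msplit
theorem stCore3 : StCore3.{u} :=
  Cfsg.Agent.H35.Br.core3 stTriv3 stMom3 Cfsg.Agent.H73.Br.sylLB

-- p ≡ 1 (mod 4)
theorem stExc1 : StExc1.{u} := Cfsg.Agent.H28.Br.exc1 stPair stDecL Cfsg.Agent.H54.Br.centConst
theorem stProd1a : StProd1a.{u} :=
  Cfsg.Agent.H28.Br.prod1a stDecL stPair Cfsg.Agent.H54.Br.centConst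
theorem stProd1b : StProd1b.{u} :=
  Cfsg.Agent.H28.Br.prod1b stDecC stPair Cfsg.Agent.H54.Br.centConst
theorem stProd1 : StProd1.{u} := Cfsg.Agent.H39.Br.prod1 stProd1a stProd1b stOrth stPair
theorem stProdWa : StProdWa.{u} :=
  Cfsg.Agent.H28.Br.prodWa stDecC stPair Cfsg.Agent.H54.Br.centConst
theorem stProdWb : StProdWb.{u} :=
  Cfsg.Agent.H28.Br.prodWb stDecL stPair Cfsg.Agent.H54.Br.centConst
theorem stProdW : StProdW.{u} := Cfsg.Agent.H39.Br.prodW stProdWa stProdWb stOrth stPair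
theorem stCC1 : StCC1.{u} :=
  Cfsg.Agent.H54.Br.cc1 stProd1 stProdW stTwCCP stPair Cfsg.Agent.H54.Br.abs
theorem stMom1 : StMom1.{u} := Cfsg.Agent.H54.Br.mom1 stExc1 stCC1 Cfsg.Agent.H23.Br.msplit
theorem stCore1 : StCore1.{u} := Cfsg.Agent.H3.Br.core1 stMom1 Cfsg.Agent.H73.Br.sylLB

-- the local analysis
theorem stLoc : StLoc.{u} :=
  Cfsg.Agent.H51.Br.loc Cfsg.Agent.H82.BrLib.lib Cfsg.Agent.H58.Br.glCent
    Cfsg.Agent.H12.Br.glReps Cfsg.Agent.H12.Br.glOrb Cfsg.Agent.H98.Br.glSing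
    Cfsg.Agent.H58.Br.glPar Cfsg.Agent.H36.Br.noLin Cfsg.Agent.H36.Br.five

-- the general group
theorem stCoreAll : StCoreAll.{u} :=
  Cfsg.Agent.H80.Br.coreAll stLoc stCore3 stCore1 Cfsg.Agent.H73.Br.sylLB Cfsg.Agent.H36.Br.noLin
theorem stNP : StNP.{u} := Cfsg.Agent.H80.Br.np Cfsg.Agent.H73.Br.red stCoreAll
theorem stCentAll : StCentAll.{u} :=
  Cfsg.Agent.H3.Br.centAll centP Cfsg.Agent.H69.Br.schur stNP

theorem s4504_main {G : Type u} [Group G] [Finite G] (p : ℕ) (hp : p.Prime)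
    (hdiv : p ∣ Nat.card G) (hsq : ¬ p ^ 2 ∣ Nat.card G)
    (hnn : ∀ H : Subgroup G, H.Normal → Nat.card H ≠ p)
    (χ : G → ℂ) (hχ : Cfsg.IsCharacter G χ) (hfaith : ∀ g : G, χ g = χ 1 → g = 1)
    (hdeg : 2 * Cfsg.charDegree χ + 1 = p) :
    Nonempty ((G ⧸ Subgroup.center G) ≃*
      Matrix.ProjectiveSpecialLinearGroup (Fin 2) (ZMod p)) :=
  final_of_pieces stNP stCentAll Cfsg.Agent.H73.Br.ker Cfsg.Agent.H80.Br.permBound
    Cfsg.Agent.H69.Br.noPGL Cfsg.Agent.H3.Br.semi p hp hdiv hsq hnn χ hχ hfaith hdeg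

end Cfsg.Agent.H79.Br
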