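import Mathlib
import Cfsg.Agent.H33.C2.Defs

/-!
# The table vector number 0 of the 4600 (piece C2-U0 of S2070, helper79 for helper33)
-/

set_option autoImplicit false

namespace Cfsg.Agent.H79.C2

open Cfsg Cfsg.Agent.H9 Cfsg.Agent.H33 Cfsg.Agent.H33.C2

theorem u0_apply : ∀ p : GolayPt, vec (fldW 192 LF4600E 0) p = - Spor.vecU' p := by
  decide +kernel

/-- piece C2-U0 -/
theorem u0 : StU0 := funext u0_apply

example : Cfsg.Agent.H33.C2.StU0 := u0

end Cfsg.Agent.H79.C2
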