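import Mathlib
import Cfsg.Prelude.Def_Blocks
import Cfsg.Prelude.Def_Solvable
import Cfsg.Agent.H79.BrauerCorr
import Cfsg.Agent.H84.BlockDom
import Cfsg.Agent.H13.PCore

/-!
# Defect groups are radical (helper79)

* `exists_conj_centralizing_of_brauerCentralChar`: if the Brauer central character of
  `ξ ∈ Irr(H)` at `g` is not in the local ideal and `Q` is a normal `p`-subgroup of `H`, then some
  element of `H` conjugate to `g` and centralizing `P` centralizes `Q`.
* `pCore_normalizer_defectGroup`: a defect group `D` satisfies `O_p(N_G(D)) = D`.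
-/

set_option autoImplicit false
set_option linter.unusedSectionVars false
set_option linter.style.haveILetI false

namespace Cfsg.Agent.H79

open Cfsg Cfsg.Agent.H20 Cfsg.Agent.H4

universe u

section

variable {G : Type u} [Group G] [Fintype G] {M : Ideal AlgInt} {p : ℕ} [Fact p.Prime]

/-- If the Brauer central character of `ξ ∈ Irr(H)` at `g` is not in the local ideal and `Q` is a
normal `p`-subgroup of `H`, then some element of `H` conjugate to `g` and centralizing `P`
centralizes `Q`. -/
theorem exists_conj_centralizing_of_brauerCentralChar (hM : IsPModular p M) (P H : Subgroup G)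
    [Fintype H] (hHN : H ≤ Subgroup.normalizer (P : Set G)) (ξ : IrrCharacter H) (g : G)
    (hne : ¬ MemLocalIdeal M (brauerCentralChar P H (ξ : H → ℂ) g))
    (Q : Subgroup H) [Q.Normal] (hQ : IsPGroup p Q) :
    ∃ h : H, IsConj g (h : G) ∧ (h : G) ∈ Subgroup.centralizer (P : Set G) ∧
      h ∈ Subgroup.centralizer (Q : Set H) := by
  classical
  have hMp := isPrime_of_isPModular hM
  by_contra hcon
  push Not at hcon
  apply hne
  rw [← omega_brMap_classSum]
  apply omega_mem_of_coeff _ (irr_isClassFunction ξ) (localIdeal M hMp)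
    (isCF_brMap hHN (classSum_mem (localRing M hMp) g).1)
  intro h
  rw [coeff_brMap, coeff_classSum]
  by_cases h1 : (h : G) ∈ Subgroup.centralizer (P : Set G)
  · by_cases h2 : IsConj g (h : G)
    · rw [if_pos h1, if_pos h2, one_mul]
      exact Cfsg.Agent.H84.centralChar_memLocalIdeal_of_not_mem_centralizer hM Q hQ h
        (hcon h h2 h1) ξ
    · rw [if_pos h1, if_neg h2, zero_mul]
      exact memLocalIdeal_zero hMp
  · rw [if_neg h1, zero_mul]
    exact memLocalIdeal_zero hMp

end

section

variable {G : Type u} [Group G]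

/-- A defect group `D` of a block is the largest normal `p`-subgroup of its normalizer. -/
theorem pCore_normalizer_defectGroup [Finite G] {M : Ideal AlgInt} {p : ℕ}
    (hM : IsPModular p M) (χ₀ : IrrCharacter G) (D : Subgroup G)
    (hD : IsDefectGroup p M (blockOf M (χ₀ : G → ℂ)) D) :
    (Cfsg.pCore p (Subgroup.normalizer (D : Set G))).map
      (Subgroup.normalizer (D : Set G)).subtype = D := by
  classical
  have hfG : Fintype G := Fintype.ofFinite G
  have hp : p.Prime := hM.1
  haveI hfact : Fact p.Prime := ⟨hp⟩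
  have hMp := isPrime_of_isPModular hM
  obtain ⟨g₀, hg₀, S, hDdef⟩ := hD
  have hDp : IsPGroup p D := by
    rw [hDdef]
    exact S.2.map _
  have hDc : D ≤ Subgroup.centralizer ({g₀} : Set G) := by
    rw [hDdef]
    exact sylow_map_le_centralizer g₀ S
  have hg₀C : g₀ ∈ Subgroup.centralizer (D : Set G) := by
    rw [Subgroup.mem_centralizer_iff]
    intro d hd
    exact (Subgroup.mem_centralizer_iff.mp (hDc hd) g₀ (Set.mem_singleton g₀)).symm
  obtain ⟨H, hHdef⟩ : ∃ H : Subgroup G, H = Subgroup.normalizer (D : Set G) := ⟨_, rfl⟩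
  rw [← hHdef]
  have hfH : Fintype H := Fintype.ofFinite H
  have hDH : D ≤ H := hHdef ▸ Subgroup.le_normalizer
  have hCH : Subgroup.centralizer (D : Set G) ≤ H := hHdef ▸ Subgroup.centralizer_le_normalizer _
  have hHN : H ≤ Subgroup.normalizer (D : Set G) := hHdef.le
  obtain ⟨ξ, hξ⟩ := exists_irr_brauer_block hM D H hDp hCH hHN χ₀ g₀ hg₀C hg₀.2.1
  have hk := hg₀.2.2 χ₀ (Cfsg.Agent.H80.mem_blockOf_self hMp χ₀)
  have hne : ¬ MemLocalIdeal M (brauerCentralChar D H (ξ : H → ℂ) g₀) := by
    intro h1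
    apply hk
    have h2 := memLocalIdeal_sub hMp h1 (hξ g₀)
    rwa [sub_sub_cancel] at h2
  haveI hQn : (Cfsg.pCore p H).Normal := Cfsg.Agent.H13.pCore_normal p H
  have hQp : IsPGroup p (Cfsg.pCore p H) := Cfsg.Agent.H13.pCore_isPGroup p H
  obtain ⟨h, hconj, -, hhQ⟩ := exists_conj_centralizing_of_brauerCentralChar hM D H hHN ξ g₀ hne
    (Cfsg.pCore p H) hQp
  -- the image of `O_p(H)` in `G`
  obtain ⟨Q', hQ'def⟩ : ∃ Q' : Subgroup G, Q' = (Cfsg.pCore p H).map H.subtype := ⟨_, rfl⟩
  rw [← hQ'def]
  have hQ'p : IsPGroup p Q' := by rw [hQ'def]; exact hQp.map _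
  have hQ'h : Q' ≤ Subgroup.centralizer ({(h : G)} : Set G) := by
    rw [hQ'def]
    rintro _ ⟨q, hq, rfl⟩
    rw [Subgroup.mem_centralizer_iff]
    intro z hz
    rw [Set.mem_singleton_iff] at hz
    subst hz
    have h1 : q * h = h * q := Subgroup.mem_centralizer_iff.mp hhQ q hq
    have h2 := congrArg (Subtype.val : H → G) h1
    exact h2.symm
  obtain ⟨x, hx⟩ := exists_le_conj_sylow_centralizer Q' hQ'p g₀ (h : G) hconj hQ'h S
  rw [← hDdef] at hx
  -- `D ≤ Q'`
  have hDQ : D ≤ Q' := by
    have hn : (D.subgroupOf H).Normal := by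
      rw [hHdef]
      exact Subgroup.normal_in_normalizer
    have h1 : D.subgroupOf H ≤ Cfsg.pCore p H :=
      Cfsg.Agent.H13.le_pCore hn hDp.comap_subtype
    intro d hd
    rw [hQ'def]
    exact ⟨⟨d, hDH hd⟩, h1 (Subgroup.mem_subgroupOf.mpr hd), rfl⟩
  have hcard : Nat.card Q' ≤ Nat.card D := by
    have h1 := Subgroup.card_le_of_le hx
    have h2 : Nat.card (D.map (MulAut.conj x).toMonoidHom) = Nat.card D :=
      Subgroup.card_map_of_injective (MulAut.conj x).injective
    rw [h2] at h1
    exact h1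
  exact (Subgroup.eq_of_le_of_card_ge hDQ hcard).symm

end

end Cfsg.Agent.H79
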