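import Mathlib
import Cfsg.Prelude.Def_Blocks
import Cfsg.Agent.H79.DefectDegree
import Cfsg.Agent.H79.PElementCongr

/-!
# Central characters versus character values when the `p`-parts match (helper79)

* `centralChar_eq_unit_mul`: if the `p`-part of the degree of `χ` equals the `p`-part of the class
  size of `g`, then `centralChar χ g = r * χ g` for a unit `r` of the local ring.
* `centralizer_mul_le`: `C(x * y) ≤ C(y)` for a `p`-element `x` commuting with a `p`-regular `y`.
-/

set_option autoImplicit false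

namespace Cfsg.Agent.H79

open Cfsg Cfsg.Agent.H20 Cfsg.Agent.H4
open scoped ComplexConjugate

section

variable {G : Type*} [Group G] [Finite G] {M : Ideal AlgInt} {p : ℕ}

/-- If the `p`-part of the degree of `χ` equals the `p`-part of the class size of `g`, then the
central character of `χ` at `g` is a local unit times `χ g`. -/
theorem centralChar_eq_unit_mul (hM : IsPModular p M) (χ : IrrCharacter G) (g : G)
    (hν : (charDegree (χ : G → ℂ)).factorization p
      = (Subgroup.centralizer ({g} : Set G)).index.factorization p) :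
    ∃ r : ℂ, MemLocalRing M r ∧ ¬ MemLocalIdeal M r ∧
      centralChar (χ : G → ℂ) g = r * (χ : G → ℂ) g := by
  have hMp := isPrime_of_isPModular hM
  have hp : p.Prime := hM.1
  have hIne : (Subgroup.centralizer ({g} : Set G)).index ≠ 0 := Subgroup.index_ne_zero_of_finite
  have hdpos : 0 < charDegree (χ : G → ℂ) := Cfsg.Agent.H82.charDegree_pos χ
  obtain ⟨c, hcdef⟩ : ∃ c : ℕ, c = (Subgroup.centralizer ({g} : Set G)).index.factorization p :=
    ⟨_, rfl⟩
  rw [← hcdef] at hν
  obtain ⟨m', hm'⟩ : ∃ m' : ℕ, m' = charDegree (χ : G → ℂ) / p ^ c := ⟨_, rfl⟩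
  obtain ⟨k', hk'⟩ : ∃ k' : ℕ, k' = (Subgroup.centralizer ({g} : Set G)).index / p ^ c := ⟨_, rfl⟩
  have hm'p : ¬ p ∣ m' := by rw [hm', ← hν]; exact Nat.not_dvd_ordCompl hp hdpos.ne'
  have hk'p : ¬ p ∣ k' := by rw [hk', hcdef]; exact Nat.not_dvd_ordCompl hp hIne
  have hdeg : charDegree (χ : G → ℂ) = p ^ c * m' := by
    rw [hm', ← hν, Nat.ordProj_mul_ordCompl_eq_self]
  have hidx : (Subgroup.centralizer ({g} : Set G)).index = p ^ c * k' := by
    rw [hk', hcdef, Nat.ordProj_mul_ordCompl_eq_self]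
  have hm0 : (m' : ℂ) ≠ 0 := by
    have : m' ≠ 0 := fun h0 => hm'p (by rw [h0]; exact dvd_zero p)
    exact_mod_cast this
  have hp0 : (p : ℂ) ≠ 0 := by exact_mod_cast hp.ne_zero
  refine ⟨(k' : ℂ) * (m' : ℂ)⁻¹,
    memLocalRing_mul hMp (memLocalRing_natCast hMp _) (memLocalRing_inv_natCast hM hm'p), ?_, ?_⟩
  · apply not_memLocalIdeal_mul hMp (memLocalRing_natCast hMp _) (memLocalRing_inv_natCast hM hm'p)
    · rw [memLocalIdeal_natCast_iff hM]; exact hk'p
    · apply not_memLocalIdeal_inv hMp (memLocalRing_natCast hMp _)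
      rw [memLocalIdeal_natCast_iff hM]; exact hm'p
  · unfold centralChar
    rw [Cfsg.Agent.H82.irr_one_eq_charDegree χ, hdeg, hidx]
    push_cast
    field_simp

omit [Finite G] in
/-- `C(x * y) ≤ C(y)` when `x ^ p ^ k = 1`, `x` and `y` commute and `y` has order prime to `p`
(`y` is a power of `x * y`). -/
theorem centralizer_mul_le (hp : p.Prime) (x y : G) (hxy : Commute x y) (k : ℕ)
    (hx : x ^ (p ^ k) = 1) (hy : ¬ p ∣ orderOf y) (hy0 : 0 < orderOf y) :
    Subgroup.centralizer ({x * y} : Set G) ≤ Subgroup.centralizer ({y} : Set G) := by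
  intro w hw
  rw [Subgroup.mem_centralizer_iff] at hw ⊢
  intro h hh
  rw [Set.mem_singleton_iff] at hh
  rw [hh]
  have h1 : Commute (x * y) w := hw (x * y) (Set.mem_singleton _)
  have h2 : (x * y) ^ (p ^ k) = y ^ (p ^ k) := by
    rw [hxy.mul_pow, hx, one_mul]
  have h3 : Commute (y ^ (p ^ k)) w := by
    rw [← h2]; exact h1.pow_left _
  have hcop : Nat.Coprime (p ^ k) (orderOf y) :=
    Nat.Coprime.pow_left k ((Nat.Prime.coprime_iff_not_dvd hp).mpr hy)
  have hφ : 0 < Nat.totient (orderOf y) := Nat.totient_pos.mpr hy0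
  have h4 : y ^ ((p ^ k) ^ Nat.totient (orderOf y)) = y := by
    have h5 : (p ^ k) ^ Nat.totient (orderOf y) ≡ 1 [MOD orderOf y] := Nat.ModEq.pow_totient hcop
    have h6 := pow_eq_pow_iff_modEq.mpr h5
    rw [h6, pow_one]
  have h7 : (y ^ (p ^ k)) ^ ((p ^ k) ^ (Nat.totient (orderOf y) - 1)) = y := by
    rw [← pow_mul, ← pow_succ']
    have : Nat.totient (orderOf y) - 1 + 1 = Nat.totient (orderOf y) := by omega
    rw [this]
    exact h4
  have h8 : Commute y w := by
    rw [← h7]; exact h3.pow_left _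
  exact h8.eq

end

end Cfsg.Agent.H79
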