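import Mathlib
import Cfsg.Prelude.Def_Blocks
import Cfsg.Prelude.Def_BlockLocal
import Cfsg.Prelude.Def_Local
import Cfsg.Agent.H79.FongBlock
import Cfsg.Agent.H79.ExtFirstMain
import Cfsg.Agent.H4.GlaubP
import Cfsg.Agent.H14.PSolv
import Cfsg.Agent.H14.Constrained
import Cfsg.Agent.H28.PLocal3
import Cfsg.Agent.S0661
import Cfsg.Agent.H39.PPrime
import Cfsg.Agent.H20.BrauerMap
import Cfsg.Agent.H80.AutIrr
import Cfsg.Agent.H81.Reg
import Cfsg.Agent.H82.Irr

/-!
# Blocks over an invariant character of `O_{p'}(G)` are of principal type (helper79)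

Let `G` be `p`-constrained, `K = O_{p'}(G)`, `θ ∈ Irr(K)` invariant in `G`, and `B` the block
`Irr(G | θ)` (see `fong_block`).  For a `p`-subgroup `R`, with `C = C_G(R)`:

* `isPConstrained_of_sylow_centralizer`: `p`-constraint from one Sylow `p`-subgroup of
  `O_{p',p}(G)`.
* `pPrimeCore_centralizer_eq`: `O_{p'}(C_G(R)) = O_{p'}(G) ∩ C_G(R)`.
* `exists_glauberman`: the Glauberman correspondent of `θ` in `Irr(C_K(R))`.
* `sum_mul_div_sub_mem_of_induced`, `sum_blockCoeff_induced`: evaluating the idempotent of a block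
  through an induced central character.
* `fong_weight_mem_iff`: the value of the idempotent of `θ` on a character of `C` over
  `φ ∈ Irr(C_K(R))` is a unit exactly when `p ∤ ⟨θ, φ⟩`.
* `fong_principal`: exactly one block of `C_G(R)` induces `B`.
-/

set_option autoImplicit false
set_option linter.unusedSectionVars false
set_option linter.style.haveILetI false

namespace Cfsg.Agent.H79

open Cfsg Cfsg.Agent.H20 Cfsg.Agent.H4 Cfsg.Agent.Clifford
open scoped ComplexConjugate

universe u

section Constraint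

variable {G : Type u} [Group G] {p : ℕ} [Fact p.Prime]

/-- `p`-constraint can be tested on one Sylow `p`-subgroup of `O_{p',p}(G)`. -/
theorem isPConstrained_of_sylow_centralizer [Finite G] (L : Subgroup G)
    (hL : L = pPrimePCore p G) (Q : Subgroup G) (hQL : Q ≤ L) (hQp : IsPGroup p Q)
    (hQS : ¬ p ∣ Q.relIndex L) (hCQ : Subgroup.centralizer (Q : Set G) ≤ L) :
    IsPConstrained p G := by
  classical
  subst hL
  intro S
  have hQ'p : IsPGroup p (Q.subgroupOf (pPrimePCore p G)) := hQp.comap_subtype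
  have hQ'idx : ¬ p ∣ (Q.subgroupOf (pPrimePCore p G)).index := hQS
  obtain ⟨S₀, hS₀⟩ : ∃ S₀ : Sylow p (pPrimePCore p G),
      (S₀ : Subgroup (pPrimePCore p G)) = Q.subgroupOf (pPrimePCore p G) :=
    ⟨hQ'p.toSylow hQ'idx, IsPGroup.toSylow_coe hQ'p hQ'idx⟩
  obtain ⟨l, hl⟩ := MulAction.exists_smul_eq (pPrimePCore p G) S₀ S
  have hSeq : (S : Subgroup (pPrimePCore p G))
      = (S₀ : Subgroup (pPrimePCore p G)).map (MulAut.conj l).toMonoidHom := by
    rw [← hl, Sylow.coe_subgroup_smul]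
    rfl
  have hmem : ∀ q ∈ Q, (l : G) * q * (l : G)⁻¹ ∈
      (((S : Subgroup (pPrimePCore p G)).map (pPrimePCore p G).subtype : Subgroup G) : Set G) := by
    intro q hq
    have hqL : q ∈ pPrimePCore p G := hQL hq
    have h1 : (⟨q, hqL⟩ : pPrimePCore p G) ∈ (S₀ : Subgroup (pPrimePCore p G)) := by
      rw [hS₀]; exact Subgroup.mem_subgroupOf.mpr hq
    have h2 : l * ⟨q, hqL⟩ * l⁻¹ ∈ (S : Subgroup (pPrimePCore p G)) := by
      rw [hSeq]
      exact ⟨⟨q, hqL⟩, h1, rfl⟩
    exact ⟨_, h2, rfl⟩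
  intro x hx
  rw [Subgroup.mem_centralizer_iff] at hx
  have hx' : (l : G)⁻¹ * x * (l : G) ∈ Subgroup.centralizer (Q : Set G) := by
    rw [Subgroup.mem_centralizer_iff]
    intro q hq
    have h3 := hx _ (hmem q hq)
    calc q * ((l : G)⁻¹ * x * (l : G))
        = (l : G)⁻¹ * (((l : G) * q * (l : G)⁻¹) * x) * (l : G) := by group
      _ = (l : G)⁻¹ * (x * ((l : G) * q * (l : G)⁻¹)) * (l : G) := by rw [h3]
      _ = (l : G)⁻¹ * x * (l : G) * q := by group
  have h4 := hCQ hx'
  have h5 : (l : G) * ((l : G)⁻¹ * x * (l : G)) * (l : G)⁻¹ ∈ pPrimePCore p G :=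
    Subgroup.mul_mem _ (Subgroup.mul_mem _ l.2 h4) (Subgroup.inv_mem _ l.2)
  have h6 : (l : G) * ((l : G)⁻¹ * x * (l : G)) * (l : G)⁻¹ = x := by group
  rw [h6] at h5
  exact h5

/-- In a `p`-constrained group, `O_{p'}(C_G(R)) = O_{p'}(G) ∩ C_G(R)` for a `p`-subgroup `R`. -/
theorem pPrimeCore_centralizer_eq [Finite G] (hcon : IsPConstrained p G) (R : Subgroup G)
    (hR : IsPGroup p R) :
    pPrimeCore p (Subgroup.centralizer (R : Set G))
      = (pPrimeCore p G).subgroupOf (Subgroup.centralizer (R : Set G)) := by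
  classical
  have hKcop : (Nat.card (pPrimeCore p G)).Coprime p := Cfsg.Agent.H14.pPrimeCore_coprime p G
  apply le_antisymm
  · have hc : Subgroup.centralizer (pCore p (G ⧸ pPrimeCore p G) : Set (G ⧸ pPrimeCore p G))
        ≤ pCore p (G ⧸ pPrimeCore p G) :=
      (Cfsg.Agent.H14.isPConstrained_iff_of_pPrimeCore_eq_bot
        (Cfsg.Agent.H14.pPrimeCore_quotient_eq_bot p G)).mp
        (Cfsg.Agent.H14.isPConstrained_iff_quotient.mp hcon)
    obtain ⟨C, hC⟩ : ∃ C : Subgroup G, C = Subgroup.centralizer (R : Set G) := ⟨_, rfl⟩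
    obtain ⟨N, hN⟩ : ∃ N : Subgroup G, N = Subgroup.normalizer (R : Set G) := ⟨_, rfl⟩
    rw [← hC]
    obtain ⟨T, hT⟩ : ∃ T : Subgroup G, T = (pPrimeCore p C).map C.subtype := ⟨_, rfl⟩
    have hCN : C ≤ N := by rw [hC, hN]; exact Subgroup.centralizer_le_normalizer _
    have hTC : T ≤ C := by rw [hT]; exact Subgroup.map_subtype_le _
    have hTcop : (Nat.card T).Coprime p := by
      rw [hT]
      exact Nat.Coprime.coprime_dvd_left (Subgroup.card_map_dvd _ _)
        (Cfsg.Agent.H14.pPrimeCore_coprime p C)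
    have hTn : ∀ n ∈ N, ∀ t ∈ T, n * t * n⁻¹ ∈ T := by
      intro n hn t ht
      have hn' : n ∈ Subgroup.normalizer (C : Set G) := by
        rw [hC]
        rw [hN] at hn
        exact Cfsg.Agent.H80.normalizer_le_normalizer_centralizer R hn
      rw [hT] at ht ⊢
      obtain ⟨c, hc', rfl⟩ := ht
      have h1 := Cfsg.Agent.H14.pPrimeCore_map_equiv_le p (Cfsg.Agent.H80.conjAut C n hn')
      have h2 : (Cfsg.Agent.H80.conjAut C n hn') c ∈ pPrimeCore p C :=
        h1 (Subgroup.mem_map_of_mem _ hc')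
      exact ⟨_, h2, rfl⟩
    haveI hYn : (T.subgroupOf N).Normal :=
      Subgroup.normal_subgroupOf_of_le_normalizer (Subgroup.le_normalizer_iff.mpr hTn)
    have hYcop : (Nat.card (T.subgroupOf N)).Coprime p := by
      rw [Cfsg.Agent.H1.card_subgroupOf_of_le (hTC.trans hCN)]; exact hTcop
    have hle := Cfsg.Agent.S0661.aux (pPrimeCore p G) hKcop (pCore p (G ⧸ pPrimeCore p G))
      (Cfsg.Agent.H14.pCore_isPGroup p _) hc R hR N hN.symm (T.subgroupOf N) hYcop
    rw [Subgroup.map_subgroupOf_eq_of_le (hTC.trans hCN)] at hle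
    intro x hx
    rw [Subgroup.mem_subgroupOf]
    apply hle
    rw [hT]
    exact ⟨x, hx, rfl⟩
  · apply Cfsg.Agent.H14.le_pPrimeCore inferInstance
    rw [Cfsg.Agent.H1.card_subgroupOf]
    exact Nat.Coprime.coprime_dvd_left (Subgroup.card_dvd_of_le inf_le_left) hKcop

end Constraint

section Incl

variable {G : Type u} [Group G]

/-- The inclusion of `K ⊓ C`, viewed inside `C`, into `K`. -/
def subgroupOfIncl (K C : Subgroup G) : ↥(K.subgroupOf C) →* ↥K where
  toFun n := ⟨((n : C) : G), Subgroup.mem_subgroupOf.mp n.2⟩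
  map_one' := rfl
  map_mul' _ _ := rfl

theorem subgroupOfIncl_injective (K C : Subgroup G) :
    Function.Injective (subgroupOfIncl K C) := by
  intro a b h
  apply Subtype.ext
  apply Subtype.ext
  have h1 : ((subgroupOfIncl K C a : K) : G) = ((subgroupOfIncl K C b : K) : G) :=
    congrArg Subtype.val h
  exact h1

/-- The image of `subgroupOfIncl K C_G(R)` is the set of fixed points of `R` on `K`. -/
theorem subgroupOfIncl_fixed (K R : Subgroup G) (hnorm : ∀ s ∈ R, ∀ g ∈ K, s * g * s⁻¹ ∈ K)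
    (C : Subgroup G) (hC : C = Subgroup.centralizer (R : Set G)) (k : K) :
    letI := Cfsg.Agent.H4.conjAct K R hnorm
    (∃ c, subgroupOfIncl K C c = k) ↔ ∀ s : R, s • k = k := by
  letI := Cfsg.Agent.H4.conjAct K R hnorm
  subst hC
  constructor
  · rintro ⟨c, rfl⟩ s
    apply Subtype.ext
    show (s : G) * ((c : Subgroup.centralizer (R : Set G)) : G) * (s : G)⁻¹
      = ((c : Subgroup.centralizer (R : Set G)) : G)
    have hc : ((c : Subgroup.centralizer (R : Set G)) : G) ∈ Subgroup.centralizer (R : Set G) :=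
      (c : Subgroup.centralizer (R : Set G)).2
    have h1 := (Subgroup.mem_centralizer_iff.mp hc) s s.2
    rw [h1, mul_inv_cancel_right]
  · intro h
    have hk : (k : G) ∈ Subgroup.centralizer (R : Set G) := by
      rw [Subgroup.mem_centralizer_iff]
      intro s hs
      have h1 := congrArg Subtype.val (h ⟨s, hs⟩)
      have h2 : s * (k : G) * s⁻¹ = (k : G) := h1
      calc s * (k : G) = s * (k : G) * s⁻¹ * s := by group
        _ = (k : G) * s := by rw [h2]
    exact ⟨⟨⟨(k : G), hk⟩, Subgroup.mem_subgroupOf.mpr k.2⟩, Subtype.ext rfl⟩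

end Incl

section Weight

variable {G : Type u} [Group G] [Fintype G] {p : ℕ} [Fact p.Prime] {M : Ideal AlgInt}

/-- A quotient of natural numbers with denominator prime to `p` lies in the local ideal exactly
when `p` divides the numerator. -/
theorem memLocalIdeal_natCast_div_iff (hM : IsPModular p M) (a b : ℕ) (hb : ¬ p ∣ b) :
    MemLocalIdeal M ((a : ℂ) / (b : ℂ)) ↔ p ∣ a := by
  have hMp := isPrime_of_isPModular hM
  have hb0 : (b : ℂ) ≠ 0 := by
    intro h
    apply hb
    have h0 : b = 0 := by exact_mod_cast h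
    rw [h0]; exact dvd_zero p
  constructor
  · intro h
    have h1 := memLocalIdeal_mul_right hMp h (memLocalRing_natCast hMp b)
    rw [div_mul_cancel₀ _ hb0] at h1
    exact (memLocalIdeal_natCast_iff hM a).mp h1
  · intro h
    rw [div_eq_mul_inv]
    exact memLocalIdeal_mul_right hMp ((memLocalIdeal_natCast_iff hM a).mpr h)
      (memLocalRing_inv_natCast hM hb)

/-- If the induced central character of `ξ` is congruent to the central character of `χ`, then
`χ` and `ξ` take congruent normalised values on every class function of `G` with local-integral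
values. -/
theorem sum_mul_div_sub_mem_of_induced (hM : M.IsPrime) (H : Subgroup G) [Fintype H]
    (χ : G → ℂ) (hχc : IsClassFunction G χ) (ξ : H → ℂ) (hξ1 : ξ 1 ≠ 0)
    (hcong : ∀ g : G, MemLocalIdeal M (centralChar χ g - inducedCentralChar H ξ g))
    (c : G → ℂ) (hc : ∀ g x : G, c (x * g * x⁻¹) = c g)
    (hcR : ∀ g, MemLocalRing M (c g)) :
    MemLocalIdeal M ((∑ g : G, c g * χ g) / χ 1 - (∑ h : H, c h * ξ h) / ξ 1) := by
  classical
  have hΘc : IsClassFunction G (indFun H ξ) := indFun_isClassFunction H ξ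
  have hkey : MemLocalIdeal M ((∑ g : G, c g * χ g) / χ 1
      - (∑ g : G, c g * indFun H ξ g) / indFun H ξ 1) := by
    rw [Finset.sum_div, Finset.sum_div, ← Finset.sum_sub_distrib]
    apply sum_mem_of_conj_closed (localIdeal M hM)
      (fun g => c g * χ g / χ 1 - c g * indFun H ξ g / indFun H ξ 1)
    · intro g x
      show c (x * g * x⁻¹) * χ (x * g * x⁻¹) / χ 1
        - c (x * g * x⁻¹) * indFun H ξ (x * g * x⁻¹) / indFun H ξ 1 = _
      rw [hc, hχc, hΘc]
    · intro g
      rw [mem_localIdeal]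
      have h1 := hcong g
      rw [Cfsg.Agent.S0932.inducedCentralChar_eq] at h1
      have h2 := memLocalIdeal_mul_left hM (hcR g) h1
      unfold centralChar at h2
      convert h2 using 1
      ring
    · intro g _ x; exact Finset.mem_univ _
  rw [sum_mul_indFun_div H c hc ξ hξ1] at hkey
  exact hkey

/-- Evaluating the idempotent of a block `B` through an induced central character: if the induced
central character of `ξ ∈ Irr(H)` is congruent to the central character of `χ'`, then the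
normalised value of the idempotent of `B` on `ξ` is congruent to `1` when `χ' ∈ B` and to `0`
otherwise. -/
theorem sum_blockCoeff_induced (hM : M.IsPrime) (H : Subgroup G) [Fintype H]
    (χ₁ χ' : IrrCharacter G) (ξ : IrrCharacter H)
    (hind : ∀ g : G, MemLocalIdeal M (inducedCentralChar H ξ.1 g - centralChar χ'.1 g)) :
    (χ' ∈ blockOf M χ₁.1 → MemLocalIdeal M
      (1 - (∑ h : H, blockCoeff (blockOf M χ₁.1) (h : G) * ξ.1 h) / ξ.1 1)) ∧
    (χ' ∉ blockOf M χ₁.1 → MemLocalIdeal M
      ((∑ h : H, blockCoeff (blockOf M χ₁.1) (h : G) * ξ.1 h) / ξ.1 1)) := by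
  classical
  have hcong : ∀ g : G, MemLocalIdeal M (centralChar χ'.1 g - inducedCentralChar H ξ.1 g) := by
    intro g
    have h := memLocalIdeal_neg (hind g)
    rwa [neg_sub] at h
  have h1 := sum_mul_div_sub_mem_of_induced hM H χ'.1 (irr_isClassFunction χ') ξ.1
    (Cfsg.Agent.H4.irr_one_ne_zero ξ) hcong (blockCoeff (blockOf M χ₁.1))
    (fun g x => blockCoeff_conj_invariant _ g x) (fun g => blockCoeff_memLocalRing hM χ₁ g)
  rw [sum_blockCoeff_mul_irr] at h1
  have hne : χ'.1 1 ≠ 0 := Cfsg.Agent.H4.irr_one_ne_zero χ'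
  constructor
  · intro hmem
    rw [if_pos hmem, div_self hne] at h1
    exact h1
  · intro hmem
    rw [if_neg hmem, zero_div, zero_sub] at h1
    have h2 := memLocalIdeal_neg h1
    rwa [neg_neg] at h2

/-- An invariant character forms a stable singleton. -/
theorem singleton_stable (K : Subgroup G) [hK : K.Normal] (θ : IrrCharacter K)
    (hinv : ∀ g : G, conjIrr K g θ = θ) (g : G) (μ : IrrCharacter K) :
    conjIrr K g μ ∈ ({θ} : Set (IrrCharacter K)) ↔ μ ∈ ({θ} : Set (IrrCharacter K)) := by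
  rw [Set.mem_singleton_iff, Set.mem_singleton_iff]
  constructor
  · intro h
    have h1 : conjIrr K g⁻¹ (conjIrr K g μ) = μ := by
      rw [conjIrr_conjIrr, mul_inv_cancel, conjIrr_one]
    rw [← h1, h, hinv]
  · intro h
    rw [h, hinv]

/-- The normalised value of the idempotent of an invariant `θ ∈ Irr(K)`, `K` a normal
`p'`-subgroup, on a character of a subgroup `C` lying over `φ ∈ Irr(K ⊓ C)`: it lies in the
local ideal exactly when `p` divides the multiplicity of `φ` in the restriction of `θ`. -/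
theorem fong_weight_mem_iff (hM : IsPModular p M) (K : Subgroup G) [hK : K.Normal] [Fintype K]
    (hKp : ¬ p ∣ Nat.card K) (θ : IrrCharacter K) (hinv : ∀ g : G, conjIrr K g θ = θ)
    (C : Subgroup G) [Fintype C] [Fintype (K.subgroupOf C)]
    (ξ : IrrCharacter C) (φ : IrrCharacter (K.subgroupOf C))
    (hover : classInner (fun n : K.subgroupOf C => ξ.1 n) φ.1 ≠ 0) (m : ℕ)
    (hm : classInner (fun n : K.subgroupOf C => θ.1 (subgroupOfIncl K C n)) φ.1 = m) :
    MemLocalIdeal M ((∑ x : C, extendByZero K (blockCoeff ({θ} : Set (IrrCharacter K))) (x : G)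
      * ξ.1 x) / ξ.1 1) ↔ p ∣ m := by
  classical
  have hMp := isPrime_of_isPModular hM
  have hp : p.Prime := hM.1
  obtain ⟨E, hEdef⟩ : ∃ E : G → ℂ,
      E = extendByZero K (blockCoeff ({θ} : Set (IrrCharacter K))) := ⟨_, rfl⟩
  rw [← hEdef]
  have hEconj : ∀ g x : G, E (x * g * x⁻¹) = E g := by
    intro g x
    rw [hEdef]
    exact extendByZero_blockCoeff_conj K _ (singleton_stable K θ hinv) g x
  have hc0 : ∀ g : C, g ∉ K.subgroupOf C → E (g : G) = 0 := by
    intro g hg
    rw [hEdef]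
    exact extendByZero_of_not_mem K _ (fun h => hg (Subgroup.mem_subgroupOf.mpr h))
  have h1 : (∑ n : K.subgroupOf C, E ((n : C) : G) * ξ.1 (n : C)) / ξ.1 1
      = (∑ n : K.subgroupOf C, E ((n : C) : G) * φ.1 n) / φ.1 1 :=
    sum_mul_div_eq_of_over (K.subgroupOf C) ξ φ hover (fun x : C => E (x : G))
      (fun g x => hEconj (g : G) (x : G)) hc0
  have h2 : ∑ x : C, E (x : G) * ξ.1 x
      = ∑ n : K.subgroupOf C, E ((n : C) : G) * ξ.1 (n : C) := by
    have h4 : ∀ x : C, E (x : G) * ξ.1 x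
        = extendByZero (K.subgroupOf C) (fun n : K.subgroupOf C => E ((n : C) : G)) x
          * ξ.1 x := by
      intro x
      by_cases hx : x ∈ K.subgroupOf C
      · rw [extendByZero_of_mem (K.subgroupOf C) _ hx]
      · rw [extendByZero_of_not_mem (K.subgroupOf C) _ hx, hc0 x hx]
    rw [Finset.sum_congr rfl (fun x _ => h4 x), Cfsg.Agent.H4.sum_extendByZero_mul]
  have hK'c : (Nat.card (K.subgroupOf C) : ℂ) ≠ 0 := by
    have : 0 < Nat.card (K.subgroupOf C) := Nat.card_pos
    exact_mod_cast this.ne'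
  have hKc : (Nat.card K : ℂ) ≠ 0 := by
    have : 0 < Nat.card K := Nat.card_pos
    exact_mod_cast this.ne'
  have hEval : ∀ n : K.subgroupOf C, E ((n : C) : G)
      = (Nat.card K : ℂ)⁻¹ * (θ.1 1 * conj (θ.1 (subgroupOfIncl K C n))) := by
    intro n
    show E ((n : C) : G) = (Nat.card K : ℂ)⁻¹
      * (θ.1 1 * conj (θ.1 ⟨((n : C) : G), Subgroup.mem_subgroupOf.mp n.2⟩))
    rw [hEdef, extendByZero_of_mem K _ (Subgroup.mem_subgroupOf.mp n.2), blockCoeff_singleton]
  have h5 : ∑ n : K.subgroupOf C, θ.1 (subgroupOfIncl K C n) * conj (φ.1 n)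
      = (Nat.card (K.subgroupOf C) : ℂ) * (m : ℂ) := by
    rw [← hm]
    unfold classInner
    rw [← mul_assoc, mul_inv_cancel₀ hK'c, one_mul]
  have h6 : ∑ n : K.subgroupOf C, conj (θ.1 (subgroupOfIncl K C n)) * φ.1 n
      = (Nat.card (K.subgroupOf C) : ℂ) * (m : ℂ) := by
    have h7 := congrArg conj h5
    rw [map_sum] at h7
    simp only [map_mul, Complex.conj_conj, map_natCast] at h7
    exact h7
  have h3 : ∑ n : K.subgroupOf C, E ((n : C) : G) * φ.1 n
      = (Nat.card K : ℂ)⁻¹ * θ.1 1 * ((Nat.card (K.subgroupOf C) : ℂ) * (m : ℂ)) := by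
    calc ∑ n : K.subgroupOf C, E ((n : C) : G) * φ.1 n
        = ∑ n : K.subgroupOf C, (Nat.card K : ℂ)⁻¹ * θ.1 1
            * (conj (θ.1 (subgroupOfIncl K C n)) * φ.1 n) := by
          apply Finset.sum_congr rfl
          intro n _
          rw [hEval n]
          ring
      _ = (Nat.card K : ℂ)⁻¹ * θ.1 1 * ((Nat.card (K.subgroupOf C) : ℂ) * (m : ℂ)) := by
          rw [← Finset.mul_sum, h6]
  have hφ1 : φ.1 1 = (charDegree φ.1 : ℂ) := Cfsg.Agent.H82.irr_one_eq_charDegree φ
  have hθ1 : θ.1 1 = (charDegree θ.1 : ℂ) := Cfsg.Agent.H82.irr_one_eq_charDegree θ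
  have hdφ : (charDegree φ.1 : ℂ) ≠ 0 := by
    rw [← hφ1]; exact Cfsg.Agent.H4.irr_one_ne_zero φ
  have hK'dvd : Nat.card (K.subgroupOf C) ∣ Nat.card K :=
    Subgroup.card_dvd_of_injective (subgroupOfIncl K C) (subgroupOfIncl_injective K C)
  have hK'p : ¬ p ∣ Nat.card (K.subgroupOf C) := fun h => hKp (h.trans hK'dvd)
  have hdθp : ¬ p ∣ charDegree θ.1 := fun h =>
    hKp (h.trans (Cfsg.Agent.H81.irr_charDegree_dvd θ))
  have hdφp : ¬ p ∣ charDegree φ.1 := fun h =>
    hK'p (h.trans (Cfsg.Agent.H81.irr_charDegree_dvd φ))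
  have hN1 : ¬ p ∣ Nat.card K * charDegree φ.1 := by
    intro h
    rcases (Nat.Prime.dvd_mul hp).mp h with h | h
    · exact hKp h
    · exact hdφp h
  have hW : (∑ x : C, E (x : G) * ξ.1 x) / ξ.1 1
      = ((charDegree θ.1 * Nat.card (K.subgroupOf C) * m : ℕ) : ℂ)
        / ((Nat.card K * charDegree φ.1 : ℕ) : ℂ) := by
    rw [h2, h1, h3, hφ1, hθ1, Nat.cast_mul, Nat.cast_mul, Nat.cast_mul,
      div_eq_div_iff hdφ (mul_ne_zero hKc hdφ)]
    have hinvK : (Nat.card K : ℂ)⁻¹ * (Nat.card K : ℂ) = 1 := inv_mul_cancel₀ hKc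
    linear_combination ((charDegree θ.1 : ℂ) * ((Nat.card (K.subgroupOf C) : ℂ) * (m : ℂ))
      * (charDegree φ.1 : ℂ)) * hinvK
  rw [hW, memLocalIdeal_natCast_div_iff hM _ _ hN1]
  constructor
  · intro h
    rcases (Nat.Prime.dvd_mul hp).mp h with h | h
    · rcases (Nat.Prime.dvd_mul hp).mp h with h | h
      · exact absurd h hdθp
      · exact absurd h hK'p
    · exact h
  · intro h
    exact Dvd.dvd.mul_left h _

end Weight

section Glauberman

variable {G : Type u} [Group G] [Fintype G] {p : ℕ} [Fact p.Prime] {M : Ideal AlgInt}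

/-- The Glauberman correspondent: for a normal `p'`-subgroup `K`, a `p`-subgroup `R` and an
invariant `θ ∈ Irr(K)`, the restriction of `θ` to `C_K(R)` has a unique irreducible constituent of
multiplicity prime to `p`. -/
theorem exists_glauberman (hp : p.Prime) (K : Subgroup G) [hK : K.Normal] [Fintype K]
    (hKp : ¬ p ∣ Nat.card K) (R : Subgroup G) (hR : IsPGroup p R) (C : Subgroup G)
    (hC : C = Subgroup.centralizer (R : Set G)) [Fintype (K.subgroupOf C)]
    (θ : IrrCharacter K) (hinv : ∀ g : G, conjIrr K g θ = θ) :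
    ∃ θs : IrrCharacter (K.subgroupOf C),
      (∃ m : ℕ, classInner (fun n : K.subgroupOf C => θ.1 (subgroupOfIncl K C n)) θs.1 = m
        ∧ ¬ p ∣ m) ∧
      (∀ φ : IrrCharacter (K.subgroupOf C), ∀ m : ℕ,
        classInner (fun n : K.subgroupOf C => θ.1 (subgroupOfIncl K C n)) φ.1 = m →
          ¬ p ∣ m → φ = θs) := by
  classical
  have hnorm : ∀ s ∈ R, ∀ g ∈ K, s * g * s⁻¹ ∈ K := fun s _ g hg => hK.conj_mem g hg s
  letI := Cfsg.Agent.H4.conjAct K R hnorm
  obtain ⟨β, m, hm, hpm⟩ := Cfsg.Agent.H4.glaub_exists hKp (subgroupOfIncl K C) θ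
  refine ⟨β, ⟨m, hm, hpm⟩, fun φ m' hm' hpm' => ?_⟩
  exact Cfsg.Agent.H4.glaub_unique hp hR (subgroupOfIncl K C) (subgroupOfIncl_injective K C)
    (fun k => subgroupOfIncl_fixed K R hnorm C hC k) hKp θ
    (fun s k => congrFun (congrArg Subtype.val (hinv (s : G))) k) φ β m' m hm' hpm' hm hpm

/-- **Blocks over an invariant character of `O_{p'}(G)` are of principal type.**  Let `G` be
`p`-constrained, `K = O_{p'}(G)`, `θ ∈ Irr(K)` invariant in `G` and `B = Irr(G | θ)` the block of
`χ₁`.  For every `p`-subgroup `R`, exactly one block of `C_G(R)` induces `B`. -/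
theorem fong_principal (hM : IsPModular p M) (hcon : IsPConstrained p G)
    (K : Subgroup G) [hK : K.Normal] [Fintype K] (hKdef : K = pPrimeCore p G)
    (θ : IrrCharacter K) (hinv : ∀ g : G, conjIrr K g θ = θ)
    (χ₁ : IrrCharacter G)
    (hiff : ∀ χ : IrrCharacter G,
      χ ∈ blockOf M χ₁.1 ↔ classInner (fun n : K => χ.1 n) θ.1 ≠ 0)
    (R : Subgroup G) (hR : IsPGroup p R) (C : Subgroup G)
    (hC : C = Subgroup.centralizer (R : Set G)) :
    ∃! f : Set (IrrCharacter C), IsInducedBlock M C f (blockOf M χ₁.1) := by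
  classical
  have hp : p.Prime := Fact.out
  have hMp := isPrime_of_isPModular hM
  haveI : Fintype C := Fintype.ofFinite C
  haveI : Fintype (K.subgroupOf C) := Fintype.ofFinite _
  have hKcop : (Nat.card K).Coprime p := by
    rw [hKdef]; exact Cfsg.Agent.H14.pPrimeCore_coprime p G
  have hKp : ¬ p ∣ Nat.card K := (Nat.Prime.coprime_iff_not_dvd hp).mp hKcop.symm
  have hK'dvd : Nat.card (K.subgroupOf C) ∣ Nat.card K :=
    Subgroup.card_dvd_of_injective (subgroupOfIncl K C) (subgroupOfIncl_injective K C)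
  have hK'p : ¬ p ∣ Nat.card (K.subgroupOf C) := fun h => hKp (h.trans hK'dvd)
  -- `O_{p'}(C) = K ∩ C`, and `C` is `p`-constrained
  have hD : pPrimeCore p C = K.subgroupOf C := by
    rw [hC, hKdef]
    exact pPrimeCore_centralizer_eq hcon R hR
  have hconC : IsPConstrained p C := by
    rw [hC]
    exact (Cfsg.Agent.H28.isPConstrained_normalizer_centralizer p hcon R hR).2
  -- the Glauberman correspondent
  obtain ⟨θs, ⟨ms, hms, hpms⟩, hθsuniq⟩ := exists_glauberman hp K hKp R hR C hC θ hinv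
  have hinvs : ∀ c : C, conjIrr (K.subgroupOf C) c θs = θs := by
    intro c
    apply hθsuniq _ ms _ hpms
    have h1 : conjChar (K.subgroupOf C) (fun n => θ.1 (subgroupOfIncl K C n)) c
        = fun n => θ.1 (subgroupOfIncl K C n) := by
      funext n
      exact congrFun (congrArg Subtype.val (hinv (c : G))) (subgroupOfIncl K C n)
    have h3 := classInner_conjChar (K.subgroupOf C)
      (fun n => θ.1 (subgroupOfIncl K C n)) θs.1 c
    rw [h1] at h3
    exact h3.trans hms
  -- the block of `C` over the correspondent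
  have hKL' : K.subgroupOf C ≤ pPrimePCore p C := by
    rw [← hD]; exact Cfsg.Agent.H39.pPrimeCore_le_pPrimePCore p
  haveI hLn : (pPrimePCore p C).Normal := Cfsg.Agent.H39.pPrimePCore_normal' p
  have hidx' : ∃ a : ℕ, (K.subgroupOf C).relIndex (pPrimePCore p C) = p ^ a := by
    rw [← hD]; exact Cfsg.Agent.H39.relIndex_pPrimeCore p
  obtain ⟨χc, hciff, -⟩ := fong_block hM (K.subgroupOf C) (pPrimePCore p C) hKL' hK'p hidx'
    hconC θs hinvs
  -- the idempotent of `B`
  have hBset : blockOf M χ₁.1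
      = {χ : IrrCharacter G | ∃ μ ∈ ({θ} : Set (IrrCharacter K)),
          classInner (fun n : K => χ.1 n) μ.1 ≠ 0} := by
    ext χ
    rw [hiff χ]
    constructor
    · intro h; exact ⟨θ, Set.mem_singleton θ, h⟩
    · rintro ⟨μ, hμ, h⟩
      rw [Set.mem_singleton_iff] at hμ
      rw [← hμ]; exact h
  have hBcoeff : ∀ g : G, blockCoeff (blockOf M χ₁.1) g
      = extendByZero K (blockCoeff ({θ} : Set (IrrCharacter K))) g := by
    intro g
    rw [hBset]
    exact blockCoeff_over_eq K _ (singleton_stable K θ hinv) g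
  have hsumeq : ∀ ξ : IrrCharacter C,
      ∑ x : C, blockCoeff (blockOf M χ₁.1) (x : G) * ξ.1 x
        = ∑ x : C, extendByZero K (blockCoeff ({θ} : Set (IrrCharacter K))) (x : G) * ξ.1 x :=
    fun ξ => Finset.sum_congr rfl (fun x _ => by rw [hBcoeff])
  -- existence
  have hexist : ∀ ξ : IrrCharacter C,
      classInner (fun n : K.subgroupOf C => ξ.1 n) θs.1 ≠ 0 →
        IsInducedBlock M C (blockOf M ξ.1) (blockOf M χ₁.1) := by
    intro ξ hover
    have hCH : Subgroup.centralizer (R : Set G) ≤ C := by rw [hC]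
    have hHN : C ≤ Subgroup.normalizer (R : Set G) := by
      rw [hC]; exact Subgroup.centralizer_le_normalizer _
    obtain ⟨χ', hχ'⟩ := exists_irr_brauer hM hR hCH hHN ξ
    have hind : ∀ g : G,
        MemLocalIdeal M (inducedCentralChar C ξ.1 g - centralChar χ'.1 g) := by
      intro g
      have hset : {h : C | IsConj g (h : G) ∧ (h : G) ∈ Subgroup.centralizer (R : Set G)}
          = {h : C | IsConj g (h : G)} := by
        ext h
        show (IsConj g (h : G) ∧ (h : G) ∈ Subgroup.centralizer (R : Set G)) ↔ IsConj g (h : G)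
        constructor
        · exact fun hh => hh.1
        · intro hh
          refine ⟨hh, ?_⟩
          rw [← hC]; exact h.2
      have hbr : brauerCentralChar R C ξ.1 g = inducedCentralChar C ξ.1 g := by
        unfold brauerCentralChar inducedCentralChar
        rw [hset]
      rw [← hbr]
      exact hχ' g
    have h1 := sum_blockCoeff_induced hMp C χ₁ χ' ξ hind
    rw [hsumeq ξ] at h1
    have h2 := fong_weight_mem_iff hM K hKp θ hinv C ξ θs hover ms hms
    have hmem : χ' ∈ blockOf M χ₁.1 := by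
      by_contra hn
      exact hpms (h2.mp (h1.2 hn))
    have h4 := isInducedBlock_of_congr hMp C ξ χ' hind
    rw [Cfsg.Agent.H80.blockOf_eq_of_mem hMp hmem] at h4
    exact h4
  have hχc_over : classInner (fun n : K.subgroupOf C => χc.1 n) θs.1 ≠ 0 :=
    (hciff χc).mp (Cfsg.Agent.H80.mem_blockOf_self hMp χc)
  refine ⟨blockOf M χc.1, hexist χc hχc_over, ?_⟩
  -- uniqueness
  intro f' hf'
  obtain ⟨⟨ξ', hf'eq⟩, -, hall⟩ := hf'
  have hind' : ∀ g : G,
      MemLocalIdeal M (inducedCentralChar C ξ'.1 g - centralChar χ₁.1 g) := by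
    intro g
    exact hall ξ' (by rw [hf'eq]; exact Cfsg.Agent.H80.mem_blockOf_self hMp ξ') χ₁
      (Cfsg.Agent.H80.mem_blockOf_self hMp χ₁) g
  have h1 := (sum_blockCoeff_induced hMp C χ₁ χ₁ ξ' hind').1
    (Cfsg.Agent.H80.mem_blockOf_self hMp χ₁)
  rw [hsumeq ξ'] at h1
  obtain ⟨φ, hφ⟩ := exists_constituent_res (K.subgroupOf C) ξ'
  obtain ⟨mφ, hmφ⟩ := classInner_isCharacter_nat
    (isCharacter_comp (subgroupOfIncl K C) (isCharacter_of_isIrrCharacter θ.2))
    (isCharacter_of_isIrrCharacter φ.2)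
  have h2 := fong_weight_mem_iff hM K hKp θ hinv C ξ' φ hφ mφ hmφ
  have hpm : ¬ p ∣ mφ := by
    intro hdvd
    have h3 := memLocalIdeal_add hMp h1 (h2.mpr hdvd)
    rw [sub_add_cancel] at h3
    exact not_memLocalIdeal_one hMp h3
  have hφeq : φ = θs := hθsuniq φ mφ hmφ hpm
  rw [hφeq] at hφ
  rw [hf'eq]
  exact Cfsg.Agent.H80.blockOf_eq_of_mem hMp ((hciff ξ').mpr hφ)

end Glauberman

end Cfsg.Agent.H79
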