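import Mathlib
import Cfsg.Agent.H81.GL23Defs
import Cfsg.Agent.H81.Counting
import Cfsg.Agent.H81.Reg

/-!
# S0197-CC (helper79, for helper81): two class multiplication constants of the class of `t`.
-/

set_option autoImplicit false

namespace Cfsg.Agent.H79.GL23

open Cfsg Cfsg.Agent.H81.GL23

universe u

/-- The number of `a` with `a t a⁻¹ = u` is `|C(t)|` as soon as there is one. -/
theorem card_conj_eq {G : Type u} [Group G] [Fintype G] [DecidableEq G] (t u a₀ : G)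
    (h : a₀ * t * a₀⁻¹ = u) :
    (Finset.univ.filter (fun a : G => a * t * a⁻¹ = u)).card =
      Nat.card (Subgroup.centralizer ({t} : Set G)) := by
  classical
  rw [← Fintype.card_subtype, ← Nat.card_eq_fintype_card]
  apply Nat.card_congr
  refine
    { toFun := fun a => ⟨a₀⁻¹ * a.1, ?_⟩
      invFun := fun c => ⟨a₀ * c.1, ?_⟩
      left_inv := fun a => by apply Subtype.ext; simp
      right_inv := fun c => by apply Subtype.ext; simp }
  · rw [Subgroup.mem_centralizer_singleton_iff]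
    have ha := a.2
    have h1 : a.1 * t * a.1⁻¹ = a₀ * t * a₀⁻¹ := by rw [ha, h]
    have h2 : a₀⁻¹ * a.1 * t = a₀⁻¹ * (a.1 * t * a.1⁻¹) * a.1 := by group
    rw [h2, h1]; group
  · have hc := c.2
    rw [Subgroup.mem_centralizer_singleton_iff] at hc
    show a₀ * c.1 * t * (a₀ * c.1)⁻¹ = u
    rw [← h]
    have : a₀ * c.1 * t * (a₀ * c.1)⁻¹ = a₀ * (c.1 * t) * c.1⁻¹ * a₀⁻¹ := by group
    rw [this, hc]; group

theorem cc : StmtCC.{u} := by
  intro G _ _ t x v hC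
  classical
  have hreg := Cfsg.Agent.H81.regIdentity G
  have ht2 : t * t = 1 := by
    have := pow_orderOf_eq_one t
    rw [hC.ht, pow_two] at this
    exact this
  have htinv : t⁻¹ = t := inv_eq_of_mul_eq_one_left ht2
  have ht1 : t ≠ 1 := by
    intro h
    have := hC.ht
    rw [h, orderOf_one] at this
    omega
  have hG : (Nat.card G : ℂ) ≠ 0 := by exact_mod_cast Nat.card_pos.ne'
  -- orders
  have hx2 : orderOf (x ^ 2) = 4 := by
    rw [orderOf_pow' x (by norm_num), hC.hx]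
    rfl
  -- conjugates of `t` are involutions
  have hconj_sq : ∀ a : G, (a * t * a⁻¹) * (a * t * a⁻¹) = 1 := by
    intro a
    have : (a * t * a⁻¹) * (a * t * a⁻¹) = a * (t * t) * a⁻¹ := by group
    rw [this, ht2]; group
  have hconj_ne : ∀ a : G, a * t * a⁻¹ ≠ 1 := by
    intro a h
    apply ht1
    have : t = a⁻¹ * (a * t * a⁻¹) * a := by group
    rw [this, h]; group
  have hconj_ord : ∀ a : G, orderOf (a * t * a⁻¹) = 2 := by
    intro a
    exact orderOf_eq_prime (by rw [pow_two]; exact hconj_sq a) (hconj_ne a)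
  -- the first constant
  have h1 := Cfsg.Agent.H81.card_conj_pairs hreg t x
  have hempty : (Finset.univ.filter (fun ab : G × G =>
      ab.1 * t * ab.1⁻¹ * (ab.2 * t⁻¹ * ab.2⁻¹) = x)) = ∅ := by
    rw [Finset.filter_eq_empty_iff]
    rintro ⟨a, b⟩ - hab
    simp only [htinv] at hab
    apply hC.notX (a * t * a⁻¹)
    have hu := hconj_sq a
    have hw := hconj_sq b
    have huinv : (a * t * a⁻¹)⁻¹ = a * t * a⁻¹ := inv_eq_of_mul_eq_one_left hu
    have hwinv : (b * t * b⁻¹)⁻¹ = b * t * b⁻¹ := inv_eq_of_mul_eq_one_left hw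
    rw [← hab, huinv, mul_inv_rev, huinv, hwinv]
    calc a * t * a⁻¹ * (a * t * a⁻¹ * (b * t * b⁻¹)) * (a * t * a⁻¹)
        = (a * t * a⁻¹ * (a * t * a⁻¹)) * (b * t * b⁻¹) * (a * t * a⁻¹) := by group
      _ = b * t * b⁻¹ * (a * t * a⁻¹) := by rw [hu, one_mul]
  rw [hempty, Finset.card_empty, Nat.cast_zero] at h1
  have hsum1 : ∑ᶠ χ : IrrCharacter G,
      ((χ : G → ℂ) t) ^ 2 * (χ : G → ℂ) x⁻¹ / (χ : G → ℂ) 1 = 0 := by
    have h2 : ∑ᶠ χ : IrrCharacter G,
        (χ : G → ℂ) t * (χ : G → ℂ) t⁻¹ * (χ : G → ℂ) x⁻¹ / (χ : G → ℂ) 1 = 0 := by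
      rcases mul_eq_zero.1 h1.symm with h | h
      · exact absurd h hG
      · exact h
    rw [← h2]
    apply finsum_congr
    intro χ
    rw [htinv, pow_two]
  -- the second constant
  have h2 := Cfsg.Agent.H81.card_conj_pairs hreg t (x ^ 2)⁻¹
  have hsum2 : (Nat.card G : ℂ) * ∑ᶠ χ : IrrCharacter G,
      ((χ : G → ℂ) t) ^ 2 * (χ : G → ℂ) (x ^ 2) / (χ : G → ℂ) 1 =
      ((Finset.univ.filter (fun ab : G × G =>
        ab.1 * t * ab.1⁻¹ * (ab.2 * t * ab.2⁻¹) = (x ^ 2)⁻¹)).card : ℂ) := by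
    simp only [htinv, inv_inv] at h2
    rw [h2]
    congr 1
    apply finsum_congr
    intro χ
    rw [pow_two]
  obtain ⟨s, hs, hcard⟩ := hC.invY
  set T : Finset G := Finset.univ.filter
    (fun w : G => orderOf w = 2 ∧ w * x ^ 2 * w⁻¹ = (x ^ 2)⁻¹) with hT
  have hTcard : T.card = 4 := by
    rw [← hcard, Nat.card_eq_fintype_card, Fintype.card_subtype]
  set S : Finset (G × G) := Finset.univ.filter (fun ab : G × G =>
    ab.1 * t * ab.1⁻¹ * (ab.2 * t * ab.2⁻¹) = (x ^ 2)⁻¹) with hS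
  -- the first component of a pair in `S` lies in `T`
  have hfst : ∀ ab ∈ S, ab.1 * t * ab.1⁻¹ ∈ T := by
    rintro ⟨a, b⟩ hab
    rw [hS, Finset.mem_filter] at hab
    have hab := hab.2
    simp only at hab
    rw [hT, Finset.mem_filter]
    refine ⟨Finset.mem_univ _, hconj_ord a, ?_⟩
    have hu := hconj_sq a
    have hw := hconj_sq b
    have huinv : (a * t * a⁻¹)⁻¹ = a * t * a⁻¹ := inv_eq_of_mul_eq_one_left hu
    have hwinv : (b * t * b⁻¹)⁻¹ = b * t * b⁻¹ := inv_eq_of_mul_eq_one_left hw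
    have hx2' : x ^ 2 = b * t * b⁻¹ * (a * t * a⁻¹) := by
      have : x ^ 2 = ((x ^ 2)⁻¹)⁻¹ := (inv_inv _).symm
      rw [this, ← hab, mul_inv_rev, huinv, hwinv]
    show a * t * a⁻¹ * x ^ 2 * (a * t * a⁻¹)⁻¹ = (x ^ 2)⁻¹
    rw [huinv, ← hab, hx2']
    calc a * t * a⁻¹ * (b * t * b⁻¹ * (a * t * a⁻¹)) * (a * t * a⁻¹)
        = a * t * a⁻¹ * (b * t * b⁻¹) * ((a * t * a⁻¹) * (a * t * a⁻¹)) := by group
      _ = a * t * a⁻¹ * (b * t * b⁻¹) := by rw [hu, mul_one]
  -- the partner of an element of `T` lies in `T`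
  have hpartner : ∀ u ∈ T, u⁻¹ * (x ^ 2)⁻¹ ∈ T := by
    intro u hu
    rw [hT, Finset.mem_filter] at hu
    obtain ⟨-, hu2, hux⟩ := hu
    have huu : u * u = 1 := by
      have := pow_orderOf_eq_one u
      rw [hu2, pow_two] at this
      exact this
    have huinv : u⁻¹ = u := inv_eq_of_mul_eq_one_left huu
    have hux' : u * (x ^ 2)⁻¹ * u = x ^ 2 := by
      have h3 : (u * x ^ 2 * u⁻¹)⁻¹ = ((x ^ 2)⁻¹)⁻¹ := by rw [hux]
      rw [inv_inv, mul_inv_rev, mul_inv_rev, inv_inv, huinv] at h3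
      rw [mul_assoc]; exact h3
    have hw2 : (u⁻¹ * (x ^ 2)⁻¹) * (u⁻¹ * (x ^ 2)⁻¹) = 1 := by
      rw [huinv]
      calc u * (x ^ 2)⁻¹ * (u * (x ^ 2)⁻¹) = (u * (x ^ 2)⁻¹ * u) * (x ^ 2)⁻¹ := by group
        _ = 1 := by rw [hux', mul_inv_cancel]
    have hwne : u⁻¹ * (x ^ 2)⁻¹ ≠ 1 := by
      intro h
      have h4 : u⁻¹ = x ^ 2 := by
        have := mul_eq_one_iff_eq_inv.1 h
        rw [this, inv_inv]
      have h5 : orderOf u⁻¹ = 2 := by rw [orderOf_inv, hu2]
      rw [h4, hx2] at h5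
      omega
    rw [hT, Finset.mem_filter]
    refine ⟨Finset.mem_univ _, orderOf_eq_prime (by rw [pow_two]; exact hw2) hwne, ?_⟩
    rw [huinv, mul_inv_rev, inv_inv, huinv]
    calc u * (x ^ 2)⁻¹ * x ^ 2 * (x ^ 2 * u) = u * x ^ 2 * u := by group
      _ = u * x ^ 2 * u⁻¹ := by rw [huinv]
      _ = (x ^ 2)⁻¹ := hux
  by_cases hst : ∃ g : G, g * t * g⁻¹ = s
  · -- `s` is conjugate to `t`: the constant is `4 * 48 ^ 2`
    refine ⟨4, Or.inr rfl, hsum1, ?_⟩
    rw [hsum2]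
    have hTconj : ∀ u ∈ T, ∃ a₀ : G, a₀ * t * a₀⁻¹ = u := by
      intro u hu
      rw [hT, Finset.mem_filter] at hu
      obtain ⟨g, hg⟩ := hs u hu.2.1 hu.2.2
      obtain ⟨g', hg'⟩ := hst
      refine ⟨g * g', ?_⟩
      rw [← hg, ← hg']; group
    have hfib : ∀ u ∈ T, (S.filter (fun ab : G × G => ab.1 * t * ab.1⁻¹ = u)).card = 2304 := by
      intro u hu
      obtain ⟨a₀, ha₀⟩ := hTconj u hu
      obtain ⟨b₀, hb₀⟩ := hTconj _ (hpartner u hu)
      have heq : S.filter (fun ab : G × G => ab.1 * t * ab.1⁻¹ = u) =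
          (Finset.univ.filter (fun a : G => a * t * a⁻¹ = u)) ×ˢ
            (Finset.univ.filter (fun b : G => b * t * b⁻¹ = u⁻¹ * (x ^ 2)⁻¹)) := by
        ext ⟨a, b⟩
        simp only [hS, Finset.mem_filter, Finset.mem_univ, true_and, Finset.mem_product]
        constructor
        · rintro ⟨h5, h6⟩
          refine ⟨h6, ?_⟩
          rw [← h5, h6]; group
        · rintro ⟨h5, h6⟩
          refine ⟨?_, h5⟩
          rw [h5, h6]; group
      rw [heq, Finset.card_product, card_conj_eq t u a₀ ha₀, card_conj_eq t _ b₀ hb₀, hC.centT]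
    have hcardS : S.card = ∑ u ∈ T, (S.filter (fun ab : G × G => ab.1 * t * ab.1⁻¹ = u)).card :=
      Finset.card_eq_sum_card_fiberwise hfst
    rw [hcardS, Finset.sum_congr rfl hfib, Finset.sum_const, hTcard]
    norm_num
  · -- `s` is not conjugate to `t`: the constant is `0`
    refine ⟨0, Or.inl rfl, hsum1, ?_⟩
    rw [hsum2]
    have hSe : S = ∅ := by
      rw [Finset.eq_empty_iff_forall_notMem]
      intro ab hab
      have h5 := hfst ab hab
      rw [hT, Finset.mem_filter] at h5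
      obtain ⟨g, hg⟩ := hs _ h5.2.1 h5.2.2
      apply hst
      refine ⟨g⁻¹ * ab.1, ?_⟩
      have : g⁻¹ * ab.1 * t * (g⁻¹ * ab.1)⁻¹ = g⁻¹ * (ab.1 * t * ab.1⁻¹) * g := by group
      rw [this, ← hg]; group
    rw [hSe, Finset.card_empty]
    norm_num

example : Cfsg.Agent.H81.GL23.StmtCC.{u} := cc

end Cfsg.Agent.H79.GL23
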