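import Mathlib
import Cfsg.Prelude.Def_Blocks
import Cfsg.Agent.H79.GreenZero
import Cfsg.Agent.H79.DefectRadical
import Cfsg.Agent.H79.PCBlock
import Cfsg.Agent.H81.DefectCount
import Cfsg.Agent.H20.DefectOrder

/-!
# Green's theorem on defect groups (helper79)

* `exists_conj_centralChar_of_brauerCentralChar`: if the Brauer central character of `ξ ∈ Irr(H)`
  at `g` is not in the local ideal, some `H`-element conjugate to `g` and centralizing `P` has
  central character value outside the local ideal.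
* `exists_conj_inf_le_normal`: Green's theorem for a character of relative defect zero over a
  normal `p`-subgroup `N`.
* `exists_mem_normalizer_not_mem`: normalizers grow in `p`-groups.
* `green`: a defect group `D` contained in the Sylow `p`-subgroup `P` is `P ∩ x P x⁻¹` for a
  `p`-regular `x` with `D` a Sylow `p`-subgroup of `C_G(x)`.
-/

set_option autoImplicit false
set_option linter.unusedSectionVars false
set_option linter.style.haveILetI false

namespace Cfsg.Agent.H79

open Cfsg Cfsg.Agent.H20 Cfsg.Agent.H4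

universe u

section

variable {G : Type u} [Group G] [Fintype G] {M : Ideal AlgInt} {p : ℕ} [Fact p.Prime]

/-- If the Brauer central character of `ξ ∈ Irr(H)` at `g` is not in the local ideal, then some
element of `H` conjugate to `g` and centralizing `P` has central character value outside the
local ideal. -/
theorem exists_conj_centralChar_of_brauerCentralChar (hM : IsPModular p M) (P H : Subgroup G)
    [Fintype H] (hHN : H ≤ Subgroup.normalizer (P : Set G)) (ξ : IrrCharacter H) (g : G)
    (hne : ¬ MemLocalIdeal M (brauerCentralChar P H (ξ : H → ℂ) g)) :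
    ∃ h : H, IsConj g (h : G) ∧ (h : G) ∈ Subgroup.centralizer (P : Set G) ∧
      ¬ MemLocalIdeal M (centralChar (ξ : H → ℂ) h) := by
  classical
  have hMp := isPrime_of_isPModular hM
  by_contra hcon
  push Not at hcon
  apply hne
  rw [← omega_brMap_classSum]
  apply omega_mem_of_coeff _ (irr_isClassFunction ξ) (localIdeal M hMp)
    (isCF_brMap hHN (classSum_mem (localRing M hMp) g).1)
  intro h
  rw [coeff_brMap, coeff_classSum]
  by_cases h1 : (h : G) ∈ Subgroup.centralizer (P : Set G)
  · by_cases h2 : IsConj g (h : G)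
    · rw [if_pos h1, if_pos h2, one_mul]
      exact hcon h h2 h1
    · rw [if_pos h1, if_neg h2, zero_mul]
      exact memLocalIdeal_zero hMp
  · rw [if_neg h1, zero_mul]
    exact memLocalIdeal_zero hMp

end

section

variable {Y : Type u} [Group Y]

/-- **Green's theorem, relative defect zero.** Let `N` be a normal `p`-subgroup of `Y` and `ξ` an
irreducible character with `N` in its kernel and of relative defect zero over `N`. If `ξ h` is not
in the local ideal, then for every `p`-subgroup `R₀` some conjugate `y` of `h` has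
`R₀ ∩ y R₀ y⁻¹ ≤ N`. -/
theorem exists_conj_inf_le_normal [Finite Y] {M : Ideal AlgInt} {p : ℕ} (hM : IsPModular p M)
    (N : Subgroup Y) [N.Normal] (ξ : IrrCharacter Y)
    (hker : ∀ x ∈ N, (ξ : Y → ℂ) x = (ξ : Y → ℂ) 1)
    (hge : N.index.factorization p ≤ (charDegree (ξ : Y → ℂ)).factorization p)
    (h : Y) (hξh : ¬ MemLocalIdeal M ((ξ : Y → ℂ) h)) (R₀ : Subgroup Y) (hR₀ : IsPGroup p R₀) :
    ∃ g : Y, ∀ u ∈ R₀, ∀ v ∈ R₀, u = (g⁻¹ * h * g) * v * (g⁻¹ * h * g)⁻¹ → u ∈ N := by
  classical
  have hp : p.Prime := hM.1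
  haveI hfact : Fact p.Prime := ⟨hp⟩
  obtain ⟨ξb, hξb⟩ := Cfsg.Agent.H82.exists_deflate N ξ hker
  have hge' : N.index.factorization p ≤ (charDegree (ξb : Y ⧸ N → ℂ)).factorization p := by
    rw [← Cfsg.Agent.H82.charDegree_inflate N ξb, hξb]
    exact hge
  obtain ⟨-, hnd⟩ := degree_of_ker hp N ξb hge'
  have hval : ∀ x : Y, (ξb : Y ⧸ N → ℂ) (x : Y ⧸ N) = (ξ : Y → ℂ) x := by
    intro x
    rw [← hξb]
    rfl
  have hξbh : ¬ MemLocalIdeal M ((ξb : Y ⧸ N → ℂ) (h : Y ⧸ N)) := by
    rw [hval]
    exact hξh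
  have hR₀' : IsPGroup p (R₀.map (QuotientGroup.mk' N)) := hR₀.map _
  obtain ⟨R, hR⟩ := hR₀'.exists_le_sylow
  obtain ⟨gb, hgb⟩ := exists_conj_sylow_inf_eq_bot hM ξb hnd (h : Y ⧸ N) hξbh R
  obtain ⟨g, rfl⟩ := QuotientGroup.mk_surjective gb
  refine ⟨g, fun u hu v hv huv => ?_⟩
  have h1 := hgb (u : Y ⧸ N) (hR ⟨u, hu, rfl⟩) (v : Y ⧸ N) (hR ⟨v, hv, rfl⟩) (by
    rw [huv]
    simp)
  exact (QuotientGroup.eq_one_iff u).mp h1

end

section

variable {G : Type u} [Group G]

/-- Normalizers grow in `p`-groups: if `D` is a proper subgroup of the `p`-group `Q₀`, some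
element of `Q₀` outside `D` normalizes `D`. -/
theorem exists_mem_normalizer_not_mem [Finite G] {p : ℕ} [Fact p.Prime] (D Q₀ : Subgroup G)
    (hQ₀ : IsPGroup p Q₀) (hle : D ≤ Q₀) (hne : D ≠ Q₀) :
    ∃ u ∈ Q₀, u ∉ D ∧ u ∈ Subgroup.normalizer (D : Set G) := by
  haveI : Group.IsNilpotent Q₀ := hQ₀.isNilpotent
  have hlt : D.subgroupOf Q₀ < ⊤ := by
    rw [lt_top_iff_ne_top]
    intro h
    exact hne (le_antisymm hle (Subgroup.subgroupOf_eq_top.mp h))
  have h1 := Group.normalizerCondition_of_isNilpotent (G := ↥Q₀) (D.subgroupOf Q₀) hlt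
  obtain ⟨u', hu'N, hu'D⟩ := SetLike.exists_of_lt h1
  refine ⟨(u' : G), u'.2, fun h => hu'D (Subgroup.mem_subgroupOf.mpr h), ?_⟩
  rw [Subgroup.mem_normalizer_iff]
  intro d
  rw [Subgroup.mem_normalizer_iff] at hu'N
  constructor
  · intro hd
    have := (hu'N ⟨d, hle hd⟩).mp (Subgroup.mem_subgroupOf.mpr hd)
    exact Subgroup.mem_subgroupOf.mp this
  · intro hd
    have hdQ : d ∈ Q₀ := by
      have e : d = (u' : G)⁻¹ * ((u' : G) * d * (u' : G)⁻¹) * (u' : G) := by group
      rw [e]
      exact Q₀.mul_mem (Q₀.mul_mem (Q₀.inv_mem u'.2) (hle hd)) u'.2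
    have := (hu'N ⟨d, hdQ⟩).mpr (Subgroup.mem_subgroupOf.mpr hd)
    exact Subgroup.mem_subgroupOf.mp this

/-- The `p`-part of `|C_H(h)|` for `h` in a subgroup `H` containing a `p`-subgroup `D` of
`C_G(h)` of order the `p`-part of `|C_G(h)|`. -/
theorem factorization_card_centralizer_subgroup [Finite G] {p : ℕ} (hp : p.Prime)
    (H D : Subgroup G) (hDH : D ≤ H) (h : H)
    (hDh : D ≤ Subgroup.centralizer ({(h : G)} : Set G))
    (hcard : Nat.card D = p ^ (Nat.card (Subgroup.centralizer ({(h : G)} : Set G))).factorization p) :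
    (Nat.card (Subgroup.centralizer ({h} : Set H))).factorization p
      = (Nat.card (D.subgroupOf H)).factorization p := by
  have hcD : Nat.card (D.subgroupOf H) = Nat.card D :=
    Nat.card_congr (Subgroup.subgroupOfEquivOfLe hDH).toEquiv
  have h1 : D.subgroupOf H ≤ Subgroup.centralizer ({h} : Set H) := by
    intro d hd
    rw [Subgroup.mem_centralizer_iff]
    intro z hz
    rw [Set.mem_singleton_iff] at hz
    subst hz
    have h2 := Subgroup.mem_centralizer_iff.mp (hDh (Subgroup.mem_subgroupOf.mp hd)) (z : G)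
      (Set.mem_singleton _)
    exact Subtype.ext h2
  have h2 : (Subgroup.centralizer ({h} : Set H)).map H.subtype
      ≤ Subgroup.centralizer ({(h : G)} : Set G) := by
    rintro _ ⟨c, hc, rfl⟩
    rw [Subgroup.mem_centralizer_iff]
    intro z hz
    rw [Set.mem_singleton_iff] at hz
    subst hz
    have h3 := Subgroup.mem_centralizer_iff.mp hc h (Set.mem_singleton _)
    exact congrArg (Subtype.val : H → G) h3
  have hd1 : Nat.card (D.subgroupOf H) ∣ Nat.card (Subgroup.centralizer ({h} : Set H)) :=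
    Subgroup.card_dvd_of_le h1
  have hd2 : Nat.card (Subgroup.centralizer ({h} : Set H))
      ∣ Nat.card (Subgroup.centralizer ({(h : G)} : Set G)) := by
    have := Subgroup.card_dvd_of_le h2
    rwa [Subgroup.card_map_of_injective (Subgroup.subtype_injective _)] at this
  have hpos1 : Nat.card (Subgroup.centralizer ({h} : Set H)) ≠ 0 := Nat.card_pos.ne'
  have hpos2 : Nat.card (Subgroup.centralizer ({(h : G)} : Set G)) ≠ 0 := Nat.card_pos.ne'
  rw [hcD, hcard] at hd1 ⊢
  rw [Nat.Prime.factorization_pow hp, Finsupp.single_eq_same]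
  apply le_antisymm
  · exact (Nat.factorization_le_iff_dvd hpos1 hpos2).mpr hd2 p
  · exact (hp.pow_dvd_iff_le_factorization hpos1).mp hd1

/-- Subgroups with the same `p`-part of the order have the same `p`-part of the index. -/
theorem factorization_index_eq_of_card [Finite G] {p : ℕ} (A B : Subgroup G)
    (h : (Nat.card A).factorization p = (Nat.card B).factorization p) :
    A.index.factorization p = B.index.factorization p := by
  have hA := Subgroup.card_mul_index A
  have hB := Subgroup.card_mul_index B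
  have e1 : (Nat.card A * A.index).factorization p = (Nat.card G).factorization p := by rw [hA]
  have e2 : (Nat.card B * B.index).factorization p = (Nat.card G).factorization p := by rw [hB]
  rw [Nat.factorization_mul Nat.card_pos.ne' Subgroup.index_ne_zero_of_finite,
    Finsupp.add_apply] at e1 e2
  omega

/-- **Green's theorem.** A defect group `D` contained in the Sylow `p`-subgroup `P` is
`P ∩ x P x⁻¹` for a `p`-regular element `x` with `D` a Sylow `p`-subgroup of `C_G(x)`. -/
theorem green [Finite G] {M : Ideal AlgInt} {p : ℕ} (hM : IsPModular p M) (χ₀ : IrrCharacter G)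
    (D : Subgroup G) (hD : IsDefectGroup p M (blockOf M (χ₀ : G → ℂ)) D) (P : Sylow p G)
    (hDP : D ≤ P) :
    ∃ x : G, ¬ p ∣ orderOf x ∧
      (∃ S : Sylow p (Subgroup.centralizer ({x} : Set G)),
        (S : Subgroup (Subgroup.centralizer ({x} : Set G))).map
          (Subgroup.centralizer ({x} : Set G)).subtype = D) ∧
      (P : Subgroup G) ⊓ (P : Subgroup G).map (MulAut.conj x).toMonoidHom = D := by
  classical
  have hfG : Fintype G := Fintype.ofFinite G
  have hp : p.Prime := hM.1
  haveI hfact : Fact p.Prime := ⟨hp⟩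
  have hMp := isPrime_of_isPModular hM
  obtain ⟨g₀, hg₀, S, hDdef⟩ := hD
  have hDp : IsPGroup p D := by
    rw [hDdef]
    exact S.2.map _
  have hDc : D ≤ Subgroup.centralizer ({g₀} : Set G) := by
    rw [hDdef]
    exact sylow_map_le_centralizer g₀ S
  have hg₀C : g₀ ∈ Subgroup.centralizer (D : Set G) := by
    rw [Subgroup.mem_centralizer_iff]
    intro d hd
    exact (Subgroup.mem_centralizer_iff.mp (hDc hd) g₀ (Set.mem_singleton g₀)).symm
  have hg₀reg : ¬ p ∣ orderOf g₀ := not_dvd_orderOf_of_isDefectClass hM χ₀ g₀ hg₀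
  have hDcard : Nat.card D
      = p ^ (Nat.card (Subgroup.centralizer ({g₀} : Set G))).factorization p := by
    rw [hDdef]
    exact Cfsg.Agent.H81.card_sylow_centralizer_map g₀ S
  obtain ⟨H, hHdef⟩ : ∃ H : Subgroup G, H = Subgroup.normalizer (D : Set G) := ⟨_, rfl⟩
  have hfH : Fintype H := Fintype.ofFinite H
  have hDH : D ≤ H := hHdef ▸ Subgroup.le_normalizer
  have hCH : Subgroup.centralizer (D : Set G) ≤ H := hHdef ▸ Subgroup.centralizer_le_normalizer _
  have hHN : H ≤ Subgroup.normalizer (D : Set G) := hHdef.le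
  obtain ⟨ξ₁, hξ₁⟩ := exists_irr_brauer_block hM D H hDp hCH hHN χ₀ g₀ hg₀C hg₀.2.1
  have hk := hg₀.2.2 χ₀ (Cfsg.Agent.H80.mem_blockOf_self hMp χ₀)
  obtain ⟨N, hNdef⟩ : ∃ N : Subgroup H, N = D.subgroupOf H := ⟨_, rfl⟩
  haveI hNn : N.Normal := by
    rw [hNdef, hHdef]
    exact Subgroup.normal_in_normalizer
  have hNp : IsPGroup p N := by
    rw [hNdef]
    exact hDp.comap_subtype
  obtain ⟨ξ, hξB, hξker⟩ := Cfsg.Agent.H84.exists_mem_block_ker hM N hNp ξ₁
  have hne : ¬ MemLocalIdeal M (brauerCentralChar D H (ξ : H → ℂ) g₀) := by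
    intro h1
    apply hk
    have h2 := omega_sub_omega_memLocalIdeal hMp (ξ₁ : H → ℂ) (ξ : H → ℂ)
      (irr_isClassFunction ξ₁) (irr_isClassFunction ξ) hξB
      (brMap_mem (P := D) (H := H) hHN (classSum_mem (localRing M hMp) g₀))
    rw [omega_brMap_classSum, omega_brMap_classSum] at h2
    have h3 := memLocalIdeal_sub hMp (memLocalIdeal_add hMp h1 h2) (hξ₁ g₀)
    convert h3 using 1
    ring
  obtain ⟨h, hconj, hhC, hωh⟩ := exists_conj_centralChar_of_brauerCentralChar hM D H hHN ξ g₀ hne
  obtain ⟨t, ht⟩ := isConj_iff.mp hconj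
  -- the `p`-parts of the class of `h` in `H` and of `|H : D|`
  have hDh : D ≤ Subgroup.centralizer ({(h : G)} : Set G) := by
    intro d hd
    rw [Subgroup.mem_centralizer_iff]
    intro z hz
    rw [Set.mem_singleton_iff] at hz
    subst hz
    exact (Subgroup.mem_centralizer_iff.mp hhC d hd).symm
  have hcardh : Nat.card (Subgroup.centralizer ({(h : G)} : Set G))
      = Nat.card (Subgroup.centralizer ({g₀} : Set G)) := by
    rw [← ht]
    exact Cfsg.Agent.H81.card_centralizer_conj g₀ t
  have hidx : ((Subgroup.centralizer ({h} : Set H)).index).factorization p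
      = N.index.factorization p := by
    apply factorization_index_eq_of_card
    rw [hNdef]
    exact factorization_card_centralizer_subgroup hp H D hDH h hDh (by rw [hcardh]; exact hDcard)
  have hle := factorization_index_le_of_centralChar hM ξ h hωh
  have hge : N.index.factorization p ≤ (charDegree (ξ : H → ℂ)).factorization p := by
    rw [← hidx]
    exact hle
  obtain ⟨ξb, hξb⟩ := Cfsg.Agent.H82.exists_deflate N ξ hξker
  have hdeg : (charDegree (ξ : H → ℂ)).factorization p = N.index.factorization p := by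
    have h1 := (degree_of_ker hp N ξb (by
      rw [← Cfsg.Agent.H82.charDegree_inflate N ξb, hξb]
      exact hge)).1
    rw [← Cfsg.Agent.H82.charDegree_inflate N ξb, hξb] at h1
    exact h1
  have hξh : ¬ MemLocalIdeal M ((ξ : H → ℂ) h) := by
    intro h1
    exact hωh ((centralChar_memLocalIdeal_iff_of_factorization_eq hM ξ h
      (hidx.trans hdeg.symm)).mpr h1)
  obtain ⟨g, hg⟩ := exists_conj_inf_le_normal hM N ξ hξker hge h hξh
    ((P : Subgroup G).subgroupOf H) (P.2.comap_subtype)
  obtain ⟨y, hydef⟩ : ∃ y : H, y = g⁻¹ * h * g := ⟨_, rfl⟩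
  rw [← hydef] at hg
  have hyG : (y : G) = (g : G)⁻¹ * (h : G) * ((g : G)⁻¹)⁻¹ := by
    rw [hydef, inv_inv]
    rfl
  have hyC : (y : G) ∈ Subgroup.centralizer (D : Set G) := by
    rw [hyG]
    exact conj_mem_centralizer_of_mem_normalizer D (hHN (H.inv_mem g.2)) hhC
  have hDy : D ≤ Subgroup.centralizer ({(y : G)} : Set G) := by
    intro d hd
    rw [Subgroup.mem_centralizer_iff]
    intro z hz
    rw [Set.mem_singleton_iff] at hz
    subst hz
    exact (Subgroup.mem_centralizer_iff.mp hyC d hd).symm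
  have hDconj : D ≤ (P : Subgroup G).map (MulAut.conj (y : G)).toMonoidHom := by
    intro d hd
    refine ⟨d, hDP hd, ?_⟩
    show (y : G) * d * (y : G)⁻¹ = d
    have h1 : d * (y : G) = (y : G) * d := Subgroup.mem_centralizer_iff.mp hyC d hd
    rw [← h1]
    group
  refine ⟨(y : G), ?_, ?_, ?_⟩
  · rw [hyG, Cfsg.Agent.H81.orderOf_conj_eq, ← ht, Cfsg.Agent.H81.orderOf_conj_eq]
    exact hg₀reg
  · have hcardy : Nat.card (Subgroup.centralizer ({(y : G)} : Set G))
        = Nat.card (Subgroup.centralizer ({g₀} : Set G)) := by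
      rw [hyG, Cfsg.Agent.H81.card_centralizer_conj, hcardh]
    have hc : Nat.card (D.subgroupOf (Subgroup.centralizer ({(y : G)} : Set G)))
        = p ^ (Nat.card (Subgroup.centralizer ({(y : G)} : Set G))).factorization p := by
      rw [Nat.card_congr (Subgroup.subgroupOfEquivOfLe hDy).toEquiv, hcardy]
      exact hDcard
    refine ⟨Sylow.ofCard _ hc, ?_⟩
    rw [Sylow.coe_ofCard]
    exact Subgroup.map_subgroupOf_eq_of_le hDy
  · apply le_antisymm
    · by_contra hnle
      obtain ⟨Q₀, hQ₀def⟩ : ∃ Q₀ : Subgroup G, Q₀ = (P : Subgroup G) ⊓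
          (P : Subgroup G).map (MulAut.conj (y : G)).toMonoidHom := ⟨_, rfl⟩
      rw [← hQ₀def] at hnle
      have hDQ₀ : D ≤ Q₀ := by
        rw [hQ₀def]
        exact le_inf hDP hDconj
      have hQ₀p : IsPGroup p Q₀ := P.2.to_le (hQ₀def ▸ inf_le_left)
      obtain ⟨u, huQ, huD, huN⟩ := exists_mem_normalizer_not_mem D Q₀ hQ₀p hDQ₀
        (fun h => hnle h.ge)
      have huQ' := huQ
      rw [hQ₀def] at huQ'
      have huP : u ∈ (P : Subgroup G) := huQ'.1
      obtain ⟨v, hvP, hv⟩ := huQ'.2
      have hv' : (y : G) * v * (y : G)⁻¹ = u := hv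
      have huH : u ∈ H := by
        rw [hHdef]
        exact huN
      have hvH : v ∈ H := by
        have e : v = (y : G)⁻¹ * u * (y : G) := by
          rw [← hv']
          group
        rw [e]
        exact H.mul_mem (H.mul_mem (H.inv_mem y.2) huH) y.2
      have hmem := hg ⟨u, huH⟩ (Subgroup.mem_subgroupOf.mpr huP) ⟨v, hvH⟩
        (Subgroup.mem_subgroupOf.mpr hvP) (Subtype.ext hv'.symm)
      rw [hNdef] at hmem
      exact huD (Subgroup.mem_subgroupOf.mp hmem)
    · exact le_inf hDP hDconj

end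

end Cfsg.Agent.H79
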