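import Cfsg.Agent.H79.HcDefs
import Cfsg.Agent.H80.PSolvable
import Cfsg.Agent.H80.GroupBasic
import Cfsg.Agent.Lib.Clifford
import Cfsg.Agent.H4.IrrCount

/-!
# S4440: the central case, assembled (helper79)
-/

set_option autoImplicit false
set_option linter.style.haveILetI false

namespace Cfsg.Agent.H79.Hc

open Cfsg Cfsg.Agent.H4 Cfsg.Agent.Clifford
open scoped ComplexConjugate

universe u

theorem sameCentral_trans {G : Type u} [Group G] {Z : Subgroup G} {χ ψ φ : G → ℂ} (h1 : χ 1 ≠ 0)
    (h12 : SameCentral Z χ ψ) (h13 : SameCentral Z χ φ) : SameCentral Z ψ φ := by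
  intro z hz
  have a := h12 z hz
  have b := h13 z hz
  apply mul_right_cancel₀ h1
  calc ψ z * φ 1 * χ 1 = (ψ z * χ 1) * φ 1 := by ring
    _ = χ z * ψ 1 * φ 1 := by rw [a]
    _ = (χ z * φ 1) * ψ 1 := by ring
    _ = φ z * χ 1 * ψ 1 := by rw [b]
    _ = φ z * ψ 1 * χ 1 := by ring

theorem vanishSing_empty (p : ℕ) {G : Type u} [Group G] :
    VanishSing p (∅ : Set (IrrCharacter G)) := by
  intro x _
  simp [wsum]

theorem quotSet_empty {G : Type u} [Group G] (V : Subgroup G) [V.Normal] :
    quotSet V (∅ : Set (IrrCharacter G)) = ∅ := by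
  ext ξ
  simp [quotSet]

theorem stmtHC (p : ℕ) [Fact p.Prime] (hGT : StmtGT.{u} p) (hQV : StmtQV.{u} p)
    (hDet : StmtDet.{u} p) (hVB : StmtVB.{u} p) (hSC : StmtSplitCentral.{u} p) :
    StmtHC.{u} p := by
  have key : ∀ (n : ℕ) (Γ : Type u) [Group Γ] [Finite Γ], Nat.card Γ = n → IsPSolvable p Γ →
      pPrimeCore p Γ ≤ Subgroup.center Γ → CentralUnion p Γ := by
    intro n
    induction n using Nat.strong_induction_on with
    | _ n ih =>
      intro Γ _ _ hn hsolv hZ U hU hpair χ hχ ψ hψ
      classical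
      have hp : p.Prime := Fact.out
      haveI : Fintype Γ := Fintype.ofFinite Γ
      have hχ1 : (χ : Γ → ℂ) 1 ≠ 0 := irr_one_ne_zero χ
      by_cases hpd : p ∣ Nat.card Γ
      · obtain ⟨V, hVn, hVne, hVp, halt⟩ := hGT Γ hsolv hZ hpd
        haveI := hVn
        have hBvan : VanishSing p
            {ψ' : IrrCharacter Γ | SameCentral (pPrimeCore p Γ) (χ : Γ → ℂ) (ψ' : Γ → ℂ)} :=
          hVB Γ (pPrimeCore p Γ) hZ (Cfsg.Agent.H80.pPrimeCore_coprime p Γ) χ
        have hUB : U ⊆
            {ψ' : IrrCharacter Γ | SameCentral (pPrimeCore p Γ) (χ : Γ → ℂ) (ψ' : Γ → ℂ)} :=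
          fun χ' h => hpair χ hχ χ' h
        have hclaim : quotSet V U = quotSet V
            {ψ' : IrrCharacter Γ | SameCentral (pPrimeCore p Γ) (χ : Γ → ℂ) (ψ' : Γ → ℂ)} := by
          apply Set.Subset.antisymm
          · rintro ξ ⟨χ', hχ', h⟩
            exact ⟨χ', hUB hχ', h⟩
          · have hne : (quotSet V U).Nonempty := by
              by_contra hemp
              rw [Set.not_nonempty_iff_eq_empty] at hemp
              have h0 := hDet Γ V hVp U ∅ hU (vanishSing_empty p)
                (hemp.trans (quotSet_empty V).symm)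
              rw [h0] at hχ
              exact hχ
            obtain ⟨ξ₀, χ₀, hχ₀, hξ₀⟩ := hne
            rintro ξ ⟨ψ', hψ', hξ⟩
            have hsc : SameCentral (pPrimeCore p Γ) (χ₀ : Γ → ℂ) (ψ' : Γ → ℂ) :=
              sameCentral_trans hχ1 (hpair χ hχ χ₀ hχ₀) hψ'
            rcases halt with hα | ⟨Γ₁, hcompl, hcent⟩
            · -- induction on the quotient
              have hlt : Nat.card (Γ ⧸ V) < Nat.card Γ := by
                have h1 : Nat.card Γ = Nat.card (Γ ⧸ V) * Nat.card V :=
                  Subgroup.card_eq_card_quotient_mul_card_subgroup V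
                have h2 : 1 < Nat.card V := by
                  rw [Subgroup.one_lt_card_iff_ne_bot]
                  exact hVne
                have h3 : 0 < Nat.card (Γ ⧸ V) := Nat.card_pos
                nlinarith
              have hsolvQ : IsPSolvable p (Γ ⧸ V) :=
                Cfsg.Agent.H80.isPSolvable_quotient p V hsolv
              have hZQ : pPrimeCore p (Γ ⧸ V) ≤ Subgroup.center (Γ ⧸ V) := by
                intro zb hzb
                obtain ⟨z, hz, rfl⟩ := hα hzb
                rw [Subgroup.mem_center_iff]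
                intro gb
                obtain ⟨g, rfl⟩ := QuotientGroup.mk'_surjective V gb
                have hzc := Subgroup.mem_center_iff.mp (hZ hz) g
                rw [← map_mul, ← map_mul, hzc]
              have hCU := ih _ (hn ▸ hlt) (Γ ⧸ V) rfl hsolvQ hZQ
              have hQvan := hQV Γ V U hU
              have hmem : ξ₀ ∈ quotSet V U := ⟨χ₀, hχ₀, hξ₀⟩
              refine hCU (quotSet V U) hQvan ?_ ξ₀ hmem ξ ?_
              · rintro ξ₁ ⟨χ₁, hχ₁, h₁⟩ ξ₂ ⟨χ₂, hχ₂, h₂⟩ zb hzb
                obtain ⟨z, hz, rfl⟩ := hα hzb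
                have h := hpair χ₁ hχ₁ χ₂ hχ₂ z hz
                have e1 := h₁ 1
                have e2 := h₂ 1
                rw [map_one] at e1 e2
                rw [← h₁ z, ← h₂ z, ← e1, ← e2]
                exact h
              · intro zb hzb
                obtain ⟨z, hz, rfl⟩ := hα hzb
                have h := hsc z hz
                have e1 := hξ₀ 1
                have e2 := hξ 1
                rw [map_one] at e1 e2
                rw [← hξ₀ z, ← hξ z, ← e1, ← e2]
                exact h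
            · -- split case
              have t0 : ∀ v ∈ V, (χ₀ : Γ → ℂ) v = (χ₀ : Γ → ℂ) 1 := by
                intro v hv
                have hv1 : QuotientGroup.mk' V v = 1 := (QuotientGroup.eq_one_iff v).mpr hv
                rw [hξ₀ v, hξ₀ 1, map_one, hv1]
              have t1 : ∀ v ∈ V, (ψ' : Γ → ℂ) v = (ψ' : Γ → ℂ) 1 := by
                intro v hv
                have hv1 : QuotientGroup.mk' V v = 1 := (QuotientGroup.eq_one_iff v).mpr hv
                rw [hξ v, hξ 1, map_one, hv1]
              have h := hSC Γ V Γ₁ (pPrimeCore p Γ) hVp hcompl hZ hcent U hU χ₀ hχ₀ t0 ψ' t1 hsc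
              exact ⟨ψ', h, hξ⟩
        have hUeq := hDet Γ V hVp U _ hU hBvan hclaim
        rw [hUeq]
        exact hψ
      · -- `Γ` is a `p'`-group
        have hcop : (Nat.card (⊤ : Subgroup Γ)).Coprime p := by
          rw [Subgroup.card_top]
          exact ((Nat.Prime.coprime_iff_not_dvd hp).mpr hpd).symm
        have htop : (⊤ : Subgroup Γ) ≤ pPrimeCore p Γ :=
          Cfsg.Agent.H80.le_pPrimeCore p ⊤ inferInstance hcop
        have hψ1 : (ψ : Γ → ℂ) 1 ≠ 0 := irr_one_ne_zero ψ
        have hval : ∀ g : Γ, (χ : Γ → ℂ) g = (χ : Γ → ℂ) 1 / (ψ : Γ → ℂ) 1 * (ψ : Γ → ℂ) g := by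
          intro g
          have h := hψ g (htop (Subgroup.mem_top g))
          field_simp
          rw [h]
          ring
        have hin : classInner (χ : Γ → ℂ) (ψ : Γ → ℂ) ≠ 0 := by
          have h1 : classInner (χ : Γ → ℂ) (ψ : Γ → ℂ) =
              (χ : Γ → ℂ) 1 / (ψ : Γ → ℂ) 1 * classInner (ψ : Γ → ℂ) (ψ : Γ → ℂ) := by
            unfold classInner
            have hs : ∑ g : Γ, (χ : Γ → ℂ) g * conj ((ψ : Γ → ℂ) g) =
                (χ : Γ → ℂ) 1 / (ψ : Γ → ℂ) 1 * ∑ g : Γ, (ψ : Γ → ℂ) g * conj ((ψ : Γ → ℂ) g) := by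
              rw [Finset.mul_sum]
              apply Finset.sum_congr rfl
              intro g _
              rw [hval g]
              ring
            rw [hs]
            ring
          rw [h1, classInner_irr_irr ψ.2 ψ.2, if_pos rfl, mul_one]
          exact div_ne_zero hχ1 hψ1
        have heq : (χ : Γ → ℂ) = (ψ : Γ → ℂ) := eq_of_classInner_ne_zero χ.2 ψ.2 hin
        have : χ = ψ := Subtype.ext heq
        rw [← this]
        exact hχ
  intro Γ _ _ hsolv hZ
  exact key _ Γ rfl hsolv hZ

end Cfsg.Agent.H79.Hc
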