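import Cfsg.Agent.H79.HcDefs
import Cfsg.Agent.H4.CharBasic
import Cfsg.Agent.Lib.Glaub.Sub
import Cfsg.Agent.H80.GroupBasic

/-!
# S4440: the case of an invariant character of `O_{p'}(G)`, assembled (helper79)
-/

set_option autoImplicit false
set_option linter.style.haveILetI false

namespace Cfsg.Agent.H79.Hc

open Cfsg Cfsg.Agent.H4
open scoped ComplexConjugate

universe u

/-- An irreducible character trivial on a normal subgroup descends to the quotient. -/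
theorem exists_descent {G : Type u} [Group G] [Finite G] (N : Subgroup G) [N.Normal]
    (β : IrrCharacter G) (h : ∀ n ∈ N, (β : G → ℂ) n = (β : G → ℂ) 1) :
    ∃ ξ : IrrCharacter (G ⧸ N),
      ∀ g : G, (β : G → ℂ) g = (ξ : G ⧸ N → ℂ) (QuotientGroup.mk' N g) := by
  obtain ⟨n, ρ, hρ, hχ⟩ := β.2
  have hker : N ≤ MonoidHom.ker ρ := by
    intro l hl
    rw [MonoidHom.mem_ker]
    have h1 := h l hl
    rw [← hχ, Representation.char_one] at h1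
    exact (character_eq_finrank_iff ρ l).mp h1
  let ρb : Representation ℂ (G ⧸ N) (Fin n → ℂ) := QuotientGroup.lift N ρ hker
  have hcomp : ∀ g : G, ρb.character (QuotientGroup.mk' N g) = (β : G → ℂ) g := by
    intro g
    rw [← hχ]
    rfl
  have hX : IsCharacter (G ⧸ N) ρb.character := ⟨n, ρb, rfl⟩
  have hirr : IsIrrCharacter (G ⧸ N) ρb.character := by
    apply Cfsg.Agent.Glaub.isIrrCharacter_of_comp_irr (QuotientGroup.mk' N) hX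
    have he : (fun a => ρb.character (QuotientGroup.mk' N a)) = (β : G → ℂ) := funext hcomp
    rw [he]
    exact β.2
  exact ⟨⟨_, hirr⟩, fun g => (hcomp g).symm⟩

theorem stmtInvCore (p : ℕ) [Fact p.Prime] (hCE : StmtCE.{u}) (hTA : StmtTransA.{u})
    (hTB : StmtTransB.{u} p) (hGG : StmtGroupGamma.{u} p) (hQV : StmtQV.{u} p)
    (hHC : StmtHC.{u} p) : StmtInvCore.{u} p := by
  intro G _ _ K hK _ hsolv hKdef θ hinv U hU hUθ χ hχ ψ hψθ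
  classical
  obtain ⟨Ĝ, _, _, π, θt, ν, hce⟩ := hCE G K θ hinv
  have hKc : (Nat.card K).Coprime p := hKdef ▸ Cfsg.Agent.H80.pPrimeCore_coprime p G
  have hν1 : ν 1 = 1 := by
    have h1 : π (1 : Ĝ) ∈ K := by rw [map_one]; exact K.one_mem
    have h := hce.nu_mul 1 1 h1 h1
    rw [mul_one] at h
    have hne := hce.nu_ne 1 h1
    have h2 : ν 1 * 1 = ν 1 * ν 1 := by rw [mul_one]; exact h
    exact (mul_left_cancel₀ hne h2).symm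
  let L : Subgroup Ĝ :=
    { carrier := {x | π x ∈ K ∧ ν x = 1}
      one_mem' := ⟨by rw [map_one]; exact K.one_mem, hν1⟩
      mul_mem' := by
        rintro x y ⟨hx, hx1⟩ ⟨hy, hy1⟩
        refine ⟨by rw [map_mul]; exact K.mul_mem hx hy, ?_⟩
        rw [hce.nu_mul x y hx hy, hx1, hy1, mul_one]
      inv_mem' := by
        rintro x ⟨hx, hx1⟩
        have hxi : π x⁻¹ ∈ K := by rw [map_inv]; exact K.inv_mem hx
        refine ⟨hxi, ?_⟩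
        have h := hce.nu_mul x⁻¹ x hxi hx
        rw [inv_mul_cancel, hν1, hx1, mul_one] at h
        exact h.symm }
  have hL : ∀ x : Ĝ, x ∈ L ↔ π x ∈ K ∧ ν x = 1 := fun x => Iff.rfl
  haveI hLn : L.Normal := by
    constructor
    rintro x ⟨hx, hx1⟩ y
    refine ⟨?_, ?_⟩
    · rw [map_mul, map_mul, map_inv]
      exact hK.conj_mem _ hx _
    · rw [hce.nu_conj x y hx]
      exact hx1
  have hÛ := hTB G K θ Ĝ π θt ν hce hKc U hU hUθ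
  have hŪ := hQV Ĝ L _ hÛ
  obtain ⟨hΓs, hΓc, hΓle⟩ := hGG G K (θ : K → ℂ) Ĝ π θt ν L hce hsolv hKdef hL
  have hCU := hHC (Ĝ ⧸ L) hΓs hΓc
  obtain ⟨βχ, hβχ1, hβχ2⟩ := hTA G K θ Ĝ π θt ν hce χ (hUθ χ hχ)
  obtain ⟨βψ, hβψ1, hβψ2⟩ := hTA G K θ Ĝ π θt ν hce ψ hψθ
  have hβχmem : βχ ∈ liftSet K Ĝ π θt ν U := ⟨hβχ2, χ, hχ, hβχ1⟩
  have hdesc : ∀ β : IrrCharacter Ĝ,
      (∀ x k : Ĝ, π k ∈ K → (β : Ĝ → ℂ) (x * k) = (ν k)⁻¹ * (β : Ĝ → ℂ) x) →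
      ∃ ξ : IrrCharacter (Ĝ ⧸ L),
        ∀ g : Ĝ, (β : Ĝ → ℂ) g = (ξ : Ĝ ⧸ L → ℂ) (QuotientGroup.mk' L g) := by
    intro β hβ
    apply exists_descent L β
    rintro l ⟨hl, hl1⟩
    have h := hβ 1 l hl
    rw [one_mul, hl1, inv_one, one_mul] at h
    exact h
  obtain ⟨ξχ, hξχ⟩ := hdesc βχ hβχ2
  obtain ⟨ξψ, hξψ⟩ := hdesc βψ hβψ2
  have hξχmem : ξχ ∈ quotSet L (liftSet K Ĝ π θt ν U) := ⟨βχ, hβχmem, hξχ⟩
  have hval : ∀ (β : IrrCharacter Ĝ) (ξ : IrrCharacter (Ĝ ⧸ L)),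
      (∀ x k : Ĝ, π k ∈ K → (β : Ĝ → ℂ) (x * k) = (ν k)⁻¹ * (β : Ĝ → ℂ) x) →
      (∀ g : Ĝ, (β : Ĝ → ℂ) g = (ξ : Ĝ ⧸ L → ℂ) (QuotientGroup.mk' L g)) →
      ∀ k : Ĝ, π k ∈ K →
        (ξ : Ĝ ⧸ L → ℂ) (QuotientGroup.mk' L k) = (ν k)⁻¹ * (ξ : Ĝ ⧸ L → ℂ) 1 := by
    intro β ξ hβ hξ k hk
    have h := hβ 1 k hk
    rw [one_mul] at h
    have h1 := hξ 1
    rw [map_one] at h1
    rw [← hξ k, h, h1]
  have hpair : ∀ ξ₁ ∈ quotSet L (liftSet K Ĝ π θt ν U),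
      ∀ ξ₂ ∈ quotSet L (liftSet K Ĝ π θt ν U),
      SameCentral (pPrimeCore p (Ĝ ⧸ L)) (ξ₁ : Ĝ ⧸ L → ℂ) (ξ₂ : Ĝ ⧸ L → ℂ) := by
    rintro ξ₁ ⟨β₁, ⟨hβ₁, _⟩, h₁⟩ ξ₂ ⟨β₂, ⟨hβ₂, _⟩, h₂⟩ zb hzb
    obtain ⟨k, hk, rfl⟩ := hΓle hzb
    have hk' : π k ∈ K := Subgroup.mem_comap.mp hk
    rw [hval β₁ ξ₁ hβ₁ h₁ k hk', hval β₂ ξ₂ hβ₂ h₂ k hk']
    ring
  have hsc : SameCentral (pPrimeCore p (Ĝ ⧸ L)) (ξχ : Ĝ ⧸ L → ℂ) (ξψ : Ĝ ⧸ L → ℂ) := by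
    intro zb hzb
    obtain ⟨k, hk, rfl⟩ := hΓle hzb
    have hk' : π k ∈ K := Subgroup.mem_comap.mp hk
    rw [hval βχ ξχ hβχ2 hξχ k hk', hval βψ ξψ hβψ2 hξψ k hk']
    ring
  have hmem := hCU _ hŪ hpair ξχ hξχmem ξψ hsc
  obtain ⟨β', ⟨_, χ', hχ', hχ'1⟩, hβ'⟩ := hmem
  have hfun : ∀ x : Ĝ, (β' : Ĝ → ℂ) x = (βψ : Ĝ → ℂ) x := fun x => by rw [hβ' x, hξψ x]
  have hχψ : (χ' : G → ℂ) = (ψ : G → ℂ) := by
    funext g
    obtain ⟨x, rfl⟩ := hce.surj g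
    rw [hχ'1 x, hfun x, ← hβψ1 x]
  have he : χ' = ψ := Subtype.ext hχψ
  rw [← he]
  exact hχ'

end Cfsg.Agent.H79.Hc
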