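import Cfsg.Agent.H79.HcMain
import Cfsg.Agent.H79.HcHC
import Cfsg.Agent.H79.HcInvCore
import Cfsg.Agent.H20.HcAvg
import Cfsg.Agent.H20.HcDet
import Cfsg.Agent.H8.HcRegDet
import Cfsg.Agent.H81.HcLI
import Cfsg.Agent.H81.HcVB
import Cfsg.Agent.H81.HcPoly
import Cfsg.Agent.H81.HcSplitCentral
import Cfsg.Agent.H32.HcInd
import Cfsg.Agent.H32.HcSplitPi
import Cfsg.Agent.H75.HcGT0
import Cfsg.Agent.H75.HcGTc
import Cfsg.Agent.H75.HcGT
import Cfsg.Agent.H40.HcGTa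
import Cfsg.Agent.H40.HcGTb
import Cfsg.Agent.H5.HcBlock
import Cfsg.Agent.H5.HcNV
import Cfsg.Agent.H82.HcTransA
import Cfsg.Agent.H82.HcTransB
import Cfsg.Agent.H82.HcFR
import Cfsg.Agent.H8.HcCE
import Cfsg.Agent.H28.HcGroupGamma

/-!
# S4440: all pieces put together (helper79)

In a finite `p`-solvable group, a set `U` of irreducible characters whose weighted sum
`Σ_{χ ∈ U} χ(1) χ` vanishes at the `p`-singular elements is a union of `p`-blocks.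
-/

set_option autoImplicit false

namespace Cfsg.Agent.H79.Hc

open Cfsg

universe u

/-- The central case (`O_{p'}` central). -/
theorem hc_central (p : ℕ) [Fact p.Prime] : StmtHC.{u} p :=
  stmtHC p
    (Cfsg.Agent.H75.Hc.stmtGT p (Cfsg.Agent.H75.Hc.stmtGT0 p) (Cfsg.Agent.H40.Hc.stmtGTa p)
      (Cfsg.Agent.H40.Hc.stmtGTb p) (Cfsg.Agent.H75.Hc.stmtGTc p))
    (Cfsg.Agent.H20.Hc.stmtQV p)
    (Cfsg.Agent.H20.Hc.stmtDet p Cfsg.Agent.H20.Hc.stmtAvg (Cfsg.Agent.H8.Hc.stmtRegDet p)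
      Cfsg.Agent.H81.Hc.stmtLI)
    (Cfsg.Agent.H81.Hc.stmtVB p)
    (Cfsg.Agent.H81.Hc.stmtSplitCentral p (Cfsg.Agent.H32.Hc.stmtInd p)
      Cfsg.Agent.H32.Hc.stmtSplitPi Cfsg.Agent.H81.Hc.stmtPoly)

/-- The case of an invariant character of `O_{p'}(G)`. -/
theorem hc_invCore (p : ℕ) [Fact p.Prime] : StmtInvCore.{u} p :=
  stmtInvCore p Cfsg.Agent.H8.Hc.stmtCE Cfsg.Agent.H82.Hc.stmtTransA
    (Cfsg.Agent.H82.Hc.stmtTransB p Cfsg.Agent.H82.Hc.stmtTransA Cfsg.Agent.H5.Hc.stmtNV)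
    (Cfsg.Agent.H28.Hc.stmtGroupGamma p) (Cfsg.Agent.H20.Hc.stmtQV p) (hc_central p)

/-- **S4440.** -/
theorem hc_final (p : ℕ) [Fact p.Prime] (M : Ideal AlgInt) (hM : IsPModular p M)
    (G : Type u) [Group G] [Finite G] (hsolv : IsPSolvable p G) : UnionProp p M G :=
  hc_main p M hM (Cfsg.Agent.H5.Hc.stmtBlockProj p M)
    (Cfsg.Agent.H82.Hc.stmtFR p M (Cfsg.Agent.H5.Hc.stmtBlockPart p M)) (hc_invCore p)
    (Nat.card G) G rfl hsolv

end Cfsg.Agent.H79.Hc
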