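import Cfsg.Agent.H79.HcDefs
import Cfsg.Agent.H79.NormalBlocks
import Cfsg.Agent.H73.PSolv
import Cfsg.Agent.H80.Block
import Cfsg.Agent.H80.GroupBasic
import Cfsg.Agent.Lib.CliffordCorr

/-!
# S4440: the final induction (helper79)

From the block projection (`StmtBlockProj`), the Fong–Reynolds step (`StmtFR`) and the case of an
invariant character of `O_{p'}(G)` (`StmtInvCore`).
-/

set_option autoImplicit false
set_option linter.style.haveILetI false

namespace Cfsg.Agent.H79.Hc

open Cfsg Cfsg.Agent.H20 Cfsg.Agent.H4 Cfsg.Agent.Clifford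

universe u

theorem hc_main (p : ℕ) [Fact p.Prime] (M : Ideal AlgInt) (hM : IsPModular p M)
    (hA : StmtBlockProj.{u} p M) (hFR : StmtFR.{u} p M) (hInv : StmtInvCore.{u} p) :
    ∀ (n : ℕ) (G : Type u) [Group G] [Finite G], Nat.card G = n → IsPSolvable p G →
      UnionProp p M G := by
  intro n
  induction n using Nat.strong_induction_on with
  | _ n ih =>
    intro G _ _ hn hsolv U hU χ hχ ψ hψ
    classical
    have hp : p.Prime := Fact.out
    have hMp := isPrime_of_isPModular hM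
    haveI : Fintype G := Fintype.ofFinite G
    obtain ⟨K, hKdef⟩ : ∃ K : Subgroup G, K = pPrimeCore p G := ⟨_, rfl⟩
    haveI hKn : K.Normal := hKdef ▸ Cfsg.Agent.H80.pPrimeCore_normal p G
    haveI : Fintype K := Fintype.ofFinite K
    have hKc : (Nat.card K).Coprime p := hKdef ▸ Cfsg.Agent.H80.pPrimeCore_coprime p G
    have hKnd : ¬ p ∣ Nat.card K := (Nat.Prime.coprime_iff_not_dvd hp).mp hKc.symm
    obtain ⟨θ, hθ⟩ := Cfsg.Agent.H79.exists_constituent_res K χ
    by_cases hT : inertia K (θ : K → ℂ) = ⊤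
    · -- `θ` is invariant
      have hinv : ∀ (g : G) (n : K),
          (θ : K → ℂ) ⟨g * n * g⁻¹, hKn.conj_mem n n.2 g⟩ = (θ : K → ℂ) n := by
        intro g
        have hg : g ∈ inertia K (θ : K → ℂ) := hT ▸ Subgroup.mem_top g
        exact (mem_inertia_iff K).mp hg
      have hU₁ := hA G hM U hU χ
      have hsub : ∀ χ' ∈ U ∩ blockOf M (χ : G → ℂ),
          classInner (fun n : K => (χ' : G → ℂ) n) (θ : K → ℂ) ≠ 0 := fun χ' h =>
        Cfsg.Agent.H79.over_of_sameBlock K hM hKnd χ χ' h.2 θ hθ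
      have hψθ := Cfsg.Agent.H79.over_of_sameBlock K hM hKnd χ ψ hψ θ hθ
      have hχ₁ : χ ∈ U ∩ blockOf M (χ : G → ℂ) :=
        ⟨hχ, Cfsg.Agent.H80.sameBlock_refl hMp _⟩
      exact (hInv G K hsolv hKdef θ hinv _ hU₁ hsub χ hχ₁ ψ hψθ).1
    · -- Fong–Reynolds
      have hlt : Nat.card (inertia K (θ : K → ℂ)) < Nat.card G := by
        have hle := Subgroup.card_le_card_group (inertia K (θ : K → ℂ))
        rcases lt_or_eq_of_le hle with h | h
        · exact h
        · exact absurd ((Subgroup.card_eq_iff_eq_top _).mp h) hT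
      have hTs : IsPSolvable p (inertia K (θ : K → ℂ)) :=
        Cfsg.Agent.H73.isPSolvable_subgroup hsolv _
      have hTU : UnionProp p M (inertia K (θ : K → ℂ)) :=
        ih _ (hn ▸ hlt) _ rfl hTs
      exact hFR G K (inertia K (θ : K → ℂ)) hM hKc θ (fun g => mem_inertia_iff K) hTU U hU χ hχ
        hθ ψ hψ

end Cfsg.Agent.H79.Hc
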