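import Cfsg.Agent.H79.HtMain
import Cfsg.Agent.H8.HcCE
import Cfsg.Agent.H82.HcTransA
import Cfsg.Agent.H28.HcGroupGamma
import Cfsg.Agent.H77.HtCentral
import Cfsg.Agent.H77.HtSylowCenter
import Cfsg.Agent.H82.HtFR
import Cfsg.Agent.H82.HtInv

/-!
# S4439: all pieces put together (helper79)

In a finite `p`-solvable group, a character in a block with defect group `P` has height at most
`ν_p(|P : Z(P)|)`.
-/

set_option autoImplicit false

namespace Cfsg.Agent.H79.Hc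

open Cfsg

universe u

/-- Characters over an invariant character of `O_{p'}(G)`: `ν_p(χ(1)) ≤ ν_p(|P : Z(P)|)`. -/
theorem ht_inv (p : ℕ) [Fact p.Prime] : StmtHtInv.{u} p :=
  Cfsg.Agent.H82.Hc.stmtHtInv p Cfsg.Agent.H8.Hc.stmtCE Cfsg.Agent.H82.Hc.stmtTransA
    (Cfsg.Agent.H28.Hc.stmtGroupGamma p) (Cfsg.Agent.H77.Hc.stmtHtCentral p)
    (Cfsg.Agent.H77.Hc.stmtSylowCenter p)

/-- **S4439.** -/
theorem ht_final (p : ℕ) [Fact p.Prime] (M : Ideal AlgInt) (hM : IsPModular p M)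
    (G : Type u) [Group G] [Finite G] (hsolv : IsPSolvable p G) : HtProp p M G :=
  ht_main p M hM (Cfsg.Agent.H82.Hc.stmtHtFR p M) (ht_inv p) (Nat.card G) G rfl hsolv

end Cfsg.Agent.H79.Hc
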