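import Cfsg.Agent.H79.HtDefs
import Cfsg.Agent.H79.NormalBlocks
import Cfsg.Agent.H73.PSolv
import Cfsg.Agent.H80.Block
import Cfsg.Agent.H80.GroupBasic
import Cfsg.Agent.Lib.CliffordCorr
import Cfsg.Agent.S4492

/-!
# S4439: the final induction (helper79)

From the Fong–Reynolds step for heights (`StmtHtFR`) and the case of an invariant character of
`O_{p'}(G)` (`StmtHtInv`), using Fong's theorem S4492.
-/

set_option autoImplicit false
set_option linter.style.haveILetI false

namespace Cfsg.Agent.H79.Hc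

open Cfsg Cfsg.Agent.H20 Cfsg.Agent.H4 Cfsg.Agent.Clifford

universe u

theorem ht_main (p : ℕ) [Fact p.Prime] (M : Ideal AlgInt) (hM : IsPModular p M)
    (hFR : StmtHtFR.{u} p M) (hInv : StmtHtInv.{u} p) :
    ∀ (n : ℕ) (G : Type u) [Group G] [Finite G], Nat.card G = n → IsPSolvable p G →
      HtProp p M G := by
  intro n
  induction n using Nat.strong_induction_on with
  | _ n ih =>
    intro G _ _ hn hsolv B hB P hP χ hχ
    classical
    have hp : p.Prime := Fact.out
    have hMp := isPrime_of_isPModular hM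
    haveI : Fintype G := Fintype.ofFinite G
    obtain ⟨K, hKdef⟩ : ∃ K : Subgroup G, K = pPrimeCore p G := ⟨_, rfl⟩
    haveI hKn : K.Normal := hKdef ▸ Cfsg.Agent.H80.pPrimeCore_normal p G
    haveI : Fintype K := Fintype.ofFinite K
    have hKc : (Nat.card K).Coprime p := hKdef ▸ Cfsg.Agent.H80.pPrimeCore_coprime p G
    obtain ⟨θ, hθ⟩ := Cfsg.Agent.H79.exists_constituent_res K χ
    by_cases hT : Cfsg.Agent.Clifford.inertia K (θ : K → ℂ) = ⊤
    · -- `θ` is invariant
      have hinv : ∀ (g : G) (n : K),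
          (θ : K → ℂ) ⟨g * n * g⁻¹, hKn.conj_mem n n.2 g⟩ = (θ : K → ℂ) n := by
        intro g
        have hg : g ∈ Cfsg.Agent.Clifford.inertia K (θ : K → ℂ) := hT ▸ Subgroup.mem_top g
        exact (Cfsg.Agent.Clifford.mem_inertia_iff K).mp hg
      obtain ⟨B₀, hB₀, hB₀mem, _, hB₀def⟩ :=
        Cfsg.Agent.S4492.result p M hM hsolv K hKdef θ hinv
      have hχB₀ : χ ∈ B₀ := (hB₀mem χ).mpr hθ
      have hBB₀ : B = B₀ := by
        obtain ⟨χ₁, rfl⟩ := hB
        obtain ⟨χ₂, rfl⟩ := hB₀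
        rw [← Cfsg.Agent.H80.blockOf_eq_of_mem hMp hχ,
          ← Cfsg.Agent.H80.blockOf_eq_of_mem hMp hχB₀]
      rw [hBB₀] at hP
      obtain ⟨P₀, rfl⟩ := hB₀def P hP
      have h1 : blockHeight p B (χ : G → ℂ) ≤ (charDegree (χ : G → ℂ)).factorization p :=
        Nat.sub_le _ _
      exact h1.trans (hInv G K hsolv hKdef θ hinv χ hθ P₀)
    · -- Fong–Reynolds
      have hlt : Nat.card (Cfsg.Agent.Clifford.inertia K (θ : K → ℂ)) < Nat.card G := by
        have hle := Subgroup.card_le_card_group (Cfsg.Agent.Clifford.inertia K (θ : K → ℂ))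
        rcases lt_or_eq_of_le hle with h | h
        · exact h
        · exact absurd ((Subgroup.card_eq_iff_eq_top _).mp h) hT
      have hTs : IsPSolvable p (Cfsg.Agent.Clifford.inertia K (θ : K → ℂ)) :=
        Cfsg.Agent.H73.isPSolvable_subgroup hsolv _
      have hTU : HtProp p M (Cfsg.Agent.Clifford.inertia K (θ : K → ℂ)) :=
        ih _ (hn ▸ hlt) _ rfl hTs
      exact hFR G K (Cfsg.Agent.Clifford.inertia K (θ : K → ℂ)) hM hKc θ (fun g => Cfsg.Agent.Clifford.mem_inertia_iff K) hTU B hB P hP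
        χ hχ hθ

end Cfsg.Agent.H79.Hc
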