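import Cfsg.Agent.H52.JxDefs
import Cfsg.Agent.H48.JyV
import Cfsg.Agent.H62.JyHU

/-!
# S2953, JY-KILL2, piece (X3) JX-VNE

In the residual configuration `RCtx2 S M K L T' K' L'`, the four-group `V = Ω₁Z(O₂(L))` is
non-trivial and lies in `T'`: `V ≤ S`, `S` acts on `V` fixing `z`, so `[S, V] ≤ ⟨z⟩ ≤ O₂(L')`
and `V` normalizes `O₂(L')`; the normalizer of `O₂(L')` lies in `L'` and `S ⊓ L' = T'`.
-/

set_option autoImplicit false
open Cfsg

universe u

namespace Cfsg.Agent.H79.Jx

open Cfsg.Agent.H64.Jz Cfsg.Agent.H64.Jy Cfsg.Agent.H52.Jx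

/-- The elements of a four-group of exponent 2. -/
theorem four_elts {G : Type u} [Group G] (V : Subgroup G) (h4 : Nat.card ↥V = 4)
    (hV2 : ∀ v ∈ V, v * v = 1) (z v : G) (hz : z ∈ V) (hv : v ∈ V) (hz1 : z ≠ 1) (hv1 : v ≠ 1)
    (hvz : v ≠ z) : ∀ u ∈ V, u = 1 ∨ u = z ∨ u = v ∨ u = v * z := by
  classical
  intro u hu
  have : Finite ↥V := Nat.finite_of_card_ne_zero (by rw [h4]; norm_num)
  have : Fintype ↥V := Fintype.ofFinite _
  have hc : Fintype.card ↥V = 4 := by rw [← Nat.card_eq_fintype_card]; exact h4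
  have hvz1 : v * z ≠ 1 := by
    intro h
    have hzz := hV2 z hz
    have : v = z := by
      calc v = v * (z * z) := by rw [hzz, mul_one]
        _ = (v * z) * z := by rw [mul_assoc]
        _ = z := by rw [h, one_mul]
    exact hvz this
  have hvzz : v * z ≠ z := by
    intro h
    exact hv1 (by simpa using h)
  have hvzv : v * z ≠ v := by
    intro h
    exact hz1 (by simpa using h)
  by_contra hcon
  push_neg at hcon
  obtain ⟨hu1, huz, huv, huvz⟩ := hcon
  let f : Fin 5 → ↥V := ![⟨u, hu⟩, 1, ⟨z, hz⟩, ⟨v, hv⟩, ⟨v * z, mul_mem hv hz⟩]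
  have hf : Function.Injective f := by
    intro i j hij
    fin_cases i <;> fin_cases j <;>
      simp [f, Subtype.ext_iff] at hij ⊢ <;>
      first
        | exact absurd hij hu1 | exact absurd hij huz | exact absurd hij huv
        | exact absurd hij huvz | exact absurd hij.symm hu1 | exact absurd hij.symm huz
        | exact absurd hij.symm huv | exact absurd hij.symm huvz
        | exact absurd hij hz1 | exact absurd hij hv1 | exact absurd hij hvz
        | exact absurd hij hvz1 | exact absurd hij hvzz | exact absurd hij hvzv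
        | exact absurd hij.symm hz1 | exact absurd hij.symm hv1 | exact absurd hij.symm hvz
        | exact absurd hij.symm hvz1 | exact absurd hij.symm hvzz | exact absurd hij.symm hvzv
  have := Fintype.card_le_of_injective f hf
  rw [hc] at this
  simp at this

theorem vne_omega_le_inf {G : Type u} [Group G] (X : Subgroup G) :
    omegaCenterOf X ≤ X ⊓ Subgroup.centralizer (X : Set G) := by
  unfold omegaCenterOf omegaOne
  rw [Subgroup.closure_le]
  intro x hx
  exact hx.1

/-- (X3) JX-VNE. -/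
theorem vne : StVne.{u} := by
  intro G _ _ S M K L T' K' L' hR
  obtain ⟨hB, hNS, hB', hne⟩ := hR
  obtain ⟨h4, hV2, hNV, ⟨z, hzV, hz1, hzS, hzL', -, -⟩, -, -⟩ :=
    Cfsg.Agent.H48.Jy.vfacts S M K L T' K' L' hB hNS hB' hne
  have hVne : Vof L ≠ ⊥ := by
    intro h0
    have hzV' : z ∈ Vof L := hzV
    rw [h0] at hzV'
    exact hz1 (Subgroup.mem_bot.mp hzV')
  refine ⟨hVne, ?_⟩
  have hSL : (S : Subgroup G) ≤ L := Subgroup.le_normalizer.trans hNS
  have hsylS : IsSylowTwoIn (S : Subgroup G) L :=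
    Cfsg.Agent.H7.JyNotin.sylIn_of_base S M (S : Subgroup G) K L hB
  have hVS : Vof L ≤ (S : Subgroup G) :=
    ((vne_omega_le_inf (pCoreOf 2 L)).trans inf_le_left).trans
      (Cfsg.Agent.Helper55.J48.pCoreOf_le_of_sylowIn hsylS)
  have hzc : ∀ s ∈ (S : Subgroup G), s * z = z * s := by
    intro s hs
    have h1 := (vne_omega_le_inf (S : Subgroup G)) hzS
    have h2 : z ∈ Subgroup.centralizer ((S : Subgroup G) : Set G) := h1.2
    exact Subgroup.mem_centralizer_iff.mp h2 s hs
  have hact : ∀ s ∈ (S : Subgroup G), ∀ v ∈ Vof L,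
      s * v * s⁻¹ = v ∨ s * v * s⁻¹ = v * z := by
    intro s hs v hv
    have hsN : s ∈ Subgroup.normalizer (Vof L : Set G) := by rw [hNV]; exact hSL hs
    have hc : s * v * s⁻¹ ∈ Vof L := (Subgroup.mem_normalizer_iff.mp hsN v).mp hv
    by_cases hv1 : v = 1
    · left; rw [hv1]; group
    by_cases hvz : v = z
    · left; rw [hvz, hzc s hs]; group
    have hvv : v = s⁻¹ * (s * v * s⁻¹) * s := by group
    rcases four_elts (Vof L) h4 hV2 z v hzV hv hz1 hv1 hvz _ hc with h | h | h | h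
    · exfalso; apply hv1
      rw [hvv, h]; group
    · exfalso; apply hvz
      rw [hvv, h]
      have h3 := hzc s hs
      calc s⁻¹ * z * s = s⁻¹ * (z * s) := by group
        _ = s⁻¹ * (s * z) := by rw [h3]
        _ = z := by group
    · left; exact h
    · right; exact h
  have hsylT' : IsSylowTwoIn T' L' := Cfsg.Agent.H7.JyNotin.sylIn_of_base S L T' K' L' hB'
  have hQ'T' : pCoreOf 2 L' ≤ T' := Cfsg.Agent.Helper55.J48.pCoreOf_le_of_sylowIn hsylT'
  have hT'S : T' ≤ (S : Subgroup G) := hB'.2.2.2.2.2.1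
  have key : ∀ w ∈ Vof L, ∀ q ∈ pCoreOf 2 L', w * q * w⁻¹ ∈ pCoreOf 2 L' := by
    intro w hw q hq
    have hqS : q ∈ (S : Subgroup G) := hT'S (hQ'T' hq)
    rcases hact q hqS w⁻¹ (inv_mem hw) with h | h
    · have e : w * q * w⁻¹ = q := by
        calc w * q * w⁻¹ = w * (q * w⁻¹ * q⁻¹) * q := by group
          _ = w * w⁻¹ * q := by rw [h]
          _ = q := by group
      rw [e]; exact hq
    · have e : w * q * w⁻¹ = z * q := by
        calc w * q * w⁻¹ = w * (q * w⁻¹ * q⁻¹) * q := by group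
          _ = w * (w⁻¹ * z) * q := by rw [h]
          _ = z * q := by group
      rw [e]; exact mul_mem hzL' hq
  have hVn : Vof L ≤ Subgroup.normalizer (pCoreOf 2 L' : Set G) := by
    intro v hv
    rw [Subgroup.mem_normalizer_iff]
    intro q
    constructor
    · exact key v hv q
    · intro h
      have h5 := key v⁻¹ (inv_mem hv) _ h
      have e : v⁻¹ * (v * q * v⁻¹) * v⁻¹⁻¹ = q := by group
      rw [e] at h5
      exact h5
  have hQ'ne : pCoreOf 2 L' ≠ ⊥ := by
    intro h0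
    rw [h0] at hzL'
    exact hz1 (Subgroup.mem_bot.mp hzL')
  have hKJL' : K' ⊔ thompsonSubgroupOf 2 T' ≤ L' := hB'.2.2.2.2.2.2.2.2
  have hL'N : L' ≤ Subgroup.normalizer (pCoreOf 2 L' : Set G) :=
    Cfsg.Agent.Helper55.J48.le_normalizer_pCoreOf L'
  have hNL' : Subgroup.normalizer (pCoreOf 2 L' : Set G) ≤ L' :=
    Cfsg.Agent.H62.Jy.norm_le S L T' K' L' hB' (pCoreOf 2 L')
      (Cfsg.Agent.Helper55.Uq.pCoreOf_isPGroup L') hQ'ne
      ((le_sup_left.trans hKJL').trans hL'N) ((le_sup_right.trans hKJL').trans hL'N)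
  have hinf := Cfsg.Agent.H7.JyNotin.inf_eq S L T' K' L' hB'
  intro v hv
  rw [← hinf]
  exact Subgroup.mem_inf.mpr ⟨hVS hv, hNL' (hVn hv)⟩

end Cfsg.Agent.H79.Jx

example : Cfsg.Agent.H52.Jx.StVne.{u} := Cfsg.Agent.H79.Jx.vne

#print axioms Cfsg.Agent.H79.Jx.vne
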