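import Cfsg.Agent.H64.JyDefs
import Cfsg.Agent.Helper55.J48
import Cfsg.Agent.S2949
import Cfsg.Agent.S2950

set_option autoImplicit false
open Cfsg

/-!
# JY-START (piece of S2953): a configuration exists

`T` is conjugated by `m ∈ M` into the Sylow 2-subgroup `m • S`, whose `N_G(J(·))` still lies in
`M`; `K` comes from S2949 and the maximal 2-local `L` over `K ⊔ J(T)` from S2950.
-/

namespace Cfsg.Agent.H79.Jy

open Cfsg.Agent.H64.Jz Cfsg.Agent.Helper55 Cfsg.Agent.Helper55.ThJ Cfsg.Agent.Helper55.J48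

universe u

theorem start : Cfsg.Agent.H64.Jy.StStart.{u} := by
  intro G _ _ hZN hO S M hM hMJ T hT
  have hZN' := hZN
  obtain ⟨hL, hN, hZ⟩ := hZN'
  have hT2 : IsPGroup 2 ↥T := hT.1.1
  have hTM : T ≤ M := hT.1.2.2.1
  have hSM : (S : Subgroup G) ≤ M :=
    (Subgroup.le_normalizer.trans (normalizer_le (S : Subgroup G))).trans hMJ
  obtain ⟨m, hmM, hTS'⟩ := exists_sylow_conj S M hSM T hT2 hTM
  have hMJ' : Subgroup.normalizer
      (thompsonSubgroupOf 2 ((m • S : Sylow 2 G) : Subgroup G) : Set G) ≤ M := by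
    have h1 := Cfsg.Agent.H14.thompsonSubgroupOf_conj 2 m (S : Subgroup G)
    have h2 : ((m • S : Sylow 2 G) : Subgroup G) =
        (S : Subgroup G).map (MulAut.conj m).toMonoidHom := by
      rw [Sylow.coe_subgroup_smul]
      rfl
    rw [h2, ← h1]
    exact normalizer_conj_le _ m hmM hMJ
  obtain ⟨K, hK⟩ := Cfsg.Agent.S2949.result hL hN hZ hO S M hM hMJ T hT
  obtain ⟨L, hLmax, hKJ, -⟩ := Cfsg.Agent.S2950.result hL hN hZ hO S M hM hMJ T hT K hK
  refine ⟨m • S, K, L, ?_⟩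
  unfold Base
  exact ⟨hZN, hO, hM, hMJ', hT, hTS', hK, hLmax, hKJ⟩

example : Cfsg.Agent.H64.Jy.StStart.{u} := start.{u}

end Cfsg.Agent.H79.Jy

#print axioms Cfsg.Agent.H79.Jy.start
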