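import Mathlib
import Cfsg.Agent.H86.NdDefs

/-!
# ND-UEX4M (helper79, for helper86): minus space, `k` odd: an isometry of Jordan type
`(3, 1, 2^(k-1))` with a fixed nonsingular vector of prescribed norm class.

The isometry is `1 + N` with `N` given by explicit coordinate formulas (a Siegel transformation
on `⟨e₀, v, f₀⟩` times an alternating monomial unipotent on the other hyperbolic pairs).
-/

set_option autoImplicit false

namespace Cfsg.Agent.H79.Nd

open Cfsg.Agent.H86.Nd Module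

universe u

section Gen

variable {F : Type u} [Field F] {k : ℕ}

/-- polar form of the binary form `x² + a x y + b y²` in coordinates -/
def bP (a b u0 u1 v0 v1 : F) : F := 2 * u0 * v0 + a * (u0 * v1 + u1 * v0) + 2 * b * u1 * v1

/-- the binary form -/
def qP (a b v0 v1 : F) : F := v0 ^ 2 + a * v0 * v1 + b * v1 ^ 2

/-- the nilpotent part `N` -/
def nm (a b v0 v1 : F) (i₀ : Fin k) (σ : Fin k → Fin k) (s : Fin k → F) :
    (MI k → F) →ₗ[F] (MI k → F) where
  toFun u := fun idx => match idx with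
    | Sum.inl (Sum.inl i) => s i * u (Sum.inl (Sum.inr (σ i))) +
        (if i = i₀ then -(bP a b (u (Sum.inr 0)) (u (Sum.inr 1)) v0 v1)
          - qP a b v0 v1 * u (Sum.inl (Sum.inr i₀)) else 0)
    | Sum.inl (Sum.inr _) => 0
    | Sum.inr j => u (Sum.inl (Sum.inr i₀)) * (if j = 0 then v0 else v1)
  map_add' u w := by
    funext idx
    rcases idx with ((i | i) | j)
    · simp only [Pi.add_apply, bP]; split_ifs <;> ring
    · simp
    · simp only [Pi.add_apply]; ring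
  map_smul' c u := by
    funext idx
    rcases idx with ((i | i) | j)
    · simp only [Pi.smul_apply, smul_eq_mul, RingHom.id_apply, bP]; split_ifs <;> ring
    · simp
    · simp only [Pi.smul_apply, smul_eq_mul, RingHom.id_apply]; ring

variable (a b v0 v1 : F) (i₀ : Fin k) (σ : Fin k → Fin k) (s : Fin k → F)

theorem nm_ll (u : MI k → F) (i : Fin k) :
    nm a b v0 v1 i₀ σ s u (Sum.inl (Sum.inl i)) = s i * u (Sum.inl (Sum.inr (σ i))) +
        (if i = i₀ then -(bP a b (u (Sum.inr 0)) (u (Sum.inr 1)) v0 v1)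
          - qP a b v0 v1 * u (Sum.inl (Sum.inr i₀)) else 0) := rfl

theorem nm_lr (u : MI k → F) (i : Fin k) :
    nm a b v0 v1 i₀ σ s u (Sum.inl (Sum.inr i)) = 0 := rfl

theorem nm_r (u : MI k → F) (j : Fin 2) :
    nm a b v0 v1 i₀ σ s u (Sum.inr j) = u (Sum.inl (Sum.inr i₀)) * (if j = 0 then v0 else v1) :=
  rfl

theorem alt_sum_zero (h2 : (2 : F) ≠ 0) (hσ : ∀ i, σ (σ i) = i) (hs : ∀ i, s (σ i) = - s i)
    (g : Fin k → F) : ∑ i, s i * g (σ i) * g i = 0 := by
  have h1 : ∑ i, s i * g (σ i) * g i = ∑ i, s (σ i) * g (σ (σ i)) * g (σ i) :=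
    (Equiv.sum_comp (Function.Involutive.toPerm σ hσ) (fun i => s i * g (σ i) * g i)).symm
  have h3 : ∑ i, s (σ i) * g (σ (σ i)) * g (σ i) = - ∑ i, s i * g (σ i) * g i := by
    rw [← Finset.sum_neg_distrib]
    refine Finset.sum_congr rfl (fun i _ => ?_)
    rw [hs, hσ]; ring
  have h4 : (2 : F) * ∑ i, s i * g (σ i) * g i = 0 := by linear_combination h1 + h3
  exact (mul_eq_zero.mp h4).resolve_left h2

/-- `1 + N` is an isometry. -/
theorem nm_isom (h2 : (2 : F) ≠ 0) (hσ : ∀ i, σ (σ i) = i) (hs : ∀ i, s (σ i) = - s i)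
    (u : MI k → F) :
    Cfsg.quadFormMinus k F a b (u + nm a b v0 v1 i₀ σ s u) = Cfsg.quadFormMinus k F a b u := by
  unfold Cfsg.quadFormMinus
  simp only [Pi.add_apply, nm_ll, nm_lr, nm_r, add_zero]
  have hsum : ∑ i : Fin k, (u (Sum.inl (Sum.inl i)) + (s i * u (Sum.inl (Sum.inr (σ i))) +
        (if i = i₀ then -(bP a b (u (Sum.inr 0)) (u (Sum.inr 1)) v0 v1)
          - qP a b v0 v1 * u (Sum.inl (Sum.inr i₀)) else 0))) * u (Sum.inl (Sum.inr i))
      = ∑ i : Fin k, u (Sum.inl (Sum.inl i)) * u (Sum.inl (Sum.inr i))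
        + (-(bP a b (u (Sum.inr 0)) (u (Sum.inr 1)) v0 v1)
          - qP a b v0 v1 * u (Sum.inl (Sum.inr i₀))) * u (Sum.inl (Sum.inr i₀)) := by
    have e : ∀ i : Fin k, (u (Sum.inl (Sum.inl i)) + (s i * u (Sum.inl (Sum.inr (σ i))) +
        (if i = i₀ then -(bP a b (u (Sum.inr 0)) (u (Sum.inr 1)) v0 v1)
          - qP a b v0 v1 * u (Sum.inl (Sum.inr i₀)) else 0))) * u (Sum.inl (Sum.inr i))
        = u (Sum.inl (Sum.inl i)) * u (Sum.inl (Sum.inr i))
          + s i * u (Sum.inl (Sum.inr (σ i))) * u (Sum.inl (Sum.inr i))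
          + (if i = i₀ then (-(bP a b (u (Sum.inr 0)) (u (Sum.inr 1)) v0 v1)
          - qP a b v0 v1 * u (Sum.inl (Sum.inr i₀))) * u (Sum.inl (Sum.inr i)) else 0) := by
      intro i
      split_ifs <;> ring
    simp_rw [e]
    rw [Finset.sum_add_distrib, Finset.sum_add_distrib,
      alt_sum_zero σ s h2 hσ hs (fun i => u (Sum.inl (Sum.inr i))), add_zero,
      Finset.sum_ite_eq' Finset.univ i₀, if_pos (Finset.mem_univ _)]
  rw [hsum]
  simp only [bP, qP, if_pos, Fin.isValue, one_ne_zero, if_false]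
  ring

end Gen

section Gen2

variable {F : Type u} [Field F] {k : ℕ}
variable (a b v0 v1 : F) (i₀ : Fin k) (σ : Fin k → Fin k) (s : Fin k → F)

omit i₀ σ s in
theorem bP_self_smul (l : F) : bP a b (l * v0) (l * v1) v0 v1 = 2 * l * qP a b v0 v1 := by
  simp only [bP, qP]
  ring

theorem nm_sq (u : MI k → F) :
    nm a b v0 v1 i₀ σ s (nm a b v0 v1 i₀ σ s u) =
      Pi.single (Sum.inl (Sum.inl i₀)) (-(2 * qP a b v0 v1) * u (Sum.inl (Sum.inr i₀))) := by
  funext idx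
  rcases idx with ((i | i) | j)
  · simp only [nm_ll, nm_lr, nm_r]
    by_cases h : i = i₀
    · subst h
      simp only [bP, qP, if_pos, Fin.isValue, one_ne_zero, if_false, Pi.single_eq_same]
      ring
    · have hne : (Sum.inl (Sum.inl i) : MI k) ≠ Sum.inl (Sum.inl i₀) := by
        intro h'
        exact h (Sum.inl.inj (Sum.inl.inj h'))
      rw [if_neg h, Pi.single_eq_of_ne hne]
      ring
  · rw [nm_lr, Pi.single_eq_of_ne (by simp)]
  · rw [nm_r, nm_lr, Pi.single_eq_of_ne (by simp), zero_mul]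

theorem nm_single (t : F) :
    nm a b v0 v1 i₀ σ s (Pi.single (Sum.inl (Sum.inl i₀)) t) = 0 := by
  have e1 : ∀ j : Fin k, (Pi.single (Sum.inl (Sum.inl i₀)) t : MI k → F) (Sum.inl (Sum.inr j)) = 0 :=
    fun j => Pi.single_eq_of_ne (by simp) _
  have e2 : ∀ j : Fin 2, (Pi.single (Sum.inl (Sum.inl i₀)) t : MI k → F) (Sum.inr j) = 0 :=
    fun j => Pi.single_eq_of_ne (by simp) _
  funext idx
  rcases idx with ((i | i) | j)
  · rw [nm_ll, e1, e1, e2, e2]
    simp [bP]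
  · rfl
  · rw [nm_r, e1, zero_mul]
    rfl

theorem nm_cube : nm a b v0 v1 i₀ σ s * nm a b v0 v1 i₀ σ s * nm a b v0 v1 i₀ σ s = 0 := by
  apply LinearMap.ext
  intro u
  show nm a b v0 v1 i₀ σ s (nm a b v0 v1 i₀ σ s (nm a b v0 v1 i₀ σ s u)) = 0
  have h := nm_sq a b v0 v1 i₀ σ s u
  rw [h, nm_single]

/-- the model of the range of `N` -/
def phi (v0 v1 : F) : ((Fin k → F) × F) →ₗ[F] (MI k → F) where
  toFun p := fun idx => match idx with
    | Sum.inl (Sum.inl i) => p.1 i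
    | Sum.inl (Sum.inr _) => 0
    | Sum.inr j => p.2 * (if j = 0 then v0 else v1)
  map_add' p q := by
    funext idx
    rcases idx with ((i | i) | j)
    · rfl
    · simp
    · show (p + q).2 * _ = p.2 * _ + q.2 * _
      rw [Prod.snd_add, add_mul]
  map_smul' c p := by
    funext idx
    rcases idx with ((i | i) | j)
    · rfl
    · simp
    · show (c • p).2 * _ = c • (p.2 * _)
      rw [Prod.smul_snd, smul_eq_mul, smul_eq_mul, mul_assoc]

theorem phi_inj (hv : v0 ≠ 0 ∨ v1 ≠ 0) : Function.Injective (phi (k := k) v0 v1) := by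
  intro p q h
  have h1 : ∀ i, p.1 i = q.1 i := fun i => congrFun h (Sum.inl (Sum.inl i))
  have h20 : p.2 * v0 = q.2 * v0 := congrFun h (Sum.inr 0)
  have h21 : p.2 * v1 = q.2 * v1 := congrFun h (Sum.inr 1)
  refine Prod.ext (funext h1) ?_
  rcases hv with hv | hv
  · exact mul_right_cancel₀ hv h20
  · exact mul_right_cancel₀ hv h21

theorem nm_range (h2 : (2 : F) ≠ 0) (hσ : ∀ i, σ (σ i) = i) (hσ0 : σ i₀ = i₀)
    (hs0 : s i₀ = 0) (hs1 : ∀ i, i ≠ i₀ → s i ≠ 0) (hc : qP a b v0 v1 ≠ 0) :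
    LinearMap.range (nm a b v0 v1 i₀ σ s) = LinearMap.range (phi (k := k) v0 v1) := by
  apply le_antisymm
  · rintro _ ⟨u, rfl⟩
    refine ⟨(fun i => nm a b v0 v1 i₀ σ s u (Sum.inl (Sum.inl i)), u (Sum.inl (Sum.inr i₀))), ?_⟩
    funext idx
    rcases idx with ((i | i) | j) <;> rfl
  · rintro _ ⟨p, rfl⟩
    obtain ⟨w, w_lr, w_r0, w_r1⟩ : ∃ w : MI k → F,
        (∀ j, w (Sum.inl (Sum.inr j)) = if j = i₀ then p.2 else p.1 (σ j) * (s (σ j))⁻¹) ∧
        w (Sum.inr 0) = (-(p.1 i₀ + p.2 * qP a b v0 v1) / (2 * qP a b v0 v1)) * v0 ∧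
        w (Sum.inr 1) = (-(p.1 i₀ + p.2 * qP a b v0 v1) / (2 * qP a b v0 v1)) * v1 :=
      ⟨fun idx => match idx with
        | Sum.inl (Sum.inl _) => 0
        | Sum.inl (Sum.inr j) => if j = i₀ then p.2 else p.1 (σ j) * (s (σ j))⁻¹
        | Sum.inr j => (-(p.1 i₀ + p.2 * qP a b v0 v1) / (2 * qP a b v0 v1)) *
            (if j = 0 then v0 else v1), fun j => rfl, rfl, rfl⟩
    refine ⟨w, ?_⟩
    funext idx
    rcases idx with ((i | i) | j)
    · rw [nm_ll, w_lr, w_lr, w_r0, w_r1]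
      show _ = p.1 i
      by_cases h : i = i₀
      · subst h
        rw [hσ0, if_pos rfl, if_pos rfl, if_pos rfl, hs0, bP_self_smul]
        generalize qP a b v0 v1 = c at hc
        field_simp
        ring
      · have hσi : σ i ≠ i₀ := by
          intro h'
          apply h
          rw [← hσ i, h', hσ0]
        rw [if_neg hσi, if_neg h, hσ, add_zero]
        field_simp [hs1 i h]
    · rfl
    · rw [nm_r, w_lr, if_pos rfl]
      rfl

theorem nm_finrank (h2 : (2 : F) ≠ 0) (hσ : ∀ i, σ (σ i) = i) (hσ0 : σ i₀ = i₀)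
    (hs0 : s i₀ = 0) (hs1 : ∀ i, i ≠ i₀ → s i ≠ 0) (hc : qP a b v0 v1 ≠ 0)
    (hv : v0 ≠ 0 ∨ v1 ≠ 0) :
    finrank F ↥(LinearMap.range (nm a b v0 v1 i₀ σ s)) = k + 1 := by
  rw [nm_range a b v0 v1 i₀ σ s h2 hσ hσ0 hs0 hs1 hc,
    LinearMap.finrank_range_of_inj (phi_inj v0 v1 hv), Module.finrank_prod,
    Module.finrank_fintype_fun_eq_card, Fintype.card_fin, Module.finrank_self]

theorem nm_sq_finrank (h2 : (2 : F) ≠ 0) (hc : qP a b v0 v1 ≠ 0) :
    finrank F ↥(LinearMap.range (nm a b v0 v1 i₀ σ s * nm a b v0 v1 i₀ σ s)) = 1 := by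
  have hne : (Pi.single (Sum.inl (Sum.inl i₀)) 1 : MI k → F) ≠ 0 := by
    intro h
    have := congrFun h (Sum.inl (Sum.inl i₀))
    simp at this
  have : LinearMap.range (nm a b v0 v1 i₀ σ s * nm a b v0 v1 i₀ σ s)
      = Submodule.span F {(Pi.single (Sum.inl (Sum.inl i₀)) 1 : MI k → F)} := by
    apply le_antisymm
    · rintro _ ⟨u, rfl⟩
      rw [Module.End.mul_apply, nm_sq, Submodule.mem_span_singleton]
      refine ⟨-(2 * qP a b v0 v1) * u (Sum.inl (Sum.inr i₀)), ?_⟩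
      rw [← Pi.single_smul, smul_eq_mul, mul_one]
    · rw [Submodule.span_le, Set.singleton_subset_iff]
      refine ⟨Pi.single (Sum.inl (Sum.inr i₀)) (-(2 * qP a b v0 v1))⁻¹, ?_⟩
      rw [Module.End.mul_apply, nm_sq, Pi.single_eq_same, mul_inv_cancel₀]
      exact neg_ne_zero.mpr (mul_ne_zero h2 hc)
  rw [this, finrank_span_singleton hne]

/-- the fixed vector -/
theorem nm_fix (p0 p1 : F) (hB : bP a b p0 p1 v0 v1 = 0) :
    nm a b v0 v1 i₀ σ s (phi (k := k) p0 p1 (0, 1)) = 0 := by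
  funext idx
  rcases idx with ((i | i) | j)
  · rw [nm_ll]
    have e1 : phi (k := k) p0 p1 (0, 1) (Sum.inl (Sum.inr (σ i))) = 0 := rfl
    have e2 : phi (k := k) p0 p1 (0, 1) (Sum.inl (Sum.inr i₀)) = 0 := rfl
    have e3 : phi (k := k) p0 p1 (0, 1) (Sum.inr 0) = 1 * p0 := rfl
    have e4 : phi (k := k) p0 p1 (0, 1) (Sum.inr 1) = 1 * p1 := rfl
    rw [e1, e2, e3, e4, one_mul, one_mul, hB]
    simp
  · rfl
  · rw [nm_r]
    have e2 : phi (k := k) p0 p1 (0, 1) (Sum.inl (Sum.inr i₀)) = 0 := rfl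
    rw [e2, zero_mul]
    rfl

theorem q_fix (p0 p1 : F) :
    Cfsg.quadFormMinus k F a b (phi (k := k) p0 p1 (0, 1)) = qP a b p0 p1 := by
  unfold Cfsg.quadFormMinus
  have e1 : ∀ i : Fin k, phi (k := k) p0 p1 (0, 1) (Sum.inl (Sum.inl i)) = 0 := fun i => rfl
  have e3 : phi (k := k) p0 p1 (0, 1) (Sum.inr 0) = 1 * p0 := rfl
  have e4 : phi (k := k) p0 p1 (0, 1) (Sum.inr 1) = 1 * p1 := rfl
  simp only [e1, e3, e4, zero_mul, Finset.sum_const_zero, zero_add, one_mul, qP]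

end Gen2

section Final

variable {F : Type u} [Field F]

theorem exists_gl {ι : Type} [Fintype ι] [DecidableEq ι] (N : (ι → F) →ₗ[F] (ι → F))
    (hN : N * N * N = 0) :
    ∃ x : Matrix.GeneralLinearGroup ι F, Matrix.toLin' (x : Matrix ι ι F) = 1 + N := by
  have h1 : (1 + N) * (1 - N + N * N) = 1 := by
    have : (1 + N) * (1 - N + N * N) = 1 + N * N * N := by
      simp only [mul_add, add_mul, mul_sub, one_mul, mul_one, mul_assoc]
      abel
    rw [this, hN, add_zero]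
  have h2 : (1 - N + N * N) * (1 + N) = 1 := by
    have : (1 - N + N * N) * (1 + N) = 1 + N * N * N := by
      simp only [mul_add, add_mul, sub_mul, one_mul, mul_one, mul_assoc]
      abel
    rw [this, hN, add_zero]
  refine ⟨⟨LinearMap.toMatrix' (1 + N), LinearMap.toMatrix' (1 - N + N * N), ?_, ?_⟩, ?_⟩
  · rw [← LinearMap.toMatrix'_mul, h1, LinearMap.toMatrix'_one]
  · rw [← LinearMap.toMatrix'_mul, h2, LinearMap.toMatrix'_one]
  · exact Matrix.toLin'_toMatrix' _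

open Polynomial in
theorem quad_solve [Fintype F] (h2 : (2 : F) ≠ 0) (a₁ c : F) (ha₁ : a₁ ≠ 0) :
    ∃ x y : F, x ^ 2 + a₁ * y ^ 2 = c := by
  classical
  have hchar : ringChar F ≠ 2 := by
    intro h
    apply h2
    have := ringChar.Nat.cast_ringChar (R := F)
    rw [h] at this
    exact_mod_cast this
  have hodd : Fintype.card F % 2 = 1 := FiniteField.odd_card_of_char_ne_two hchar
  have hf : (X ^ 2 : F[X]).degree = 2 := by
    rw [degree_X_pow]; rfl
  have hg : (C a₁ * X ^ 2 - C c : F[X]).degree = 2 := by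
    rw [degree_sub_eq_left_of_degree_lt, degree_C_mul_X_pow 2 ha₁]; rfl
    rw [degree_C_mul_X_pow 2 ha₁]
    exact lt_of_le_of_lt degree_C_le (by decide)
  obtain ⟨x, y, hxy⟩ := FiniteField.exists_root_sum_quadratic hf hg hodd
  refine ⟨x, y, ?_⟩
  simp only [eval_mul, eval_C, eval_pow, eval_X, eval_sub] at hxy
  linear_combination hxy

end Final

section Idx

variable {F : Type u} [Field F]

/-- the sign on `Option (Fin n ⊕ Fin n)` -/
def sgn {n : ℕ} : Option (Fin n ⊕ Fin n) → F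
  | none => 0
  | some (Sum.inl _) => 1
  | some (Sum.inr _) => -1

theorem exists_idx (F : Type u) [Field F] (n : ℕ) :
    ∃ (i₀ : Fin (2 * n + 1)) (σ : Fin (2 * n + 1) → Fin (2 * n + 1)) (s : Fin (2 * n + 1) → F),
      (∀ i, σ (σ i) = i) ∧ σ i₀ = i₀ ∧ (∀ i, s (σ i) = - s i) ∧ s i₀ = 0 ∧
        ∀ i, i ≠ i₀ → s i ≠ 0 := by
  have hcard : Fintype.card (Fin (2 * n + 1)) = Fintype.card (Option (Fin n ⊕ Fin n)) := by
    simp
    omega
  obtain ⟨ε⟩ : Nonempty (Fin (2 * n + 1) ≃ Option (Fin n ⊕ Fin n)) :=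
    ⟨Fintype.equivOfCardEq hcard⟩
  refine ⟨ε.symm none, fun i => ε.symm (Option.map Sum.swap (ε i)), fun i => sgn (ε i),
    ?_, ?_, ?_, ?_, ?_⟩
  · intro i
    show ε.symm (Option.map Sum.swap (ε (ε.symm (Option.map Sum.swap (ε i))))) = i
    rw [Equiv.apply_symm_apply, Option.map_map, Sum.swap_swap_eq, Option.map_id]
    exact ε.symm_apply_apply i
  · show ε.symm (Option.map Sum.swap (ε (ε.symm none))) = ε.symm none
    rw [Equiv.apply_symm_apply]
    rfl
  · intro i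
    show sgn (ε (ε.symm (Option.map Sum.swap (ε i)))) = - sgn (ε i)
    rw [Equiv.apply_symm_apply]
    rcases ε i with _ | (j | j)
    · simp [sgn]
    · simp [sgn]
    · simp [sgn]
  · show sgn (ε (ε.symm none)) = 0
    rw [Equiv.apply_symm_apply]
    rfl
  · intro i hi
    show sgn (ε i) ≠ 0
    rcases h : ε i with _ | (j | j)
    · exfalso
      apply hi
      rw [← h, Equiv.symm_apply_apply]
    · simp [sgn]
    · simp [sgn]

end Idx

theorem uex4M : StUex4M.{u} := by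
  intro F _ _ k a b α h2 haniso hk hα
  obtain ⟨n, rfl⟩ := hk
  have h4 : (4 : F) ≠ 0 := by
    have : (4 : F) = 2 * 2 := by norm_num
    rw [this]
    exact mul_ne_zero h2 h2
  have hD : b - a ^ 2 / 4 ≠ 0 := by
    intro h0
    have e : (-(a / 2)) ^ 2 + a * (-(a / 2)) * 1 + b * 1 ^ 2 = b - a ^ 2 / 4 := by
      field_simp
      ring
    have := haniso (-(a / 2)) 1 (by rw [e, h0])
    exact one_ne_zero this.2
  obtain ⟨x, t, hxt⟩ := quad_solve h2 (b - a ^ 2 / 4) α hD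
  obtain ⟨p0, p1, hp⟩ : ∃ p0 p1 : F, qP a b p0 p1 = α := by
    refine ⟨x - a / 2 * t, t, ?_⟩
    rw [← hxt]
    simp only [qP]
    field_simp
    ring
  obtain ⟨v0, v1, hB, hv⟩ : ∃ v0 v1 : F, bP a b p0 p1 v0 v1 = 0 ∧ (v0 ≠ 0 ∨ v1 ≠ 0) := by
    refine ⟨a * p0 + 2 * b * p1, -(2 * p0 + a * p1), by simp only [bP]; ring, ?_⟩
    by_contra hcon
    push Not at hcon
    have h5 : 2 * α = p1 * (a * p0 + 2 * b * p1) - p0 * (-(2 * p0 + a * p1)) := by
      rw [← hp]
      simp only [qP]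
      ring
    rw [hcon.1, hcon.2, mul_zero, mul_zero, sub_zero] at h5
    exact (mul_ne_zero h2 hα) h5
  have hc : qP a b v0 v1 ≠ 0 := by
    intro h0
    have := haniso v0 v1 h0
    rcases hv with h | h
    · exact h this.1
    · exact h this.2
  obtain ⟨i₀, σ, s, hσ, hσ0, hs, hs0, hs1⟩ := exists_idx F n
  obtain ⟨xg, hxg⟩ := exists_gl (nm a b v0 v1 i₀ σ s) (nm_cube a b v0 v1 i₀ σ s)
  have hN : Matrix.toLin' (xg : Matrix (MI (2 * n + 1)) (MI (2 * n + 1)) F) - 1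
      = nm a b v0 v1 i₀ σ s := by
    rw [hxg, add_sub_cancel_left]
  refine ⟨xg, ?_, ?_, ?_, ?_, phi p0 p1 (0, 1), ?_, ?_, ?_⟩
  · intro u w
    show Cfsg.quadFormMinus _ F a b
        (Matrix.mulVec (xg : Matrix (MI (2 * n + 1)) (MI (2 * n + 1)) F) u)
      = Cfsg.quadFormMinus _ F a b u
    rw [← Matrix.toLin'_apply, hxg]
    exact nm_isom a b v0 v1 i₀ σ s h2 hσ hs u
  · rw [hN, pow_three']
    exact nm_cube a b v0 v1 i₀ σ s
  · rw [hN]
    exact nm_sq_finrank a b v0 v1 i₀ σ s h2 hc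
  · rw [hN, nm_finrank a b v0 v1 i₀ σ s h2 hσ hσ0 hs0 hs1 hc hv]
    ring
  · rw [hxg]
    show phi p0 p1 (0, 1) + nm a b v0 v1 i₀ σ s (phi p0 p1 (0, 1)) = phi p0 p1 (0, 1)
    rw [nm_fix a b v0 v1 i₀ σ s p0 p1 hB, add_zero]
  · rw [q_fix, hp]
    exact hα
  · rw [q_fix, hp]
    exact ⟨α, rfl⟩

example : StUex4M.{u} := uex4M

end Cfsg.Agent.H79.Nd
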