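import Mathlib
import Cfsg.Prelude.Def_Blocks
import Cfsg.Agent.H79.PCBlock

/-!
# Values of the characters of a block of `G = P C_G(P)` with defect group `P` (helper79)

* `component_values`: if `θ` is the canonical character of the block (trivial on `P`, of height
  zero) and `χ` a member of the block with components `(ζ, ψ)`, then `ψ` agrees with `θ` on the
  `p`-regular elements of `C_G(P)` and vanishes at every element of `C_G(P)` without `p`-regular
  `P ∩ C_G(P)`-translate.
-/

set_option autoImplicit false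
set_option linter.unusedSectionVars false

namespace Cfsg.Agent.H79

open Cfsg Cfsg.Agent.H20 Cfsg.Agent.H4
open scoped ComplexConjugate

universe u

section

variable {G : Type u} [Group G]

/-- In `G = P C_G(P)`, the `C_G(P)`-component of a member of the block of a canonical character
`θ` agrees with `θ` on `p`-regular elements and vanishes off the `p`-regular elements times
`P ∩ C_G(P)`. -/
theorem component_values [Finite G] {M : Ideal AlgInt} {p : ℕ} (hM : IsPModular p M)
    (P : Subgroup G) (hP : IsPGroup p P) (hG : P ⊔ Subgroup.centralizer (P : Set G) = ⊤)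
    (θ χ : IrrCharacter G) (hθker : ∀ x ∈ P, (θ : G → ℂ) x = (θ : G → ℂ) 1)
    (hθdeg : (charDegree (θ : G → ℂ)).factorization p = P.index.factorization p)
    (hχ : SameBlock M (θ : G → ℂ) (χ : G → ℂ))
    (ζ : IrrCharacter P) (ψ : IrrCharacter (Subgroup.centralizer (P : Set G)))
    (h : ∀ (y : P) (x : Subgroup.centralizer (P : Set G)),
      (χ : G → ℂ) ((y : G) * (x : G)) = (ζ : P → ℂ) y * ψ.1 x) :
    (∀ x : Subgroup.centralizer (P : Set G), ¬ p ∣ orderOf x → ψ.1 x = (θ : G → ℂ) (x : G)) ∧
    (∀ x : Subgroup.centralizer (P : Set G),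
      (∀ z ∈ P.subgroupOf (Subgroup.centralizer (P : Set G)), p ∣ orderOf (x * z)) →
        ψ.1 x = 0) := by
  classical
  obtain ⟨ζθ, ψθ, hθ⟩ := exists_prod_decomp P hG θ
  obtain ⟨-, hψθ⟩ := component_of_ker P θ ζθ ψθ hθ hθker
  obtain ⟨Z, hZdef⟩ : ∃ Z : Subgroup (Subgroup.centralizer (P : Set G)),
      Z = P.subgroupOf (Subgroup.centralizer (P : Set G)) := ⟨_, rfl⟩
  have hZp : IsPGroup p Z := by rw [hZdef]; exact hP.comap_subtype
  have hZc : Z ≤ Subgroup.center (Subgroup.centralizer (P : Set G)) := by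
    rw [hZdef]; exact subgroupOf_centralizer_le_center P
  have hZidx : Z.index = P.index := by rw [hZdef]; exact index_subgroupOf_centralizer P hG
  have hdeg : (charDegree ψθ.1).factorization p = Z.index.factorization p := by
    have e1 : charDegree ψθ.1 = charDegree (θ : G → ℂ) := by
      show ⌊(ψθ.1 1).re⌋₊ = ⌊((θ : G → ℂ) 1).re⌋₊
      rw [hψθ 1]
      rfl
    rw [e1, hZidx]
    exact hθdeg
  have hs1 : SameBlock M ψθ.1 ψ.1 := sameBlock_of_decomp P hG θ χ ζθ ζ ψθ ψ hθ h hχ
  have hfZ : Fintype Z := Fintype.ofFinite _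
  have hfC : Fintype (Subgroup.centralizer (P : Set G)) := Fintype.ofFinite _
  obtain ⟨μ, hμ⟩ := exists_constituent_res Z ψ
  have hover : OverOn Z (μ : Z → ℂ) ψ.1 := by
    rcases sum_twist Z hZc μ ψ with ⟨-, hover, -⟩ | ⟨hzero, -⟩
    · exact hover
    · exact absurd hzero hμ
  obtain ⟨ψ₀, -, -, huniq, hψ₀deg, -, hψ₀reg⟩ := exists_unique_over hM Z hZp hZc ψθ hdeg μ
  have e1 : ψ = ψ₀ := huniq ψ hs1 hover
  constructor
  · intro x hx
    rw [e1, hψ₀reg x hx, hψθ x]
  · intro x hsing
    have hu := (degree_units hM Z ψ (by rw [e1]; exact hψ₀deg)).1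
    apply irr_eq_zero_of_translates_singular hM Z hZc ψ hu x
    intro z hz
    rw [hZdef] at hz
    exact hsing z hz

end

end Cfsg.Agent.H79
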