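import Cfsg.Agent.H79.RnPieces
import Cfsg.Agent.H4.Twin
import Cfsg.Agent.H80.Block
import Cfsg.Agent.H80.GroupBasic
import Cfsg.Agent.S0967

set_option autoImplicit false
open scoped ComplexConjugate

namespace Cfsg.Agent.H79.Rn

open Cfsg

/-- A normal `p'`-subgroup lies in the kernel of every character of the principal block. -/
theorem pPrimeCore_le_ker {G : Type*} [Group G] [Finite G] (p : ℕ) [Fact p.Prime]
    (M : Ideal Cfsg.AlgInt) (hM : Cfsg.IsPModular p M) (χ : Cfsg.IrrCharacter G)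
    (hχ : χ ∈ Cfsg.principalBlock M G) (g : G) (hg : g ∈ Cfsg.pPrimeCore p G) :
    (χ : G → ℂ) g = (χ : G → ℂ) 1 := by
  haveI : (Cfsg.pPrimeCore p G).Normal := Cfsg.Agent.H80.pPrimeCore_normal p G
  have hp : p.Prime := Fact.out
  have hN : ¬ p ∣ Nat.card (Cfsg.pPrimeCore p G) := by
    have hc := Cfsg.Agent.H80.pPrimeCore_coprime p G
    intro hd
    exact hp.one_lt.ne' (Nat.Coprime.eq_one_of_dvd hc.symm hd)
  obtain ⟨ψ', h1, _⟩ := Cfsg.Agent.S0967.result p M hM (Cfsg.pPrimeCore p G) hN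
    (Cfsg.Agent.H80.trivChar (G ⧸ Cfsg.pPrimeCore p G)) χ hχ
  rw [h1]
  simp only [Function.comp_apply]
  have hg1 : (QuotientGroup.mk g : G ⧸ Cfsg.pPrimeCore p G) = QuotientGroup.mk (1 : G) := by
    rw [QuotientGroup.mk_one]
    exact (QuotientGroup.eq_one_iff g).mpr hg
  rw [hg1]

theorem rn_backward {G : Type*} [Group G] [Finite G] (p : ℕ) [Fact p.Prime] (M : Ideal Cfsg.AlgInt)
    (hM : Cfsg.IsPModular p M) (P : Sylow p G)
    (h : ∀ χ ∈ Cfsg.principalBlock M G,
      Cfsg.IsIrrCharacter ↥(Subgroup.normalizer ((P : Subgroup G) : Set G))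
        (fun n : ↥(Subgroup.normalizer ((P : Subgroup G) : Set G)) => (χ : G → ℂ) n)) :
    Cfsg.PLengthLE p 1 G := by
  classical
  haveI hKn : (Cfsg.pPrimeCore p G).Normal := Cfsg.Agent.H80.pPrimeCore_normal p G
  have hcl : ∀ χ ∈ Cfsg.principalBlock M G,
      (∑ᶠ y : ↥(P : Subgroup G), (χ : G → ℂ) (y : G) = 0) ∨
      (∀ y ∈ (P : Subgroup G), (χ : G → ℂ) y = (χ : G → ℂ) 1) := by
    intro χ hχ
    by_cases hne : ∑ᶠ y : ↥(P : Subgroup G), (χ : G → ℂ) (y : G) = 0
    · exact Or.inl hne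
    · right
      refine rn_clifford (Subgroup.normalizer ((P : Subgroup G) : Set G)) (P : Subgroup G)
        Subgroup.le_normalizer ?_ (χ : G → ℂ) (h χ hχ) hne
      intro n hn y hy
      exact (Subgroup.mem_normalizer_iff.mp hn y).mp hy
  obtain ⟨H, hH⟩ : ∃ H : Subgroup G, H = Cfsg.pPrimeCore p G ⊔ Subgroup.normalClosure
      (((P : Subgroup G) : Set G)) := ⟨_, rfl⟩
  haveI hHn : H.Normal := by
    rw [hH]
    infer_instance
  have hKH : Cfsg.pPrimeCore p G ≤ H := by rw [hH]; exact le_sup_left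
  have hPH : (P : Subgroup G) ≤ H := by
    rw [hH]
    exact le_trans Subgroup.le_normalClosure le_sup_right
  refine rn_plength p P H hKH hPH ?_
  intro g hgH hgreg
  refine rn_kernel p M hM g (rn_regular p M hM P hcl g hgreg ?_)
  intro χ hχ hconst
  have hchar := Cfsg.Agent.H4.isCharacter_of_isIrrCharacter χ.2
  have hnorm : (Cfsg.Agent.H4.charKerSub hchar).Normal := ⟨fun n hn x => by
    rw [Cfsg.Agent.H4.mem_charKerSub] at hn ⊢
    rw [Cfsg.Agent.H4.isClassFunction_of_isCharacter hchar n x]; exact hn⟩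
  have hle : H ≤ Cfsg.Agent.H4.charKerSub hchar := by
    rw [hH]
    refine sup_le ?_ ?_
    · intro x hx
      exact pPrimeCore_le_ker p M hM χ hχ x hx
    · refine Subgroup.normalClosure_le_normal ?_
      intro y hy
      exact hconst y hy
  exact hle hgH

end Cfsg.Agent.H79.Rn
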