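import Mathlib
import Cfsg.Prelude.Def_Blocks
import Cfsg.Prelude.Def_Local
import Cfsg.Agent.H5.RnC
import Cfsg.Agent.H5.RnF
import Cfsg.Agent.H40.RnL
import Cfsg.Agent.H40.RnW
import Cfsg.Agent.H99.RnK

set_option autoImplicit false
open scoped ComplexConjugate

namespace Cfsg.Agent.H79.Rn

/-- PIECE F -/
theorem rn_forward {G : Type*} [Group G] [Finite G] (p : ℕ) [Fact p.Prime] (M : Ideal Cfsg.AlgInt)
    (hM : Cfsg.IsPModular p M) (P : Sylow p G) (h : Cfsg.PLengthLE p 1 G) :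
    ∀ χ ∈ Cfsg.principalBlock M G,
      Cfsg.IsIrrCharacter ↥(Subgroup.normalizer ((P : Subgroup G) : Set G))
        (fun n : ↥(Subgroup.normalizer ((P : Subgroup G) : Set G)) => (χ : G → ℂ) n) :=
  Cfsg.Agent.H5.Rn.rn_forward p M hM P h

/-- PIECE C -/
theorem rn_clifford {G : Type*} [Group G] [Finite G] (Nm Q : Subgroup G) (hQN : Q ≤ Nm)
    (hnorm : ∀ n ∈ Nm, ∀ y ∈ Q, n * y * n⁻¹ ∈ Q) (χ : G → ℂ)
    (hirr : Cfsg.IsIrrCharacter ↥Nm (fun n : ↥Nm => χ n))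
    (hne : ∑ᶠ y : ↥Q, χ (y : G) ≠ 0) : ∀ y ∈ Q, χ y = χ 1 :=
  Cfsg.Agent.H5.Rn.rn_clifford Nm Q hQN hnorm χ hirr hne

/-- PIECE K -/
theorem rn_kernel {G : Type*} [Group G] [Finite G] (p : ℕ) [Fact p.Prime] (M : Ideal Cfsg.AlgInt)
    (hM : Cfsg.IsPModular p M) (g : G)
    (hg : ∀ χ ∈ Cfsg.principalBlock M G, (χ : G → ℂ) g = (χ : G → ℂ) 1) :
    g ∈ Cfsg.pPrimeCore p G :=
  Cfsg.Agent.H99.Rn.rn_kernel p M hM g hg

/-- PIECE W -/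
theorem rn_regular {G : Type*} [Group G] [Finite G] (p : ℕ) [Fact p.Prime] (M : Ideal Cfsg.AlgInt)
    (hM : Cfsg.IsPModular p M) (P : Sylow p G)
    (hcl : ∀ χ ∈ Cfsg.principalBlock M G,
      (∑ᶠ y : ↥(P : Subgroup G), (χ : G → ℂ) (y : G) = 0) ∨
      (∀ y ∈ (P : Subgroup G), (χ : G → ℂ) y = (χ : G → ℂ) 1))
    (g : G) (hg : ¬ p ∣ orderOf g)
    (hgA : ∀ χ ∈ Cfsg.principalBlock M G,
      (∀ y ∈ (P : Subgroup G), (χ : G → ℂ) y = (χ : G → ℂ) 1) → (χ : G → ℂ) g = (χ : G → ℂ) 1) :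
    ∀ χ ∈ Cfsg.principalBlock M G, (χ : G → ℂ) g = (χ : G → ℂ) 1 :=
  Cfsg.Agent.H40.Rn.rn_regular p M hM P hcl g hg hgA

/-- PIECE L -/
theorem rn_plength {G : Type*} [Group G] [Finite G] (p : ℕ) [Fact p.Prime] (P : Sylow p G)
    (H : Subgroup G) [H.Normal] (hKH : Cfsg.pPrimeCore p G ≤ H) (hPH : (P : Subgroup G) ≤ H)
    (hreg : ∀ g ∈ H, ¬ p ∣ orderOf g → g ∈ Cfsg.pPrimeCore p G) : Cfsg.PLengthLE p 1 G :=
  Cfsg.Agent.H40.Rn.rn_plength p P H hKH hPH hreg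

end Cfsg.Agent.H79.Rn
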