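import Cfsg.Agent.H19.SxDefs
import Cfsg.Agent.S0617
import Cfsg.Agent.H14.TFail

set_option autoImplicit false
set_option linter.unusedVariables false

/-! SX-STRUCT (helper79, for helper19's EXIST project, S2948 / S2949): Glauberman's structure
theorem S0617, transported to the holomorph of `V`, gives for a largest elementary abelian
subgroup `A` not centralizing `V` an element `a ∈ A` and an element `k ∈ J(X)` of order 3 modulo
`C_X(V)`, inverted by `a` modulo `C_X(V)`, with `⟨k⟩ C_X(V)` normalized by `J(X)` and `[V, k]`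
inside a subgroup of order 4. -/

open Cfsg
open scoped commutatorElement Pointwise

namespace Cfsg.Agent.H79.Sx

open Cfsg.Agent.H14.Holo Cfsg.Agent.H19.Sx

universe u

theorem sl22_ex3 : ∃ y : Matrix.SpecialLinearGroup (Fin 2) (ZMod 2), y ≠ 1 ∧ y ^ 3 = 1 := by
  decide

theorem sl22_inv3 : ∀ b y : Matrix.SpecialLinearGroup (Fin 2) (ZMod 2),
    b ≠ 1 → b * b = 1 → y ^ 3 = 1 → b * y * b⁻¹ * y = 1 := by decide

theorem sl22_two3 : ∀ y z : Matrix.SpecialLinearGroup (Fin 2) (ZMod 2),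
    y ≠ 1 → y ^ 3 = 1 → z ≠ 1 → z ^ 3 = 1 → z = y ∨ z = y⁻¹ := by decide

theorem s3_ex {Y : Type u} [Group Y] (E : Subgroup Y)
    (e : ↥E ≃* Matrix.SpecialLinearGroup (Fin 2) (ZMod 2)) :
    ∃ y ∈ E, y ≠ 1 ∧ y ^ 3 = 1 := by
  obtain ⟨y0, hy01, hy03⟩ := sl22_ex3
  refine ⟨(e.symm y0 : ↥E), (e.symm y0).2, ?_, ?_⟩
  · intro h
    apply hy01
    have h1 : e.symm y0 = 1 := Subtype.ext h
    have := congrArg e h1
    rwa [e.apply_symm_apply, map_one] at this
  · have h1 : (e.symm y0) ^ 3 = 1 := by rw [← map_pow, hy03, map_one]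
    have := congrArg Subtype.val h1
    simpa using this

theorem s3_inv {Y : Type u} [Group Y] (E : Subgroup Y)
    (e : ↥E ≃* Matrix.SpecialLinearGroup (Fin 2) (ZMod 2))
    (b : Y) (hb : b ∈ E) (hb1 : b ≠ 1) (hbb : b * b = 1) (y : Y) (hy : y ∈ E)
    (hy3 : y ^ 3 = 1) : b * y * b⁻¹ * y = 1 := by
  have h1 := sl22_inv3 (e ⟨b, hb⟩) (e ⟨y, hy⟩)
    (fun h => hb1 (congrArg Subtype.val (e.injective (h.trans (map_one e).symm))))
    (by
      rw [← map_mul]
      have h2 : (⟨b, hb⟩ : ↥E) * ⟨b, hb⟩ = 1 := Subtype.ext hbb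
      rw [h2, map_one])
    (by
      rw [← map_pow]
      have h2 : (⟨y, hy⟩ : ↥E) ^ 3 = 1 := Subtype.ext (by simpa using hy3)
      rw [h2, map_one])
  rw [← map_inv, ← map_mul, ← map_mul, ← map_mul] at h1
  have h2 := e.injective (h1.trans (map_one e).symm)
  have h3 := congrArg Subtype.val h2
  simpa using h3

theorem s3_two {Y : Type u} [Group Y] (E : Subgroup Y)
    (e : ↥E ≃* Matrix.SpecialLinearGroup (Fin 2) (ZMod 2))
    (y : Y) (hy : y ∈ E) (hy1 : y ≠ 1) (hy3 : y ^ 3 = 1)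
    (z : Y) (hz : z ∈ E) (hz1 : z ≠ 1) (hz3 : z ^ 3 = 1) : z = y ∨ z = y⁻¹ := by
  have h1 := sl22_two3 (e ⟨y, hy⟩) (e ⟨z, hz⟩)
    (fun h => hy1 (congrArg Subtype.val (e.injective (h.trans (map_one e).symm))))
    (by
      rw [← map_pow]
      have h2 : (⟨y, hy⟩ : ↥E) ^ 3 = 1 := Subtype.ext (by simpa using hy3)
      rw [h2, map_one])
    (fun h => hz1 (congrArg Subtype.val (e.injective (h.trans (map_one e).symm))))
    (by
      rw [← map_pow]
      have h2 : (⟨z, hz⟩ : ↥E) ^ 3 = 1 := Subtype.ext (by simpa using hz3)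
      rw [h2, map_one])
  rcases h1 with h1 | h1
  · left
    exact congrArg Subtype.val (e.injective h1)
  · right
    rw [← map_inv] at h1
    have h2 := congrArg Subtype.val (e.injective h1)
    simpa using h2

theorem struct : StStruct.{u} := by
  intro X _ _ V _ hV hsep hO A hA hAC
  have : Fact (Nat.Prime 2) := ⟨Nat.prime_two⟩
  have hJn := thompsonSubgroup_normal 2 X
  have hV' := Vh_elemAb V hV
  have hVn := Vh_normal V
  obtain ⟨H, hHeq⟩ : ∃ H : Subgroup (Hol V), H = (thompsonSubgroup 2 X).map (psi V) :=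
    ⟨_, rfl⟩
  have hHV : H ≤ Subgroup.normalizer ((Vh V : Subgroup (Hol V)) : Set (Hol V)) := by
    rw [Subgroup.normalizer_eq_top]
    exact le_top
  have hHR : H ≤ (psi V).range := by
    rw [hHeq]
    rintro _ ⟨j, -, rfl⟩
    exact ⟨j, rfl⟩
  have hf : H ⊓ Subgroup.centralizer ((Vh V : Subgroup (Hol V)) : Set (Hol V)) = ⊥ := by
    rw [eq_bot_iff, ← range_faithful V]
    exact inf_le_inf_right _ hHR
  have hnorm : (psi V).range ≤ Subgroup.normalizer ((H : Subgroup (Hol V)) : Set (Hol V)) := by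
    rw [hHeq]
    rintro _ ⟨g, rfl⟩
    rw [Subgroup.mem_normalizer_iff]
    intro h
    constructor
    · rintro ⟨j, hj, rfl⟩
      refine ⟨g * j * g⁻¹, hJn.conj_mem j hj g, ?_⟩
      simp
    · rintro ⟨j, hj, hjh⟩
      refine ⟨g⁻¹ * j * g, ?_, ?_⟩
      · have := hJn.conj_mem j hj g⁻¹
        simpa using this
      · rw [map_mul, map_mul, hjh, map_inv]
        group
  have hS1 := hS1_of_normal (p := 2) (psi V).range H hHR
    hnorm (range_isPSolvable V hsep) (range_pCore_eq_bot V hO)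
  have hS3 : H = ⨆ A : {A : Subgroup (Hol V) // A ≤ H ∧ IsBestOffenderOn 2 (Vh V) A},
      (A : Subgroup (Hol V)) := by
    apply le_antisymm
    · conv_lhs => rw [hHeq]; unfold Cfsg.thompsonSubgroup
      rw [Subgroup.map_le_iff_le_comap]
      apply sSup_le
      intro A hA
      rw [← Subgroup.map_le_iff_le_comap]
      exact le_iSup (fun A : {A : Subgroup (Hol V) //
        A ≤ H ∧ IsBestOffenderOn 2 (Vh V) A} => (A : Subgroup (Hol V)))
        ⟨A.map (psi V), by rw [hHeq]; exact Subgroup.map_mono (le_sSup hA),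
          bestOffender_map V hV hA⟩
    · exact iSup_le fun A => A.2.1
  -- the image of `A`
  have hAH : A.map (psi V) ≤ H := by
    rw [hHeq]
    exact Subgroup.map_mono (le_sSup hA)
  have hAoff : IsBestOffenderOn 2 (Vh V) (A.map (psi V)) := bestOffender_map V hV hA
  have hAne : ⁅Vh V, A.map (psi V)⁆ ≠ ⊥ := by
    intro h0
    apply hAC
    intro a ha
    have h1 : psi V a ∈ Subgroup.centralizer ((Vh V : Subgroup (Hol V)) : Set (Hol V)) := by
      rw [Subgroup.mem_centralizer_iff]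
      intro v hv
      have h2 : ⁅v, psi V a⁆ ∈ ⁅Vh V, A.map (psi V)⁆ :=
        Subgroup.commutator_mem_commutator hv (Subgroup.mem_map_of_mem _ ha)
      rw [h0, Subgroup.mem_bot, commutatorElement_eq_one_iff_mul_comm] at h2
      exact h2
    have h3 : psi V a ∈ (psi V).range ⊓
        Subgroup.centralizer ((Vh V : Subgroup (Hol V)) : Set (Hol V)) := ⟨⟨a, rfl⟩, h1⟩
    rw [range_faithful V, Subgroup.mem_bot] at h3
    rw [← psi_ker, MonoidHom.mem_ker]
    exact h3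
  have hH1 : H ≠ ⊥ := by
    intro h0
    apply hAne
    have h1 : A.map (psi V) = ⊥ := by
      rw [eq_bot_iff, ← h0]
      exact hAH
    rw [h1]
    exact Subgroup.commutator_bot_right _
  -- a minimal non-trivial best offender inside the image of `A`
  obtain ⟨B, hBmin⟩ := Set.Finite.exists_minimal
    (s := {B : Subgroup (Hol V) | B ≤ A.map (psi V) ∧ IsBestOffenderOn 2 (Vh V) B ∧
      ⁅Vh V, B⁆ ≠ ⊥}) (Set.toFinite _) ⟨A.map (psi V), le_rfl, hAoff, hAne⟩
  obtain ⟨hBA, hBoff, hBne⟩ := hBmin.prop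
  have hBmin' : ∀ B' : Subgroup (Hol V), B' ≤ B → IsBestOffenderOn 2 (Vh V) B' →
      ⁅Vh V, B'⁆ ≠ ⊥ → B' = B := fun B' h1 h2 h3 =>
    le_antisymm h1 (hBmin.le_of_le ⟨h1.trans hBA, h2, h3⟩ h1)
  obtain ⟨E, hEeq⟩ : ∃ E : Subgroup (Hol V),
      E = ⁅((pPrimeCore 2 ↥H).map H.subtype), B⁆ ⊔ B := ⟨_, rfl⟩
  have hBE : B ≤ E := by
    rw [hEeq]
    exact le_sup_right
  obtain ⟨-, hE, -, hsup, -, -⟩ :=
    Cfsg.Agent.S0617.result _ _ hV' hHV hf hS1 hS3 hH1
  obtain ⟨hHE, ⟨e⟩, hcard⟩ := hE ⟨E, B, hBA.trans hAH, hBoff, hBne, hBmin', hEeq⟩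
  have hEH : E ≤ H := (le_iSup (fun E : {E : Subgroup (Hol V) // ∃ A : Subgroup (Hol V),
      A ≤ H ∧ IsBestOffenderOn 2 (Vh V) A ∧ ⁅Vh V, A⁆ ≠ ⊥ ∧
      (∀ B : Subgroup (Hol V), B ≤ A → IsBestOffenderOn 2 (Vh V) B → ⁅Vh V, B⁆ ≠ ⊥ → B = A) ∧
      E = ⁅((pPrimeCore 2 ↥H).map H.subtype), A⁆ ⊔ A} => (E : Subgroup (Hol V)))
    ⟨E, B, hBA.trans hAH, hBoff, hBne, hBmin', hEeq⟩).trans hsup.le
  simp only at hHE e hcard
  -- a non-trivial element of `B`
  have hB1 : ∃ b ∈ B, b ≠ 1 := by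
    by_contra hcon
    apply hBne
    have h1 : B = ⊥ := (Subgroup.eq_bot_iff_forall B).2 (fun b hb => by
      by_contra hb1
      exact hcon ⟨b, hb, hb1⟩)
    rw [h1]
    exact Subgroup.commutator_bot_right _
  obtain ⟨b, hbB, hb1⟩ := hB1
  obtain ⟨a, haA, rfl⟩ := hBA hbB
  have hbE : psi V a ∈ E := hBE hbB
  have haa : psi V a * psi V a = 1 := by
    rw [← map_mul, ← pow_two, hA.1.2 a haA, map_one]
  obtain ⟨y, hyE, hy1, hy3⟩ := s3_ex E e
  have hyH : y ∈ H := hEH hyE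
  rw [hHeq] at hyH
  obtain ⟨k, hkJ, hk⟩ := hyH
  have hC : ∀ g : X, g ∈ Subgroup.centralizer (V : Set X) ↔ psi V g = 1 := by
    intro g
    rw [← psi_ker, MonoidHom.mem_ker]
  have hinv : psi V a * y * (psi V a)⁻¹ * y = 1 := s3_inv E e _ hbE hb1 haa y hyE hy3
  have hnrm : ∀ g ∈ thompsonSubgroup 2 X,
      psi V g * y * (psi V g)⁻¹ = y ∨ psi V g * y * (psi V g)⁻¹ = y⁻¹ := by
    intro g hg
    have hgH : psi V g ∈ H := by
      rw [hHeq]
      exact Subgroup.mem_map_of_mem _ hg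
    have hgN := hHE hgH
    rw [Subgroup.mem_normalizer_iff] at hgN
    have hz := (hgN y).1 hyE
    refine s3_two E e y hyE hy1 hy3 _ hz ?_ ?_
    · intro h
      apply hy1
      have h3 : y = (psi V g)⁻¹ * (psi V g * y * (psi V g)⁻¹) * psi V g := by group
      rw [h3, h]
      group
    · have h3 : (psi V g * y * (psi V g)⁻¹) ^ 3 = psi V g * y ^ 3 * (psi V g)⁻¹ := conj_pow
      rw [h3, hy3]
      group
  have hle : ⁅Vh V, E⁆ ≤ (SemidirectProduct.inl : ↥V →* Hol V).range :=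
    Subgroup.commutator_le_left _ _
  refine ⟨a, haA, k, hkJ, ?_, ?_, ?_, ?_, ?_⟩
  · rw [hC, hk]
    exact hy1
  · rw [hC, map_pow, hk]
    exact hy3
  · rw [hC, map_mul, map_mul, map_mul, map_inv, hk]
    exact hinv
  · intro g hg
    rcases hnrm g hg with h | h
    · left
      rw [hC, map_mul, map_mul, map_mul, map_inv, map_inv, hk, h]
      group
    · right
      rw [hC, map_mul, map_mul, map_mul, map_inv, hk, h]
      group
  · refine ⟨((⁅Vh V, E⁆).comap (SemidirectProduct.inl : ↥V →* Hol V)).map V.subtype, ?_, ?_⟩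
    · rw [Subgroup.card_map_of_injective V.subtype_injective,
        ← Subgroup.card_map_of_injective
          (SemidirectProduct.inl_injective (φ := MonoidHom.id (MulAut ↥V))),
        Subgroup.map_comap_eq_self hle, hcard]
      norm_num
    · intro v hv
      refine ⟨MulAut.conjNormal k ⟨v, hv⟩ * (⟨v, hv⟩ : ↥V)⁻¹, ?_, ?_⟩
      · rw [SetLike.mem_coe, Subgroup.mem_comap, map_mul, map_inv, ← psi_conj, hk]
        have h1 : ⁅(SemidirectProduct.inl (⟨v, hv⟩ : ↥V) : Hol V), y⁆ ∈ ⁅Vh V, E⁆ :=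
          Subgroup.commutator_mem_commutator ⟨_, rfl⟩ hyE
        have h2 := Subgroup.inv_mem _ h1
        rw [commutatorElement_inv, commutatorElement_def] at h2
        exact h2
      · simp [MulAut.conjNormal_apply]

example : Cfsg.Agent.H19.Sx.StStruct.{u} := struct

end Cfsg.Agent.H79.Sx

#print axioms Cfsg.Agent.H79.Sx.struct
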