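import Cfsg.Agent.H51.SyDefs
import Cfsg.Agent.H25.SxSylJ

set_option autoImplicit false

/-! SY-IFCHAR (helper79, parallel take for helper51's S2949 project): inside `↥L` (`T` Sylow in
`L`), the normalizer of a subgroup between `J(T)` and `T` normalizes `J(T)`.  Hypothesis-free
(uses helper25's landed `sylJ` and `thompson_map_conj`). -/

open Cfsg

namespace Cfsg.Agent.H79.Sy

universe u

theorem ifChar : Cfsg.Agent.H51.Sy.StIfChar.{u} := by
  intro G _ _ T L hTL S hJS hST n hn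
  have hS'L : S.map L.subtype ≤ L := by
    rintro _ ⟨s, -, rfl⟩
    exact s.2
  have hS'T : S.map L.subtype ≤ T := by
    rintro _ ⟨s, hs, rfl⟩
    exact Subgroup.mem_subgroupOf.1 (hST hs)
  have hS'2 : IsPGroup 2 ↥(S.map L.subtype) := hTL.2.1.to_le hS'T
  have hJS' : thompsonSubgroupOf 2 T ≤ S.map L.subtype := by
    intro x hx
    have hxL : x ∈ L := hTL.1 (Subgroup.map_subtype_le _ hx)
    exact ⟨⟨x, hxL⟩, hJS (Subgroup.mem_subgroupOf.2 hx), rfl⟩
  have hJeq := Cfsg.Agent.H25.Sx.sylJ T L (S.map L.subtype) hTL hS'L hS'2 hJS'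
  have hnS : ∀ s : ↥L, s ∈ S ↔ n * s * n⁻¹ ∈ S := Subgroup.mem_normalizer_iff.1 hn
  have hmap : (S.map L.subtype).map (MulAut.conj (n : G)).toMonoidHom = S.map L.subtype := by
    ext x
    constructor
    · rintro ⟨_, ⟨s, hs, rfl⟩, rfl⟩
      exact ⟨n * s * n⁻¹, (hnS s).1 hs, by simp⟩
    · rintro ⟨s, hs, rfl⟩
      refine ⟨((n⁻¹ * s * n : ↥L) : G), ⟨n⁻¹ * s * n, ?_, rfl⟩, ?_⟩
      · have e : n * (n⁻¹ * s * n) * n⁻¹ = s := by group
        exact (hnS (n⁻¹ * s * n)).2 (by rw [e]; exact hs)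
      · simp [mul_assoc]
  have hJn : (thompsonSubgroupOf 2 T).map (MulAut.conj (n : G)).toMonoidHom =
      thompsonSubgroupOf 2 T := by
    rw [← hJeq, ← Cfsg.Agent.H25.Sx.thompson_map_conj, hmap]
  rw [Subgroup.mem_normalizer_iff]
  intro x
  rw [Subgroup.mem_subgroupOf, Subgroup.mem_subgroupOf]
  constructor
  · intro hx
    have h1 : (n : G) * x * (n : G)⁻¹ ∈
        (thompsonSubgroupOf 2 T).map (MulAut.conj (n : G)).toMonoidHom := ⟨x, hx, by simp⟩
    rw [hJn] at h1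
    simpa using h1
  · intro hx
    rw [← hJn] at hx
    obtain ⟨y, hy, hyx⟩ := hx
    have h2 : y = (x : G) := by
      have h := hyx
      simp only [MulEquiv.toMonoidHom_eq_coe, MonoidHom.coe_coe, MulAut.conj_apply,
        Subgroup.coe_mul, Subgroup.coe_inv] at h
      exact mul_left_cancel (mul_right_cancel h)
    rwa [← h2]

example : Cfsg.Agent.H51.Sy.StIfChar.{u} := ifChar

end Cfsg.Agent.H79.Sy

#print axioms Cfsg.Agent.H79.Sy.ifChar
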