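import Mathlib
import Cfsg.Agent.H77.UfDefs2

/-! UF-ISO3 (helper79, for helper77's S2149): in the 3-dimensional Hermitian space over `F25`,
orthogonal isotropic vectors are proportional. -/

set_option autoImplicit false

namespace Cfsg.Agent.H79.Uf

open Cfsg.Agent.H77.Uf

/-- a 2 × 2 minor whose product with its Frobenius image vanishes is zero -/
theorem minor_zero {F : Type*} [Field F] [CharP F 5]
    (a b c d : F) (h : (a * d - b * c) * (a ^ 5 * d ^ 5 - b ^ 5 * c ^ 5) = 0) :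
    a * d - b * c = 0 := by
  have h5 : a ^ 5 * d ^ 5 - b ^ 5 * c ^ 5 = (a * d - b * c) ^ 5 := by
    rw [sub_pow_char, mul_pow, mul_pow]
  rw [h5, ← pow_succ'] at h
  exact pow_eq_zero_iff (by norm_num) |>.1 h

theorem iso3 : StIso3 := by
  intro x y hx hy hxx hyy hxy
  have : CharP F25 5 :=
    charP_of_injective_algebraMap (algebraMap (ZMod 5) F25).injective 5
  have hfrob : ∀ u : F25, u ^ 25 = u := by
    intro u
    have := FiniteField.pow_card u
    rwa [card_F25] at this
  unfold Cfsg.hermForm at hxx hyy hxy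
  rw [Fin.sum_univ_three] at hxx hyy hxy
  -- the conjugate relation
  have hyx : y 0 * x 0 ^ 5 + y 1 * x 1 ^ 5 + y 2 * x 2 ^ 5 = 0 := by
    have h5 : (x 0 * y 0 ^ 5 + x 1 * y 1 ^ 5 + x 2 * y 2 ^ 5) ^ 5 = 0 := by
      rw [hxy]; norm_num
    rw [add_pow_char, add_pow_char, mul_pow, mul_pow, mul_pow, ← pow_mul, ← pow_mul, ← pow_mul]
      at h5
    norm_num at h5
    rw [hfrob, hfrob, hfrob] at h5
    linear_combination h5
  have m2 : x 0 * y 1 - x 1 * y 0 = 0 := by
    apply minor_zero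
    linear_combination (x 0 * x 0 ^ 5 + x 1 * x 1 ^ 5) * hyy
      - (x 0 * y 0 ^ 5 + x 1 * y 1 ^ 5) * hyx + y 2 * x 2 ^ 5 * hxy - y 2 * y 2 ^ 5 * hxx
  have m0 : x 1 * y 2 - x 2 * y 1 = 0 := by
    apply minor_zero
    linear_combination (x 1 * x 1 ^ 5 + x 2 * x 2 ^ 5) * hyy
      - (x 1 * y 1 ^ 5 + x 2 * y 2 ^ 5) * hyx + y 0 * x 0 ^ 5 * hxy - y 0 * y 0 ^ 5 * hxx
  have m1 : x 2 * y 0 - x 0 * y 2 = 0 := by
    apply minor_zero
    linear_combination (x 2 * x 2 ^ 5 + x 0 * x 0 ^ 5) * hyy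
      - (x 2 * y 2 ^ 5 + x 0 * y 0 ^ 5) * hyx + y 1 * x 1 ^ 5 * hxy - y 1 * y 1 ^ 5 * hxx
  have hex : ∃ j, y j ≠ 0 := by
    by_contra hcon
    exact hy (funext fun j => not_not.1 (not_exists.1 hcon j))
  obtain ⟨j, hj⟩ := hex
  refine ⟨x j / y j, ?_⟩
  funext i
  simp only [Pi.smul_apply, smul_eq_mul]
  rw [div_mul_eq_mul_div, eq_div_iff hj]
  have key : ∀ i j : Fin 3, x i * y j = x j * y i := by
    intro i j
    fin_cases i <;> fin_cases j <;> dsimp only [] <;>
      simp only [Fin.zero_eta, Fin.mk_one, Fin.reduceFinMk] <;>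
      first
        | rfl
        | linear_combination m2
        | linear_combination -m2
        | linear_combination m0
        | linear_combination -m0
        | linear_combination m1
        | linear_combination -m1
  exact key i j

example : Cfsg.Agent.H77.Uf.StIso3 := iso3

end Cfsg.Agent.H79.Uf
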