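import Cfsg.Agent.H58.UqDefs
import Cfsg.Agent.H51.JcNORM

set_option autoImplicit false

/-! UQ-KEYC (helper79, for helper58's S2950 project): a subgroup normalizing all `L`-conjugates
of `W_K` (`K` subnormal in the maximal 2-local subgroup `L`) lies in `L`. -/

open Cfsg

namespace Cfsg.Agent.H79.Uq

open Cfsg.Agent.H58.Uq

universe u

/-- A subgroup is normalized by `y` as soon as the conjugation maps by `y` and `y⁻¹` send it
into itself. -/
theorem mem_normalizer_of_map_le {G : Type u} [Group G] (U Y : Subgroup G)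
    (key : ∀ y ∈ Y, U.map (MulAut.conj y).toMonoidHom ≤ U) :
    Y ≤ Subgroup.normalizer (U : Set G) := by
  intro y hy
  rw [Subgroup.mem_normalizer_iff]
  intro g
  constructor
  · intro hg
    exact key y hy ⟨g, hg, by simp⟩
  · intro hg
    have h1 := key y⁻¹ (Y.inv_mem hy) ⟨_, hg, rfl⟩
    have e : (MulAut.conj y⁻¹).toMonoidHom (y * g * y⁻¹) = g := by
      simp [mul_assoc]
    rwa [e] at h1

/-- The join of the `L`-conjugates of `W`. -/
def conjJoin {G : Type u} [Group G] (L W : Subgroup G) : Subgroup G :=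
  ⨆ x : ↥L, W.map (MulAut.conj (x : G)).toMonoidHom

theorem le_conjJoin {G : Type u} [Group G] (L W : Subgroup G) : W ≤ conjJoin L W := by
  intro w hw
  have h1 : W.map (MulAut.conj ((1 : ↥L) : G)).toMonoidHom ≤ conjJoin L W :=
    le_iSup (fun x : ↥L => W.map (MulAut.conj (x : G)).toMonoidHom) 1
  exact h1 ⟨w, hw, by simp⟩

theorem conjJoin_le {G : Type u} [Group G] (L W Q : Subgroup G) (hWQ : W ≤ Q)
    (hLQ : L ≤ Subgroup.normalizer (Q : Set G)) : conjJoin L W ≤ Q := by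
  apply iSup_le
  intro x
  rintro _ ⟨w, hw, rfl⟩
  have hx := hLQ x.2
  rw [Subgroup.mem_normalizer_iff] at hx
  exact (hx w).1 (hWQ hw)

theorem le_normalizer_conjJoin {G : Type u} [Group G] (L W : Subgroup G) :
    L ≤ Subgroup.normalizer ((conjJoin L W : Subgroup G) : Set G) := by
  apply mem_normalizer_of_map_le
  intro l hl
  unfold conjJoin
  rw [Subgroup.map_iSup]
  apply iSup_le
  intro x
  rw [Subgroup.map_map]
  have e : (MulAut.conj l).toMonoidHom.comp (MulAut.conj (x : G)).toMonoidHom =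
      (MulAut.conj (((⟨l, hl⟩ : ↥L) * x : ↥L) : G)).toMonoidHom := by
    ext g
    simp [mul_assoc]
  rw [e]
  exact le_iSup (fun x : ↥L => W.map (MulAut.conj (x : G)).toMonoidHom) (⟨l, hl⟩ * x)

theorem le_normalizer_conjJoin_of {G : Type u} [Group G] (L W Y : Subgroup G)
    (hY : ∀ x ∈ L, Y ≤ Subgroup.normalizer
      ((W.map (MulAut.conj x).toMonoidHom : Subgroup G) : Set G)) :
    Y ≤ Subgroup.normalizer ((conjJoin L W : Subgroup G) : Set G) := by
  apply mem_normalizer_of_map_le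
  intro y hy
  unfold conjJoin
  rw [Subgroup.map_iSup]
  apply iSup_le
  intro x
  have hyx := hY x x.2 hy
  rw [Subgroup.mem_normalizer_iff] at hyx
  have h1 : (W.map (MulAut.conj (x : G)).toMonoidHom).map (MulAut.conj y).toMonoidHom ≤
      W.map (MulAut.conj (x : G)).toMonoidHom := by
    rintro _ ⟨w, hw, rfl⟩
    exact (hyx w).1 hw
  exact h1.trans (le_iSup (fun x : ↥L => W.map (MulAut.conj (x : G)).toMonoidHom) x)

theorem keyC (hO : StO2SN.{u}) : StKeyC.{u} := by
  intro G _ _ L K Y hLmax hKL hKsn hW2 hW1 hY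
  obtain ⟨hQL, hLQ, hQ2⟩ := Cfsg.Agent.H51.Jc.pCoreOf_facts L
  have hWQ : wOf K ≤ pCoreOf 2 L := (Cfsg.Agent.H51.Jc.wOf_le K).trans (hO K L hKL hKsn)
  have hUQ : conjJoin L (wOf K) ≤ pCoreOf 2 L := conjJoin_le L (wOf K) _ hWQ hLQ
  have hU2 : IsPGroup 2 ↥(conjJoin L (wOf K)) := hQ2.to_le hUQ
  have hU1 : conjJoin L (wOf K) ≠ ⊥ := by
    intro h0
    apply hW1
    rw [eq_bot_iff, ← h0]
    exact le_conjJoin L (wOf K)
  have hNU : IsTwoLocal (Subgroup.normalizer ((conjJoin L (wOf K) : Subgroup G) : Set G)) :=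
    ⟨_, hU2, hU1, rfl⟩
  have hEq := hLmax.2 _ hNU (le_normalizer_conjJoin L (wOf K))
  rw [← hEq]
  exact le_normalizer_conjJoin_of L (wOf K) Y hY

example (hO : Cfsg.Agent.H58.Uq.StO2SN.{u}) : Cfsg.Agent.H58.Uq.StKeyC.{u} := keyC hO

end Cfsg.Agent.H79.Uq

#print axioms Cfsg.Agent.H79.Uq.keyC
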