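import Cfsg.Agent.H58.UqDefs
import Cfsg.Agent.H79.UqKeyC
import Cfsg.Agent.H59.SoConj
import Cfsg.Agent.S2942

set_option autoImplicit false

/-! UQ-END (helper79, for helper58's S2950 project): two maximal 2-local subgroups `L`, `L'`
over `⟨K, J(T)⟩` coincide.  `R = ⟨N_L(J), N_{L'}(J)⟩`, `U = ⟨W_K^ρ : ρ ∈ R⟩` is a nontrivial
2-group normalized by `L` and `L'` (Frattini + piece S), so `L = N_G(U) = L'`. -/

open Cfsg

namespace Cfsg.Agent.H79.Uq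

open Cfsg.Agent.H58.Uq

universe u

theorem map_conj_one' {G : Type u} [Group G] (K : Subgroup G) :
    K.map (MulAut.conj (1 : G)).toMonoidHom = K := by
  ext x
  simp [MulAut.conj_apply]

/-- One side of END: `U = ⟨W_K^ρ : ρ ∈ R⟩` lies in `O₂(L)` and is normalized by `L`. -/
theorem end_side (hS : StS.{u}) (hF : StFrat.{u}) (hO : StO2SN.{u})
    {G : Type u} [Group G] [Finite G] (hZN : ZN G) (T L T₁ R K : Subgroup G)
    (hL1 : L ∈ jOvergroups T₁)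
    (hJ1 : thompsonSubgroupOf 2 T₁ = thompsonSubgroupOf 2 T)
    (hRL : L ⊓ Subgroup.normalizer (thompsonSubgroupOf 2 T : Set G) ≤ R)
    (horb : ∀ ρ ∈ R, K.map (MulAut.conj ρ).toMonoidHom ∈ jComponentsZero T ∧
      K.map (MulAut.conj ρ).toMonoidHom ≤ L) :
    conjJoin R (wOf K) ≤ pCoreOf 2 L ∧
      L ≤ Subgroup.normalizer ((conjJoin R (wOf K) : Subgroup G) : Set G) := by
  obtain ⟨hLc, hLN, hLZ⟩ := hZN
  have hT1p : IsPGroup 2 ↥T₁ := hL1.1.2.1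
  have hT1ne : T₁ ≠ ⊥ := by
    intro h0
    apply hL1.2.1
    rw [h0]
    unfold thompsonSubgroupOf
    exact (Subgroup.map_subtype_le _).trans bot_le
  obtain ⟨hk0, hkc⟩ := k0_congr T T₁ hJ1
  have hcomp : ∀ ρ ∈ R, IsJComponent T₁ (K.map (MulAut.conj ρ).toMonoidHom) :=
    fun ρ hρ => (hkc _).2 (horb ρ hρ).1.1
  have hsn : ∀ ρ ∈ R, ((K.map (MulAut.conj ρ).toMonoidHom).subgroupOf L).IsSubnormal :=
    fun ρ hρ => Cfsg.Agent.S2942.result hLc hLN hLZ T₁ hT1p hT1ne L hL1 _ (hcomp ρ hρ)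
      (horb ρ hρ).2
  obtain ⟨hQL, hLQ, hQ2⟩ := Cfsg.Agent.H51.Jc.pCoreOf_facts L
  have hW : ∀ ρ ∈ R, (wOf K).map (MulAut.conj ρ).toMonoidHom ≤ pCoreOf 2 L := by
    intro ρ hρ
    rw [← Cfsg.Agent.H59.So.wOf_map_conj]
    exact (Cfsg.Agent.H51.Jc.wOf_le _).trans (hO _ L (horb ρ hρ).2 (hsn ρ hρ))
  have hUQ : conjJoin R (wOf K) ≤ pCoreOf 2 L := by
    apply iSup_le
    intro x
    exact hW x x.2
  refine ⟨hUQ, ?_⟩
  apply hF T₁ L _ hL1.1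
  · intro l hl
    apply le_normalizer_conjJoin_of
    intro ρ hρ
    rw [← Cfsg.Agent.H59.So.wOf_map_conj]
    exact hS ⟨hLc, hLN, hLZ⟩ T₁ hT1p hT1ne L hL1 _ (hcomp ρ hρ) (horb ρ hρ).2 ⟨1, by
      rw [map_conj_one', hk0]
      exact (horb ρ hρ).1⟩ l hl
  · rw [hJ1]
    exact hRL.trans (le_normalizer_conjJoin R (wOf K))

theorem endp (hOrb : StOrb.{u}) (hS : StS.{u}) (hF : StFrat.{u}) (hO : StO2SN.{u}) :
    StEnd.{u} := by
  intro G _ _ hZN T hT hT1 L L' T₁ T₂ hLmax hL'max hL1 hL2 hJ1 hJ2 K hK hKL hKL'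
  have horb := hOrb hZN T hT hT1 L L' T₁ T₂ hLmax hL'max hL1 hL2 hJ1 hJ2 K hK hKL hKL'
  obtain ⟨hUQ, hLU⟩ := end_side hS hF hO hZN T L T₁
    ((L ⊓ Subgroup.normalizer (thompsonSubgroupOf 2 T : Set G)) ⊔
      (L' ⊓ Subgroup.normalizer (thompsonSubgroupOf 2 T : Set G))) K hL1 hJ1 le_sup_left
    (fun ρ hρ => ⟨(horb ρ hρ).1, (horb ρ hρ).2.1⟩)
  obtain ⟨-, hL'U⟩ := end_side hS hF hO hZN T L' T₂
    ((L ⊓ Subgroup.normalizer (thompsonSubgroupOf 2 T : Set G)) ⊔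
      (L' ⊓ Subgroup.normalizer (thompsonSubgroupOf 2 T : Set G))) K hL2 hJ2 le_sup_right
    (fun ρ hρ => ⟨(horb ρ hρ).1, (horb ρ hρ).2.2⟩)
  obtain ⟨hQL, hLQ, hQ2⟩ := Cfsg.Agent.H51.Jc.pCoreOf_facts L
  have hU2 := hQ2.to_le hUQ
  have hW1 : wOf K ≠ ⊥ := by
    intro h0
    have h4 := hK.1.2.2.2.2.1
    rw [h0] at h4
    simp at h4
  have hU1 : conjJoin ((L ⊓ Subgroup.normalizer (thompsonSubgroupOf 2 T : Set G)) ⊔
      (L' ⊓ Subgroup.normalizer (thompsonSubgroupOf 2 T : Set G))) (wOf K) ≠ ⊥ := by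
    intro h0
    apply hW1
    rw [eq_bot_iff, ← h0]
    exact le_conjJoin _ (wOf K)
  have hNU : IsTwoLocal (Subgroup.normalizer ((conjJoin
      ((L ⊓ Subgroup.normalizer (thompsonSubgroupOf 2 T : Set G)) ⊔
      (L' ⊓ Subgroup.normalizer (thompsonSubgroupOf 2 T : Set G))) (wOf K) : Subgroup G) :
        Set G)) := ⟨_, hU2, hU1, rfl⟩
  have e1 := hLmax.2 _ hNU hLU
  have e2 := hL'max.2 _ hNU hL'U
  rw [← e2]
  exact e1

example (hOrb : Cfsg.Agent.H58.Uq.StOrb.{u}) (hS : Cfsg.Agent.H58.Uq.StS.{u})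
    (hF : Cfsg.Agent.H58.Uq.StFrat.{u}) (hO : Cfsg.Agent.H58.Uq.StO2SN.{u}) :
    Cfsg.Agent.H58.Uq.StEnd.{u} := endp hOrb hS hF hO

end Cfsg.Agent.H79.Uq

#print axioms Cfsg.Agent.H79.Uq.endp
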