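import Mathlib
import Cfsg.Prelude.Def_Blocks
import Cfsg.Prelude.Def_BrauerPairs
import Cfsg.Agent.S0887
import Cfsg.Agent.S0906
import Cfsg.Agent.H79.CentralDefect
import Cfsg.Agent.H79.ExtFirstMain
import Cfsg.Agent.H79.HeightZeroInertia
import Cfsg.Agent.H79.NormalBlocks
import Cfsg.Agent.H79.PrincipalCover
import Cfsg.Agent.H82.Irr
import Cfsg.Agent.H81.Reg
import Cfsg.Agent.H20.DefectOrder

/-!
# Characters of defect zero and normal subgroups; weights (helper79)

* `pullIrr`: pull back of an irreducible character along a surjective homomorphism.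
* `sum_comp_surjective_hom`, `classInner_comp_surjective`.
* `defectZero_under`: constituents of the restriction of a defect-zero character to a normal
  subgroup have defect zero.
* `normal_pgroup_eq_bot_of_defectZero`: a group with a defect-zero character has no nontrivial
  normal `p`-subgroup.
-/

set_option autoImplicit false
set_option linter.unusedSectionVars false
set_option linter.style.haveILetI false

namespace Cfsg.Agent.H79

open Cfsg Cfsg.Agent.H20 Cfsg.Agent.H4 Cfsg.Agent.Clifford
open scoped ComplexConjugate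

universe u

section Pull

variable {H K : Type u} [Group H] [Group K]

/-- Pull back of an irreducible character along a surjective homomorphism. -/
def pullIrr (f : H →* K) (hf : Function.Surjective f) (χ : IrrCharacter K) : IrrCharacter H :=
  ⟨fun h => χ.1 (f h), by
    obtain ⟨n, ρ, hirr, hχ⟩ := χ.2
    refine ⟨n, (ρ.comp f : Representation ℂ H (Fin n → ℂ)),
      (Cfsg.Agent.H82.irreducible_comp_iff ρ f hf).mpr hirr, ?_⟩
    ext h
    rw [← hχ]
    rfl⟩

theorem pullIrr_apply (f : H →* K) (hf : Function.Surjective f) (χ : IrrCharacter K) (h : H) :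
    (pullIrr f hf χ).1 h = χ.1 (f h) := rfl

theorem charDegree_pullIrr (f : H →* K) (hf : Function.Surjective f) (χ : IrrCharacter K) :
    charDegree (pullIrr f hf χ).1 = charDegree χ.1 := by
  change ⌊((pullIrr f hf χ).1 1).re⌋₊ = ⌊(χ.1 1).re⌋₊
  rw [pullIrr_apply, map_one]

theorem sum_comp_surjective_hom [Fintype H] [Fintype K] (f : H →* K)
    (hf : Function.Surjective f) (F : K → ℂ) :
    ∑ h : H, F (f h) = (Nat.card f.ker : ℂ) * ∑ k : K, F k := by
  classical
  rw [← Finset.sum_fiberwise' Finset.univ (fun h => f h) F, Finset.mul_sum]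
  apply Finset.sum_congr rfl
  intro k _
  rw [Finset.sum_const, nsmul_eq_mul]
  congr 1
  have h1 : (Finset.univ.filter (fun h : H => f h = k)).card
      = (Finset.univ.filter (fun h : H => f h = 1)).card :=
    MonoidHom.card_fiber_eq_of_mem_range f (hf k) (hf 1)
  rw [h1]
  have h2 : (Finset.univ.filter (fun h : H => f h = 1)).card = Nat.card f.ker := by
    rw [Nat.card_congr (Equiv.subtypeEquivRight (fun h : H => (MonoidHom.mem_ker (f := f)))),
      Nat.card_eq_fintype_card, Fintype.card_subtype]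
  rw [h2]

theorem card_eq_card_ker_mul [Finite H] [Finite K] (f : H →* K) (hf : Function.Surjective f) :
    Nat.card H = Nat.card f.ker * Nat.card K := by
  have h1 := Subgroup.card_mul_index f.ker
  rw [Subgroup.index_ker, MonoidHom.range_eq_top.mpr hf, Subgroup.card_top] at h1
  exact h1.symm

theorem classInner_comp_surjective [Fintype H] [Fintype K] (f : H →* K)
    (hf : Function.Surjective f) (A B : K → ℂ) :
    classInner (fun h => A (f h)) (fun h => B (f h)) = classInner A B := by
  unfold classInner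
  rw [sum_comp_surjective_hom f hf (fun k => A k * conj (B k)), card_eq_card_ker_mul f hf]
  have hk : (Nat.card f.ker : ℂ) ≠ 0 := Nat.cast_ne_zero.mpr Nat.card_pos.ne'
  have hK : (Nat.card K : ℂ) ≠ 0 := Nat.cast_ne_zero.mpr Nat.card_pos.ne'
  push_cast
  field_simp

end Pull

section DZ

variable {X : Type u} [Group X] [Fintype X] {p : ℕ} [Fact p.Prime]

/-- Constituents of the restriction of a defect-zero character to a normal subgroup have defect
zero. -/
theorem defectZero_under (N : Subgroup X) [N.Normal] [Fintype N] (χ : IrrCharacter X)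
    (hχ : (charDegree χ.1).factorization p = (Nat.card X).factorization p)
    (ϑ : IrrCharacter N) (hcon : classInner (fun n : N => χ.1 n) ϑ.1 ≠ 0) :
    (charDegree ϑ.1).factorization p = (Nat.card N).factorization p := by
  have hp : p.Prime := Fact.out
  obtain ⟨h1, h2⟩ := Cfsg.Agent.S0887.result N χ.1 χ.2 ϑ.1 ϑ.2 hcon (charDegree χ.1)
    (charDegree ϑ.1) (Cfsg.Agent.H82.irr_one_eq_charDegree χ)
    (Cfsg.Agent.H82.irr_one_eq_charDegree ϑ)
  have hd0 : charDegree ϑ.1 ≠ 0 := (Cfsg.Agent.H82.charDegree_pos ϑ).ne'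
  have hc0 : charDegree χ.1 ≠ 0 := (Cfsg.Agent.H82.charDegree_pos χ).ne'
  obtain ⟨m, hm⟩ := h1
  have hm0 : m ≠ 0 := by
    rintro rfl
    rw [mul_zero] at hm
    exact hc0 hm
  have hdiv : charDegree χ.1 / charDegree ϑ.1 = m := by
    rw [hm]
    exact Nat.mul_div_cancel_left m (Nat.pos_of_ne_zero hd0)
  rw [hdiv] at h2
  have hidx0 : N.index ≠ 0 := Subgroup.index_ne_zero_of_finite
  have hcard : Nat.card N * N.index = Nat.card X := Subgroup.card_mul_index N
  have hN0 : Nat.card N ≠ 0 := Nat.card_pos.ne'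
  have e1 : (charDegree χ.1).factorization p
      = (charDegree ϑ.1).factorization p + m.factorization p := by
    rw [hm, Nat.factorization_mul hd0 hm0]
    rfl
  have e2 : (Nat.card X).factorization p
      = (Nat.card N).factorization p + N.index.factorization p := by
    rw [← hcard, Nat.factorization_mul hN0 hidx0]
    rfl
  have e3 : m.factorization p ≤ N.index.factorization p :=
    (Nat.factorization_le_iff_dvd hm0 hidx0).mpr h2 p
  have e4 : (charDegree ϑ.1).factorization p ≤ (Nat.card N).factorization p :=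
    (Nat.factorization_le_iff_dvd hd0 hN0).mpr (Cfsg.Agent.H81.irr_charDegree_dvd ϑ) p
  omega

/-- The square of the degree of an irreducible character is at most the group order. -/
theorem charDegree_sq_le (ϑ : IrrCharacter X) : charDegree ϑ.1 ^ 2 ≤ Nat.card X := by
  have h := Cfsg.Agent.H82.irr_norm_sq ϑ
  have h' : ((∑ g : X, Complex.normSq (ϑ.1 g) : ℝ) : ℂ) = ((Nat.card X : ℝ) : ℂ) := by
    rw [Complex.ofReal_sum]
    push_cast
    rw [← h]
    apply Finset.sum_congr rfl
    intro g _
    rw [Complex.mul_conj]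
  have h'' : ∑ g : X, Complex.normSq (ϑ.1 g) = (Nat.card X : ℝ) := Complex.ofReal_injective h'
  have h1le : Complex.normSq (ϑ.1 1) ≤ ∑ g : X, Complex.normSq (ϑ.1 g) :=
    Finset.single_le_sum (f := fun g => Complex.normSq (ϑ.1 g))
      (fun g _ => Complex.normSq_nonneg _) (Finset.mem_univ 1)
  rw [Cfsg.Agent.H82.irr_one_eq_charDegree ϑ, Complex.normSq_natCast, h''] at h1le
  have : ((charDegree ϑ.1 ^ 2 : ℕ) : ℝ) ≤ (Nat.card X : ℝ) := by
    push_cast
    nlinarith [h1le]
  exact_mod_cast this

/-- A finite group with an irreducible character of `p`-defect zero has no nontrivial normal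
`p`-subgroup. -/
theorem normal_pgroup_eq_bot_of_defectZero (R : Subgroup X) [R.Normal] (hR : IsPGroup p R)
    (χ : IrrCharacter X)
    (hχ : (charDegree χ.1).factorization p = (Nat.card X).factorization p) : R = ⊥ := by
  classical
  have hp : p.Prime := Fact.out
  haveI : Fintype R := Fintype.ofFinite R
  obtain ⟨ϑ, hϑ⟩ := exists_constituent_res R χ
  have h1 := defectZero_under R χ hχ ϑ hϑ
  obtain ⟨k, hk⟩ := hR.exists_card_eq
  have hd0 := Cfsg.Agent.H82.charDegree_pos ϑ
  have hdvd : Nat.card R ∣ charDegree ϑ.1 := by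
    have h2 : (Nat.card R).factorization p = k := by
      rw [hk, hp.factorization_pow]
      simp
    rw [hk, ← h2, ← h1]
    exact Nat.ordProj_dvd _ _
  have hle : Nat.card R ≤ charDegree ϑ.1 := Nat.le_of_dvd hd0 hdvd
  have hsq := charDegree_sq_le ϑ
  have hR1 : Nat.card R ≤ 1 := by
    by_contra hgt
    push Not at hgt
    nlinarith [Nat.mul_le_mul hle hle]
  exact Subgroup.eq_bot_of_card_le R hR1

end DZ

section Weight

variable {G : Type u} [Group G] [Fintype G] {p : ℕ} [Fact p.Prime] {M : Ideal AlgInt}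

omit [Fintype G] in
theorem subgroupBlockCoeff_of_mem (H : Subgroup G) (e : Set (IrrCharacter H)) {g : G}
    (h : g ∈ H) : subgroupBlockCoeff H e g = blockCoeff e ⟨g, h⟩ := by
  unfold subgroupBlockCoeff
  exact dif_pos h

omit [Fintype G] in
theorem subgroupBlockCoeff_of_not_mem (H : Subgroup G) (e : Set (IrrCharacter H)) {g : G}
    (h : g ∉ H) : subgroupBlockCoeff H e g = 0 := by
  unfold subgroupBlockCoeff
  exact dif_neg h

omit [Fintype G] in
theorem normalizer_le_normalizer_centralizer (Q : Subgroup G) :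
    Subgroup.normalizer (Q : Set G)
      ≤ Subgroup.normalizer ((Subgroup.centralizer (Q : Set G) : Subgroup G) : Set G) := by
  rw [Subgroup.le_normalizer_iff]
  intro x hx c hc
  rw [Subgroup.mem_centralizer_iff]
  intro q hq
  have h1 : x⁻¹ * q * x ∈ Q := (Subgroup.mem_normalizer_iff''.mp hx q).mp hq
  have h2 := (Subgroup.mem_centralizer_iff.mp hc) _ h1
  have e1 : q * (x * c * x⁻¹) = x * ((x⁻¹ * q * x) * c) * x⁻¹ := by group
  rw [e1, h2]
  group

/-- If the idempotent of the set `F'` of irreducible characters of `T` is that of the `T`-stable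
set `e` of irreducible characters of the normal subgroup `C`, then every constituent of the
restriction to `C` of a member of `F'` lies in `e`. -/
theorem constituent_mem_of_coeff_eq (T C : Subgroup G) (hCT : C ≤ T) [Fintype T] [Fintype C]
    (hCn : (C.subgroupOf T).Normal) (e : Set (IrrCharacter C))
    (hst : ∀ t : T, ∀ μ ∈ e, ∃ μ' ∈ e, IsConjCharOf C (t : G) μ.1 μ'.1)
    (F' : Set (IrrCharacter T))
    (hF'e : ∀ t : T, blockCoeff F' t = subgroupBlockCoeff C e (t : G))
    (χ : IrrCharacter T) (hχ : χ ∈ F') (ψ : IrrCharacter C)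
    (hψ : classInner (fun c : C => χ.1 ⟨(c : G), hCT c.2⟩) ψ.1 ≠ 0) : ψ ∈ e := by
  classical
  have hsum : ∑ t : T, subgroupBlockCoeff C e (t : G) * χ.1 t
      = ∑ c : C, blockCoeff e c * χ.1 ⟨(c : G), hCT c.2⟩ := by
    let ι : C ↪ T := ⟨fun c => ⟨(c : G), hCT c.2⟩,
      fun a b hab => Subtype.ext (congrArg (fun t : T => (t : G)) hab)⟩
    have h1 : ∑ c : C, blockCoeff e c * χ.1 ⟨(c : G), hCT c.2⟩
        = ∑ t ∈ Finset.univ.map ι, subgroupBlockCoeff C e (t : G) * χ.1 t := by
      rw [Finset.sum_map]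
      apply Finset.sum_congr rfl
      intro c _
      have : subgroupBlockCoeff C e ((ι c : T) : G) = blockCoeff e c :=
        subgroupBlockCoeff_of_mem C e c.2
      rw [this]
      rfl
    rw [h1]
    symm
    apply Finset.sum_subset (Finset.subset_univ _)
    intro t _ ht
    have htC : (t : G) ∉ C := by
      intro h
      apply ht
      rw [Finset.mem_map]
      exact ⟨⟨(t : G), h⟩, Finset.mem_univ _, Subtype.ext rfl⟩
    rw [subgroupBlockCoeff_of_not_mem C e htC, zero_mul]
  have hχ1 : ∑ t : T, blockCoeff F' t * χ.1 t = χ.1 1 := by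
    rw [sum_blockCoeff_mul_irr F' χ, if_pos hχ]
  have hφ : IsClassFunction C (fun c : C => χ.1 ⟨(c : G), hCT c.2⟩) := by
    intro g h
    exact Cfsg.Agent.H82.irr_conj χ ⟨(g : G), hCT g.2⟩ ⟨(h : G), hCT h.2⟩
  have h2 := sum_blockCoeff_mul_classFunction e hφ
  have h3 : ∑ᶠ μ ∈ e, classInner (fun c : C => χ.1 ⟨(c : G), hCT c.2⟩) μ.1 * μ.1 1
      = χ.1 1 := by
    rw [← h2, ← hsum, ← hχ1]
    apply Finset.sum_congr rfl
    intro t _
    rw [hF'e t]
  obtain ⟨μ₀, hμ₀e, hμ₀⟩ : ∃ μ₀ ∈ e,
      classInner (fun c : C => χ.1 ⟨(c : G), hCT c.2⟩) μ₀.1 ≠ 0 := by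
    by_contra hne
    push Not at hne
    have : ∑ᶠ μ ∈ e, classInner (fun c : C => χ.1 ⟨(c : G), hCT c.2⟩) μ.1 * μ.1 1 = 0 := by
      apply finsum_mem_eq_zero_of_forall_eq_zero
      intro μ hμ
      rw [hne μ hμ, zero_mul]
    rw [this] at h3
    exact Cfsg.Agent.H82.irr_one_ne_zero χ h3.symm
  haveI hCn' : (C.subgroupOf T).Normal := hCn
  letI : Fintype (C.subgroupOf T) := Fintype.ofFinite _
  have key : ∀ θ : IrrCharacter C,
      classInner (fun k : C.subgroupOf T => χ.1 k) (liftIrr T C hCT θ).1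
        = classInner (fun c : C => χ.1 ⟨(c : G), hCT c.2⟩) θ.1 := by
    intro θ
    rw [← classInner_comp_equiv (Subgroup.subgroupOfEquivOfLe hCT)
      (fun c : C => χ.1 ⟨(c : G), hCT c.2⟩) θ.1]
    rfl
  have h1 : classInner (fun k : C.subgroupOf T => χ.1 k) (liftIrr T C hCT μ₀).1 ≠ 0 := by
    rw [key]
    exact hμ₀
  have h2' : classInner (fun k : C.subgroupOf T => χ.1 k) (liftIrr T C hCT ψ).1 ≠ 0 := by
    rw [key]
    exact hψ
  obtain ⟨g, hg⟩ := clifford_conj (N := C.subgroupOf T) χ.2 (liftIrr T C hCT μ₀).2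
    (liftIrr T C hCT ψ).2 h1 h2'
  obtain ⟨μ', hμ'e, hμ'⟩ := hst g⁻¹ μ₀ hμ₀e
  have hmem : ∀ k' : C, (g : G) * (k' : G) * (g : G)⁻¹ ∈ C := by
    intro k'
    have := hCn.conj_mem (⟨(k' : G), hCT k'.2⟩ : T)
      (Subgroup.mem_subgroupOf.mpr k'.2) g
    exact Subgroup.mem_subgroupOf.mp this
  have hψμ' : ψ = μ' := by
    apply Subtype.ext
    funext k'
    have e1 : ψ.1 k' = μ₀.1 ⟨(g : G) * (k' : G) * (g : G)⁻¹, hmem k'⟩ := by
      have h5 := congrFun hg ⟨⟨(k' : G), hCT k'.2⟩, Subgroup.mem_subgroupOf.mpr k'.2⟩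
      rw [conjChar_apply, liftIrr_apply, liftIrr_apply] at h5
      exact h5
    rw [e1]
    symm
    apply hμ' ⟨(g : G) * (k' : G) * (g : G)⁻¹, hmem k'⟩ k'
    show (k' : G) = ((g⁻¹ : T) : G) * ((g : G) * (k' : G) * (g : G)⁻¹) * ((g⁻¹ : T) : G)⁻¹
    rw [Subgroup.coe_inv]
    group
  rw [hψμ']
  exact hμ'e

/-- A Brauer pair carrying a weight is centric and radical. -/
theorem weight_centric_radical (hM : IsPModular p M) (B : Set (IrrCharacter G)) (Q : Subgroup G)
    (e : Set (IrrCharacter (Subgroup.centralizer (Q : Set G))))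
    (hQe : IsBrauerPairOf p M B Q e) (T : Subgroup G)
    (hT : ∀ y : G, y ∈ T ↔ y ∈ Subgroup.normalizer (Q : Set G) ∧
      StabilizesBlock (Subgroup.centralizer (Q : Set G)) e y)
    (F' : Set (IrrCharacter T))
    (hF'e : ∀ t : T, blockCoeff F' t
      = subgroupBlockCoeff (Subgroup.centralizer (Q : Set G)) e (t : G))
    (χ : IrrCharacter T) (hχ : χ ∈ F')
    (hχQ : ∀ q : G, q ∈ Q → ∀ t : T, ∀ t' : T, (t' : G) = q * (t : G) → χ.1 t' = χ.1 t)
    (hdeg : (charDegree χ.1).factorization p + (Nat.card Q).factorization p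
      = (Nat.card T).factorization p) :
    IsDefectGroup p M e ((Q ⊓ Subgroup.centralizer (Q : Set G)).subgroupOf
        (Subgroup.centralizer (Q : Set G))) ∧
      ∀ R : Subgroup G, R ≤ T → IsPGroup p R →
        (∀ t ∈ T, t ∈ Subgroup.normalizer (R : Set G)) → R ≤ Q := by
  classical
  have hp : p.Prime := Fact.out
  have hMp := isPrime_of_isPModular hM
  obtain ⟨⟨hQp, he⟩, hB, -⟩ := hQe
  letI : Fintype T := Fintype.ofFinite T
  letI : Fintype (Subgroup.centralizer (Q : Set G)) := Fintype.ofFinite _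
  have hTN : T ≤ Subgroup.normalizer (Q : Set G) := fun t ht => ((hT t).mp ht).1
  have hTNC : T ≤ Subgroup.normalizer ((Subgroup.centralizer (Q : Set G) : Subgroup G) : Set G) :=
    fun t ht => ((hT t).mp ht).2.1
  have hCT : Subgroup.centralizer (Q : Set G) ≤ T := by
    intro c hc
    rw [hT]
    refine ⟨Subgroup.centralizer_le_normalizer _ hc, Subgroup.le_normalizer hc, ?_⟩
    intro μ hμ
    refine ⟨μ, hμ, ?_⟩
    intro k k' hk
    have : k' = (⟨c, hc⟩ : Subgroup.centralizer (Q : Set G)) * k
        * (⟨c, hc⟩ : Subgroup.centralizer (Q : Set G))⁻¹ := Subtype.ext (by rw [hk]; rfl)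
    rw [this]
    exact Cfsg.Agent.H82.irr_conj μ k ⟨c, hc⟩
  have hQT : Q ≤ T := by
    intro q hq
    rw [hT]
    refine ⟨Subgroup.le_normalizer hq,
      normalizer_le_normalizer_centralizer Q (Subgroup.le_normalizer hq), ?_⟩
    intro μ hμ
    refine ⟨μ, hμ, ?_⟩
    intro k k' hk
    have : k' = k := by
      apply Subtype.ext
      rw [hk]
      have h1 := Subgroup.mem_centralizer_iff.mp k.2 q hq
      rw [h1, mul_inv_cancel_right]
    rw [this]
  haveI hQ'n : (Q.subgroupOf T).Normal := Subgroup.normal_subgroupOf_of_le_normalizer hTN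
  have hker : ∀ x ∈ Q.subgroupOf T, χ.1 x = χ.1 1 := by
    intro x hx
    exact hχQ (x : G) (Subgroup.mem_subgroupOf.mp hx) 1 x (by simp)
  obtain ⟨χb, hχb⟩ := Cfsg.Agent.H82.exists_deflate (Q.subgroupOf T) χ hker
  have hχb_apply : ∀ t : T, χ.1 t = χb.1 (QuotientGroup.mk t) := by
    intro t
    rw [← hχb]
    rfl
  letI : Fintype (T ⧸ Q.subgroupOf T) := Fintype.ofFinite _
  have hcardQ : Nat.card (Q.subgroupOf T) = Nat.card Q :=
    Nat.card_congr (Subgroup.subgroupOfEquivOfLe hQT).toEquiv
  have hcardT : Nat.card T = Nat.card (T ⧸ Q.subgroupOf T) * Nat.card Q := by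
    rw [← hcardQ]
    exact Subgroup.card_eq_card_quotient_mul_card_subgroup _
  have hdz : (charDegree χb.1).factorization p
      = (Nat.card (T ⧸ Q.subgroupOf T)).factorization p := by
    have h1 : charDegree χb.1 = charDegree χ.1 := by
      rw [← hχb, Cfsg.Agent.H82.charDegree_inflate]
    have h2 : (Nat.card T).factorization p
        = (Nat.card (T ⧸ Q.subgroupOf T)).factorization p + (Nat.card Q).factorization p := by
      rw [hcardT, Nat.factorization_mul Nat.card_pos.ne' Nat.card_pos.ne']
      rfl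
    rw [h1]
    omega
  refine ⟨?_, ?_⟩
  swap
  · intro R hRT hR hRn
    haveI : (R.subgroupOf T).Normal :=
      Subgroup.normal_subgroupOf_of_le_normalizer (fun t ht => hRn t ht)
    have hRb : IsPGroup p ((R.subgroupOf T).map (QuotientGroup.mk' (Q.subgroupOf T))) :=
      (hR.comap_of_injective T.subtype T.subtype_injective).map _
    haveI : ((R.subgroupOf T).map (QuotientGroup.mk' (Q.subgroupOf T))).Normal :=
      Subgroup.Normal.map inferInstance _ (QuotientGroup.mk'_surjective _)
    have hbot := normal_pgroup_eq_bot_of_defectZero _ hRb χb hdz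
    intro r hr
    have h1 : (QuotientGroup.mk' (Q.subgroupOf T)) ⟨r, hRT hr⟩
        ∈ (R.subgroupOf T).map (QuotientGroup.mk' (Q.subgroupOf T)) :=
      Subgroup.mem_map_of_mem _ (Subgroup.mem_subgroupOf.mpr hr)
    rw [hbot, Subgroup.mem_bot] at h1
    have h2 : (⟨r, hRT hr⟩ : T) ∈ Q.subgroupOf T := (QuotientGroup.eq_one_iff _).mp h1
    exact Subgroup.mem_subgroupOf.mp h2
  · haveI hC'n : ((Subgroup.centralizer (Q : Set G)).subgroupOf T).Normal :=
      Subgroup.normal_subgroupOf_of_le_normalizer hTNC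
    set Cb : Subgroup (T ⧸ Q.subgroupOf T) :=
      ((Subgroup.centralizer (Q : Set G)).subgroupOf T).map (QuotientGroup.mk' (Q.subgroupOf T))
      with hCb
    haveI : Cb.Normal := Subgroup.Normal.map hC'n _ (QuotientGroup.mk'_surjective _)
    letI : Fintype Cb := Fintype.ofFinite Cb
    obtain ⟨ψb, hψb⟩ := exists_constituent_res Cb χb
    have hψbdz := defectZero_under Cb χb hdz ψb hψb
    let f : Subgroup.centralizer (Q : Set G) →* Cb :=
      MonoidHom.codRestrict
        ((QuotientGroup.mk' (Q.subgroupOf T)).comp (Subgroup.inclusion hCT)) Cb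
        (fun c => Subgroup.mem_map_of_mem _ (Subgroup.mem_subgroupOf.mpr c.2))
    have hf : Function.Surjective f := by
      rintro ⟨y, hy⟩
      obtain ⟨x, hx, rfl⟩ := Subgroup.mem_map.mp hy
      exact ⟨⟨(x : G), Subgroup.mem_subgroupOf.mp hx⟩, Subtype.ext rfl⟩
    set ψ : IrrCharacter (Subgroup.centralizer (Q : Set G)) := pullIrr f hf ψb with hψdef
    have hψcon : classInner (fun c : Subgroup.centralizer (Q : Set G) =>
        χ.1 ⟨(c : G), hCT c.2⟩) ψ.1 ≠ 0 := by
      have h1 : (fun c : Subgroup.centralizer (Q : Set G) => χ.1 ⟨(c : G), hCT c.2⟩)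
          = fun c : Subgroup.centralizer (Q : Set G) =>
            χb.1 ((f c : Cb) : T ⧸ Q.subgroupOf T) := by
        funext c
        rw [hχb_apply]
        rfl
      rw [h1, show ψ.1 = fun c => ψb.1 (f c) from rfl,
        classInner_comp_surjective f hf (fun y : Cb => χb.1 y) ψb.1]
      exact hψb
    have hψe : ψ ∈ e :=
      constituent_mem_of_coeff_eq T _ hCT hC'n e
        (fun t μ hμ => ((hT t).mp t.2).2.2 μ hμ) F' hF'e χ hχ ψ hψcon
    set D : Subgroup (Subgroup.centralizer (Q : Set G)) :=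
      (Q ⊓ Subgroup.centralizer (Q : Set G)).subgroupOf (Subgroup.centralizer (Q : Set G))
      with hDdef
    have hDker : D = f.ker := by
      ext x
      rw [MonoidHom.mem_ker, hDdef, Subgroup.mem_subgroupOf, Subgroup.mem_inf]
      constructor
      · rintro ⟨hxQ, -⟩
        apply Subtype.ext
        show (QuotientGroup.mk' (Q.subgroupOf T)) ⟨(x : G), hCT x.2⟩ = 1
        exact (QuotientGroup.eq_one_iff (N := Q.subgroupOf T) (⟨(x : G), hCT x.2⟩ : T)).mpr
          (Subgroup.mem_subgroupOf.mpr hxQ)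
      · intro hx
        have h1 : (QuotientGroup.mk' (Q.subgroupOf T)) ⟨(x : G), hCT x.2⟩ = 1 :=
          congrArg Subtype.val hx
        exact ⟨Subgroup.mem_subgroupOf.mp
          ((QuotientGroup.eq_one_iff (N := Q.subgroupOf T) (⟨(x : G), hCT x.2⟩ : T)).mp h1), x.2⟩
    have hDidx : D.index = Nat.card Cb := by
      rw [hDker, Subgroup.index_ker, MonoidHom.range_eq_top.mpr hf, Subgroup.card_top]
    have hDp : IsPGroup p D :=
      (hQp.to_le inf_le_left).comap_of_injective (Subgroup.centralizer (Q : Set G)).subtype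
        (Subgroup.centralizer (Q : Set G)).subtype_injective
    have hDZ : D ≤ Subgroup.center (Subgroup.centralizer (Q : Set G)) := by
      intro x hx
      rw [hDdef, Subgroup.mem_subgroupOf, Subgroup.mem_inf] at hx
      rw [Subgroup.mem_center_iff]
      intro c
      apply Subtype.ext
      exact (Subgroup.mem_centralizer_iff.mp c.2 (x : G) hx.1).symm
    have hψdeg : (charDegree ψ.1).factorization p = D.index.factorization p := by
      rw [hDidx, hψdef, charDegree_pullIrr]
      exact hψbdz
    obtain ⟨χ₀, rfl⟩ := he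
    have hblk : blockOf M ψ.1 = blockOf M χ₀.1 := Cfsg.Agent.H80.blockOf_eq_of_mem hMp hψe
    have hall : ∀ ψ' ∈ blockOf M χ₀.1,
        D.index.factorization p ≤ (charDegree ψ'.1).factorization p := by
      intro ψ' hψ'
      rw [← hblk] at hψ'
      exact factorization_le_of_sameBlock hM D hDp hDZ ψ ψ' hψdeg hψ'
    obtain ⟨y, hy⟩ := Cfsg.Agent.S0906.result p M hM (blockOf M χ₀.1) ⟨χ₀, rfl⟩
    obtain ⟨S⟩ := (inferInstance : Nonempty (Sylow p (Subgroup.centralizer
      ({y} : Set (Subgroup.centralizer (Q : Set G))))))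
    have hD₀ : IsDefectGroup p M (blockOf M χ₀.1)
        ((S : Subgroup (Subgroup.centralizer ({y} : Set (Subgroup.centralizer (Q : Set G))))).map
          (Subgroup.centralizer ({y} : Set (Subgroup.centralizer (Q : Set G)))).subtype) :=
      ⟨y, hy, S, rfl⟩
    haveI : D.Normal := ⟨fun n hn g => by
      have := Subgroup.mem_center_iff.mp (hDZ hn) g
      rw [this, mul_inv_cancel_right]
      exact hn⟩
    have hle := normal_le_defectGroup hM D hDp χ₀ _ hD₀
    have hcard₀ := card_defectGroup hM χ₀ _ hD₀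
    have hdef : blockDefect p (blockOf M χ₀.1) = (Nat.card D).factorization p := by
      unfold blockDefect
      have hinf : sInf ((fun χ : IrrCharacter (Subgroup.centralizer (Q : Set G)) =>
          (charDegree χ.1).factorization p) '' blockOf M χ₀.1) = D.index.factorization p := by
        apply le_antisymm
        · rw [← hψdeg]
          exact Nat.sInf_le ⟨ψ, hψe, rfl⟩
        · have hne : ((fun χ : IrrCharacter (Subgroup.centralizer (Q : Set G)) =>
              (charDegree χ.1).factorization p) '' blockOf M χ₀.1).Nonempty :=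
            ⟨_, ψ, hψe, rfl⟩
          obtain ⟨ψ', hψ', h'⟩ := Nat.sInf_mem hne
          rw [← h']
          exact hall ψ' hψ'
      rw [hinf]
      have h1 := Subgroup.card_mul_index D
      have h2 : (Nat.card (Subgroup.centralizer (Q : Set G))).factorization p
          = (Nat.card D).factorization p + D.index.factorization p := by
        rw [← h1, Nat.factorization_mul Nat.card_pos.ne' Subgroup.index_ne_zero_of_finite]
        rfl
      omega
    have hcardD : Nat.card ((S : Subgroup (Subgroup.centralizer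
        ({y} : Set (Subgroup.centralizer (Q : Set G))))).map
          (Subgroup.centralizer ({y} : Set (Subgroup.centralizer (Q : Set G)))).subtype)
        = Nat.card D := by
      rw [hcard₀, hdef]
      obtain ⟨k, hk⟩ := hDp.exists_card_eq
      rw [hk, hp.factorization_pow]
      simp
    have hDeq := Subgroup.eq_of_le_of_card_ge hle hcardD.le
    rw [hDeq]
    exact hD₀

end Weight

end Cfsg.Agent.H79
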